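import Mathlib
import Cfsg.Agent.S1453
import Cfsg.Agent.S0126

/-!
helper30: narrow `p`-groups from maximal elementary abelian subgroups of order `p ^ 2`
(Bender–Glauberman, Lemma 5.2-type statement used for Lemma 10.8), transport of `IsNarrow`
along isomorphisms, and narrowness of the Sylow `p`-subgroups for a non-ideal prime.
-/

set_option autoImplicit false

open Cfsg

namespace Cfsg.Agent.Lib.Helper30.BGN

/-- A subgroup generated by pairwise commuting elements of exponent `p` is elementary abelian. -/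
theorem isElementaryAbelian_closure {R : Type*} [Group R] {p : ℕ} {s : Set R}
    (hc : ∀ a ∈ s, ∀ b ∈ s, a * b = b * a) (hp : ∀ a ∈ s, a ^ p = 1) :
    IsElementaryAbelian p (Subgroup.closure s) := by
  have h1 : ∀ a ∈ Subgroup.closure s, ∀ b ∈ s, Commute a b := by
    intro a ha b hb
    induction ha using Subgroup.closure_induction with
    | mem x hx => exact hc x hx b hb
    | one => exact Commute.one_left b
    | mul x y _ _ hx hy => exact Commute.mul_left hx hy
    | inv x _ hx => exact Commute.inv_left hx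
  have h2 : ∀ a ∈ Subgroup.closure s, ∀ b ∈ Subgroup.closure s, Commute a b := by
    intro a ha b hb
    induction hb using Subgroup.closure_induction with
    | mem x hx => exact h1 a ha x hx
    | one => exact Commute.one_right a
    | mul x y _ _ hx hy => exact Commute.mul_right hx hy
    | inv x _ hx => exact Commute.inv_right hx
  refine ⟨⟨⟨fun a b => Subtype.ext (h2 a a.2 b b.2).eq⟩⟩, ?_⟩
  intro a ha
  induction ha using Subgroup.closure_induction with
  | mem x hx => exact hp x hx
  | one => exact one_pow p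
  | mul x y hx' hy' hx hy => rw [(h2 x hx' y hy').mul_pow, hx, hy, one_mul]
  | inv x _ hx => rw [inv_pow, hx, inv_one]

theorem pRankLE_subgroup {G : Type*} [Group G] {p k : ℕ} (H : Subgroup G) (h : PRankLE p k G) :
    PRankLE p k ↥H := by
  intro B hBc hBp
  have h1 := h (B.map H.subtype) ?_ ?_
  · rwa [Subgroup.card_map_of_injective H.subtype_injective] at h1
  · refine ⟨⟨fun x y => Subtype.ext ?_⟩⟩
    obtain ⟨a, ha, hax⟩ := x.2
    obtain ⟨b, hb, hby⟩ := y.2
    have hab : a * b = b * a := congrArg Subtype.val (hBc.is_comm.comm ⟨a, ha⟩ ⟨b, hb⟩)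
    show (x : G) * (y : G) = (y : G) * (x : G)
    rw [← hax, ← hby]
    exact congrArg Subtype.val hab
  · rintro _ ⟨a, ha, rfl⟩
    have := hBp a ha
    show ((a : G)) ^ p = 1
    rw [← Subgroup.coe_pow, this]
    rfl

theorem pRankLE_of_mulEquiv {R R' : Type*} [Group R] [Group R'] {p k : ℕ} (e : R ≃* R')
    (h : PRankLE p k R) : PRankLE p k R' := by
  intro B hBc hBp
  have h1 := h (B.map e.symm.toMonoidHom) ?_ ?_
  · rwa [Subgroup.card_map_of_injective e.symm.injective] at h1
  · refine ⟨⟨fun x y => Subtype.ext ?_⟩⟩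
    obtain ⟨a, ha, hax⟩ := x.2
    obtain ⟨b, hb, hby⟩ := y.2
    have hab : a * b = b * a := congrArg Subtype.val (hBc.is_comm.comm ⟨a, ha⟩ ⟨b, hb⟩)
    show (x : R) * (y : R) = (y : R) * (x : R)
    rw [← hax, ← hby, ← map_mul, ← map_mul, hab]
  · rintro _ ⟨a, ha, rfl⟩
    rw [← map_pow, hBp a ha, map_one]

/-- `IsNarrow` is invariant under isomorphism. -/
theorem isNarrow_of_mulEquiv {R R' : Type*} [Group R] [Group R'] (p : ℕ) (e : R ≃* R')
    (h : IsNarrow p R) : IsNarrow p R' := by
  rcases h with h | ⟨R₀, R₁, h0, h1, h2, h3, h4⟩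
  · exact Or.inl (pRankLE_of_mulEquiv e h)
  · refine Or.inr ⟨R₀.map e.toMonoidHom, R₁.map e.toMonoidHom, ?_, ?_, ?_, ?_, ?_⟩
    · rw [Subgroup.card_map_of_injective e.injective]
      exact h0
    · exact isCyclic_of_surjective (e.subgroupMap R₁) (e.subgroupMap R₁).surjective
    · rw [← Subgroup.map_inf _ _ _ e.injective, h2, Subgroup.map_bot]
    · rintro _ ⟨a, ha, rfl⟩ _ ⟨b, hb, rfl⟩
      show e a * e b = e b * e a
      rw [← map_mul, ← map_mul, h3 a ha b hb]
    · rw [← Subgroup.map_sup, h4]
      ext y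
      constructor
      · rintro ⟨c, hc, rfl⟩
        rw [Subgroup.mem_centralizer_iff]
        rintro _ ⟨a, ha, rfl⟩
        show e a * e c = e c * e a
        rw [← map_mul, ← map_mul, Subgroup.mem_centralizer_iff.mp hc a ha]
      · intro hy
        refine ⟨e.symm y, ?_, e.apply_symm_apply y⟩
        show e.symm y ∈ Subgroup.centralizer (R₀ : Set R)
        rw [Subgroup.mem_centralizer_iff]
        intro a ha
        apply e.injective
        rw [map_mul, map_mul, e.apply_symm_apply]
        exact Subgroup.mem_centralizer_iff.mp hy (e a) ⟨a, ha, rfl⟩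

/-- A `p`-group (`p` odd) with a maximal elementary abelian subgroup of order `p ^ 2` is narrow. -/
theorem isNarrow_of_maximal_elementary {R : Type*} [Group R] [Finite R] (p : ℕ) [Fact p.Prime]
    (hp : p ≠ 2) (hR : IsPGroup p R) (E : Subgroup R) (hE : IsElementaryAbelian p E)
    (hE2 : Nat.card E = p ^ 2)
    (hEmax : ∀ B : Subgroup R, IsElementaryAbelian p B → E ≤ B → B = E) : IsNarrow p R := by
  classical
  have hpp : p.Prime := Fact.out
  by_cases hr : PRankLE p 2 R
  · exact Or.inl hr
  right
  obtain ⟨h1, h2, -, h4, h5⟩ := Cfsg.Agent.S1453.result p hp hR hr E hE hE2 hEmax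
  obtain ⟨W, hW⟩ : ∃ W : Subgroup R, W =
      Subgroup.closure {x : R | x ∈ Subgroup.upperCentralSeries R 2 ∧ x ^ p = 1} := ⟨_, rfl⟩
  rw [← hW] at h1 h4 h5
  obtain ⟨T, hT⟩ : ∃ T : Subgroup R, T = Subgroup.centralizer (W : Set R) := ⟨_, rfl⟩
  rw [← hT] at h1 h4 h5
  obtain ⟨Z, hZ⟩ : ∃ Z : Subgroup R, Z =
      Subgroup.closure {x : R | x ∈ Subgroup.center R ∧ x ^ p = 1} := ⟨_, rfl⟩
  rw [← hZ] at h2
  have hTn : T.Normal := Subgroup.normal_of_characteristic T
  have hEcomm : ∀ a ∈ E, ∀ b ∈ E, a * b = b * a := fun a ha b hb =>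
    congrArg Subtype.val (hE.1.is_comm.comm ⟨a, ha⟩ ⟨b, hb⟩)
  -- `Z` is central of exponent `p`
  have hZc : ∀ z ∈ Z, z ∈ Subgroup.center R ∧ z ^ p = 1 := by
    intro z hz
    rw [hZ] at hz
    induction hz using Subgroup.closure_induction with
    | mem x hx => exact hx
    | one => exact ⟨Subgroup.one_mem _, one_pow p⟩
    | mul x y _ _ hx hy =>
      refine ⟨Subgroup.mul_mem _ hx.1 hy.1, ?_⟩
      have hc : Commute x y := Subgroup.mem_center_iff.mp hy.1 x
      rw [hc.mul_pow, hx.2, hy.2, one_mul]
    | inv x _ hx => exact ⟨Subgroup.inv_mem _ hx.1, by rw [inv_pow, hx.2, inv_one]⟩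
  have hZcomm : ∀ z ∈ Z, ∀ g : R, g * z = z * g := fun z hz g =>
    Subgroup.mem_center_iff.mp (hZc z hz).1 g
  have hZT : Z ≤ T := by
    intro z hz
    rw [hT, Subgroup.mem_centralizer_iff]
    intro w _
    exact hZcomm z hz w
  -- `Z ≤ E` by maximality
  have hZE : Z ≤ E := by
    have hB : IsElementaryAbelian p (Subgroup.closure ((E : Set R) ∪ (Z : Set R))) := by
      apply isElementaryAbelian_closure
      · rintro a (ha | ha) b (hb | hb)
        · exact hEcomm a ha b hb
        · exact hZcomm b hb a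
        · exact (hZcomm a ha b).symm
        · exact hZcomm b hb a
      · rintro a (ha | ha)
        · exact hE.2 a ha
        · exact (hZc a ha).2
    have hEB : E ≤ Subgroup.closure ((E : Set R) ∪ (Z : Set R)) :=
      fun e he => Subgroup.subset_closure (Or.inl he)
    have hBE := hEmax _ hB hEB
    intro z hz
    rw [← hBE]
    exact Subgroup.subset_closure (Or.inr hz)
  -- an element of `E` outside `T`
  obtain ⟨x, hxE, hxT⟩ : ∃ x ∈ E, x ∉ T := by
    by_contra hcon
    push Not at hcon
    exact h1 hcon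
  have hx1 : x ≠ 1 := fun h => hxT (h ▸ T.one_mem)
  have hxp : x ^ p = 1 := hE.2 x hxE
  have hxo : orderOf x = p := orderOf_eq_prime hxp hx1
  have hxZ : x ∉ Z := fun h => hxT (hZT h)
  -- cardinalities of subgroups of `E`
  have hsub : ∀ D : Subgroup R, D ≤ E → Nat.card D = 1 ∨ Nat.card D = p ∨ Nat.card D = p ^ 2 := by
    intro D hD
    have hdvd : Nat.card D ∣ p ^ 2 := hE2 ▸ Subgroup.card_dvd_of_le hD
    obtain ⟨k, hk, hk'⟩ := (Nat.dvd_prime_pow hpp).1 hdvd
    interval_cases k
    · left; simpa using hk'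
    · right; left; simpa using hk'
    · right; right; exact hk'
  have hp1 : 1 < p := hpp.one_lt
  have hpsq : p < p ^ 2 := by nlinarith
  -- `E ⊓ T = Z`
  have hETZ : E ⊓ T = Z := by
    have hle : Z ≤ E ⊓ T := le_inf hZE hZT
    have hc1 := Subgroup.card_le_of_le hle
    rcases hsub (E ⊓ T) inf_le_left with h | h | h
    · rw [h, h2] at hc1
      omega
    · exact (Subgroup.eq_of_le_of_card_ge hle (by rw [h, h2])).symm
    · exfalso
      have hET : E ⊓ T = E := Subgroup.eq_of_le_of_card_ge inf_le_left (by rw [h, hE2])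
      have hx' : x ∈ E ⊓ T := by
        rw [hET]
        exact hxE
      exact hxT hx'.2
  -- `E` is generated by `x` and `Z`
  have hD : Subgroup.closure (({x} : Set R) ∪ (Z : Set R)) = E := by
    have hDE : Subgroup.closure (({x} : Set R) ∪ (Z : Set R)) ≤ E := by
      rw [Subgroup.closure_le]
      rintro a (ha | ha)
      · rw [Set.mem_singleton_iff] at ha
        rw [ha]
        exact hxE
      · exact hZE ha
    have hZD : Z ≤ Subgroup.closure (({x} : Set R) ∪ (Z : Set R)) :=
      fun z hz => Subgroup.subset_closure (Or.inr hz)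
    have hxD : x ∈ Subgroup.closure (({x} : Set R) ∪ (Z : Set R)) :=
      Subgroup.subset_closure (Or.inl rfl)
    have hc1 := Subgroup.card_le_of_le hZD
    rcases hsub _ hDE with h | h | h
    · rw [h, h2] at hc1
      omega
    · exfalso
      have : Z = Subgroup.closure (({x} : Set R) ∪ (Z : Set R)) :=
        Subgroup.eq_of_le_of_card_ge hZD (by rw [h, h2])
      exact hxZ (this ▸ hxD)
    · exact Subgroup.eq_of_le_of_card_ge hDE (by rw [h, hE2])
  -- elements of order `p` of `C_T(x)` lie in `Z`
  have hK : ∀ y ∈ T, y * x = x * y → y ^ p = 1 → y ∈ Z := by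
    intro y hyT hyx hyp
    have hB : IsElementaryAbelian p
        (Subgroup.closure ((({x} : Set R) ∪ (Z : Set R)) ∪ {y})) := by
      apply isElementaryAbelian_closure
      · rintro a ((ha | ha) | ha) b ((hb | hb) | hb)
        · rw [Set.mem_singleton_iff] at ha hb
          rw [ha, hb]
        · exact hZcomm b hb a
        · rw [Set.mem_singleton_iff] at ha hb
          rw [ha, hb]
          exact hyx.symm
        · exact (hZcomm a ha b).symm
        · exact hZcomm b hb a
        · exact (hZcomm a ha b).symm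
        · rw [Set.mem_singleton_iff] at ha hb
          rw [ha, hb]
          exact hyx
        · exact hZcomm b hb a
        · rw [Set.mem_singleton_iff] at ha hb
          rw [ha, hb]
      · rintro a ((ha | ha) | ha)
        · rw [Set.mem_singleton_iff] at ha
          rw [ha]
          exact hxp
        · exact (hZc a ha).2
        · rw [Set.mem_singleton_iff] at ha
          rw [ha]
          exact hyp
    have hEB : E ≤ Subgroup.closure ((({x} : Set R) ∪ (Z : Set R)) ∪ {y}) := by
      rw [← hD]
      exact Subgroup.closure_mono Set.subset_union_left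
    have hBE := hEmax _ hB hEB
    have hyE : y ∈ E := by
      rw [← hBE]
      exact Subgroup.subset_closure (Or.inr rfl)
    rw [← hETZ]
    exact ⟨hyE, hyT⟩
  -- the two subgroups
  refine ⟨Subgroup.zpowers x, T ⊓ Subgroup.centralizer ({x} : Set R), ?_, ?_, ?_, ?_, ?_⟩
  · rw [Nat.card_zpowers, hxo]
  · -- `C_T(x)` is cyclic
    by_contra hnc
    have hR1 : IsPGroup p ↥(T ⊓ Subgroup.centralizer ({x} : Set R)) := hR.to_subgroup _
    obtain ⟨V, -, hVe, hV2⟩ := Cfsg.Agent.S0126.result hp hR1 hnc
    have hVZ : V.map (T ⊓ Subgroup.centralizer ({x} : Set R)).subtype ≤ Z := by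
      rintro _ ⟨v, hv, rfl⟩
      have hvT : (v : R) ∈ T := v.2.1
      have hvx : (v : R) * x = x * (v : R) :=
        (Subgroup.mem_centralizer_iff.mp v.2.2 x rfl).symm
      have hvp : (v : R) ^ p = 1 := by
        have := hVe.2 v hv
        rw [← Subgroup.coe_pow, this]
        rfl
      exact hK _ hvT hvx hvp
    have hc := Subgroup.card_le_of_le hVZ
    rw [Subgroup.card_map_of_injective (Subgroup.subtype_injective _), hV2, h2] at hc
    omega
  · -- trivial intersection
    rw [eq_bot_iff]
    rintro y ⟨hy0, hyT, -⟩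
    rw [Subgroup.mem_bot]
    by_contra hy1
    have hcard : Nat.card ↥(Subgroup.zpowers x) = p := by rw [Nat.card_zpowers, hxo]
    have hne : (⟨y, hy0⟩ : ↥(Subgroup.zpowers x)) ≠ 1 := fun h => hy1 (congrArg Subtype.val h)
    have htop := zpowers_eq_top_of_prime_card hcard hne
    have hxm : (⟨x, Subgroup.mem_zpowers x⟩ : ↥(Subgroup.zpowers x)) ∈
        Subgroup.zpowers (⟨y, hy0⟩ : ↥(Subgroup.zpowers x)) := by
      rw [htop]
      exact Subgroup.mem_top _
    obtain ⟨k, hk⟩ := Subgroup.mem_zpowers_iff.mp hxm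
    have hk' : y ^ k = x := by
      have := congrArg Subtype.val hk
      simpa using this
    exact hxT (hk' ▸ T.zpow_mem hyT k)
  · -- elementwise commuting
    intro a ha b hb
    obtain ⟨k, rfl⟩ := Subgroup.mem_zpowers_iff.mp ha
    have hbx : Commute x b := Subgroup.mem_centralizer_iff.mp hb.2 x rfl
    exact (hbx.zpow_left k).eq
  · -- the centralizer of `⟨x⟩`
    apply le_antisymm
    · apply sup_le
      · intro a ha
        rw [Subgroup.mem_centralizer_iff]
        intro b hb
        obtain ⟨k, rfl⟩ := Subgroup.mem_zpowers_iff.mp ha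
        obtain ⟨l, rfl⟩ := Subgroup.mem_zpowers_iff.mp hb
        exact ((Commute.refl x).zpow_zpow l k).eq
      · intro b hb
        rw [Subgroup.mem_centralizer_iff]
        intro a ha
        obtain ⟨k, rfl⟩ := Subgroup.mem_zpowers_iff.mp ha
        have hbx : Commute x b := Subgroup.mem_centralizer_iff.mp hb.2 x rfl
        exact (hbx.zpow_left k).eq
    · intro c hc
      have hcx : Commute x c :=
        Subgroup.mem_centralizer_iff.mp hc x (Subgroup.mem_zpowers x)
      have hcardQ : Nat.card (R ⧸ T) = p := by rw [← Subgroup.index_eq_card, h5]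
      have hne : (QuotientGroup.mk x : R ⧸ T) ≠ 1 := by
        intro h
        exact hxT ((QuotientGroup.eq_one_iff x).mp h)
      have htop := zpowers_eq_top_of_prime_card hcardQ hne
      have hcm : (QuotientGroup.mk c : R ⧸ T) ∈ Subgroup.zpowers (QuotientGroup.mk x : R ⧸ T) := by
        rw [htop]
        exact Subgroup.mem_top _
      obtain ⟨k, hk⟩ := Subgroup.mem_zpowers_iff.mp hcm
      have hk' : (QuotientGroup.mk (x ^ k) : R ⧸ T) = QuotientGroup.mk c := by
        rw [← hk]
        rfl
      have ht : (x ^ k)⁻¹ * c ∈ T := QuotientGroup.eq.mp hk'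
      have htx : (x ^ k)⁻¹ * c ∈ Subgroup.centralizer ({x} : Set R) := by
        rw [Subgroup.mem_centralizer_iff]
        intro a ha
        rw [Set.mem_singleton_iff] at ha
        rw [ha]
        exact (((Commute.refl x).zpow_right k).inv_right.mul_right hcx).eq
      have hc' : c = x ^ k * ((x ^ k)⁻¹ * c) := by group
      rw [hc']
      exact Subgroup.mul_mem_sup (Subgroup.zpow_mem_zpowers x k) ⟨ht, htx⟩

/-- For a non-ideal odd prime, the Sylow `p`-subgroups are narrow. -/
theorem isNarrow_sylow_of_not_ideal {G : Type*} [Group G] [Finite G] {p : ℕ} [Fact p.Prime]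
    (hp : p ≠ 2) (hni : ¬ IsIdealPrime p G) (S : Sylow p G) : IsNarrow p ↥(S : Subgroup G) := by
  classical
  have hpp : p.Prime := Fact.out
  by_cases hr : PRankLE p 2 ↥(S : Subgroup G)
  · exact Or.inl hr
  have hrG : ¬ PRankLE p 2 G := fun h => hr (pRankLE_subgroup _ h)
  unfold IsIdealPrime at hni
  push Not at hni
  obtain ⟨P, A, hAP, hAe, hA2, hAmax⟩ := hni hpp hrG
  have hnar : IsNarrow p ↥(P : Subgroup G) := by
    apply isNarrow_of_maximal_elementary p hp P.isPGroup' (A.subgroupOf (P : Subgroup G))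
    · refine ⟨⟨⟨fun x y => Subtype.ext (Subtype.ext ?_)⟩⟩, ?_⟩
      · show (x.1.1 : G) * y.1.1 = y.1.1 * x.1.1
        exact congrArg Subtype.val (hAe.1.is_comm.comm ⟨x.1.1, Subgroup.mem_subgroupOf.mp x.2⟩
          ⟨y.1.1, Subgroup.mem_subgroupOf.mp y.2⟩)
      · intro a ha
        apply Subtype.ext
        exact hAe.2 a.1 ha
    · rw [Nat.card_congr (Subgroup.subgroupOfEquivOfLe hAP).toEquiv, hA2]
    · intro B hB hEB
      have hB' : IsElementaryAbelian p (B.map (P : Subgroup G).subtype) := by
        refine ⟨⟨⟨fun x y => Subtype.ext ?_⟩⟩, ?_⟩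
        · obtain ⟨a, ha, hax⟩ := x.2
          obtain ⟨b, hb, hby⟩ := y.2
          have hab : a * b = b * a := congrArg Subtype.val (hB.1.is_comm.comm ⟨a, ha⟩ ⟨b, hb⟩)
          show (x : G) * (y : G) = (y : G) * (x : G)
          rw [← hax, ← hby]
          exact congrArg Subtype.val hab
        · rintro _ ⟨a, ha, rfl⟩
          have := hB.2 a ha
          show ((a : G)) ^ p = 1
          rw [← Subgroup.coe_pow, this]
          rfl
      have hAB : A ≤ B.map (P : Subgroup G).subtype := by
        intro a ha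
        exact ⟨⟨a, hAP ha⟩, hEB (Subgroup.mem_subgroupOf.mpr ha), rfl⟩
      have hBA : B.map (P : Subgroup G).subtype ≤ A := by
        by_contra hcon
        exact hAmax (B.map (P : Subgroup G).subtype) (Subgroup.map_subtype_le _) hB'
          (lt_of_le_of_ne hAB (fun h => hcon (h ▸ le_rfl)))
      apply le_antisymm
      · intro b hb
        exact Subgroup.mem_subgroupOf.mpr (hBA ⟨b, hb, rfl⟩)
      · exact hEB
  obtain ⟨g, rfl⟩ := MulAction.exists_smul_eq G P S
  exact isNarrow_of_mulEquiv p (Sylow.equivSMul P g) hnar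

end Cfsg.Agent.Lib.Helper30.BGN
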