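import Mathlib
import Cfsg.Agent.H57.BG129Defs

set_option autoImplicit false

/-!
# Bender–Glauberman 12.12 and 12.13 (S1422, S1423): the statements and their pieces as `Prop`s
(helper30, team project BG12T)

* S1422: a nonabelian `p`-subgroup of a minimal simple group of odd order lies in a unique
  maximal subgroup.
* S1423: for `p ∈ σ(M)` and `X ≤ M` of order `p` with `p ∈ β(M)` or `X ≤ M_σ'`, `M` is the only
  maximal subgroup containing `C_G(X)`, and the only one containing a Sylow `p`-subgroup of `M_σ`.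
-/

namespace Cfsg.Agent.Lib.Helper30.BG12T

open Cfsg Subgroup Cfsg.Agent.H58.BG10 Cfsg.Agent.H57.BG12

universe u

/-- `M` is the only maximal subgroup containing `X` (and it does contain `X`). -/
def UniqIn {G : Type u} [Group G] (X M : Subgroup G) : Prop :=
  X ≤ M ∧ ∀ L : Subgroup G, IsCoatom L → X ≤ L → L = M

/-! ### Pieces of S1422 -/

/-- (SIGN) For `p ∈ σ(M)`, the normalizer of a Sylow `p`-subgroup of `G` contained in `M` lies
in `M`. -/
def StSigN (G : Type u) [Group G] : Prop :=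
  ∀ (M : Subgroup G), IsCoatom M → ∀ (p : ℕ) [Fact p.Prime], p ∈ sigma M →
    ∀ S : Sylow p G, (S : Subgroup G) ≤ M → normalizer ((S : Subgroup G) : Set G) ≤ M

/-- (SYL) Two maximal subgroups containing a nonabelian `p`-subgroup `P` have `p` in their
`σ`-sets and contain a common Sylow `p`-subgroup of `G` containing `P`. -/
def StSyl (G : Type u) [Group G] : Prop :=
  ∀ (p : ℕ) [Fact p.Prime] (P M L : Subgroup G), IsPGroup p P → ¬ IsMulCommutative P →
    IsCoatom M → IsCoatom L → P ≤ M → P ≤ L →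
    p ∈ sigma M ∧ p ∈ sigma L ∧
      ∃ S : Sylow p G, P ≤ (S : Subgroup G) ∧ (S : Subgroup G) ≤ M ∧ (S : Subgroup G) ≤ L

/-- (WIT) If two distinct maximal subgroups `M`, `L` with `p ∈ σ(M) ∩ σ(L)` contain a Sylow
`p`-subgroup `S` of `G`, every elementary abelian `A ≤ S` of order `p²` has a subgroup `A₀` of
order `p` such that `M` is the only maximal subgroup containing `N_G(A₀)`. -/
def StWit (G : Type u) [Group G] : Prop :=
  ∀ (p : ℕ) [Fact p.Prime] (S : Sylow p G) (M L : Subgroup G), IsCoatom M → IsCoatom L →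
    M ≠ L → (S : Subgroup G) ≤ M → (S : Subgroup G) ≤ L → p ∈ sigma M → p ∈ sigma L →
    ∀ A : Subgroup G, A ≤ (S : Subgroup G) → IsElementaryAbelian p A → Nat.card A = p ^ 2 →
      ∃ A₀ : Subgroup G, A₀ ≤ A ∧ Nat.card A₀ = p ∧ UniqIn (normalizer (A₀ : Set G)) M

/-- (FRAT) A proper subgroup `H` containing a Sylow `p`-subgroup `S` of `G` lies in `L` as soon
as `L` contains `N_H(S)` and every normal `p'`-subgroup of `H` (`p`-length one and the Frattini
argument). -/
def StFrat (G : Type u) [Group G] : Prop :=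
  ∀ (p : ℕ) [Fact p.Prime] (S : Sylow p G) (H L : Subgroup G), H ≠ ⊤ →
    (S : Subgroup G) ≤ H → H ⊓ normalizer ((S : Subgroup G) : Set G) ≤ L →
    (∀ W : Subgroup G, W ≤ H → H ≤ normalizer (W : Set G) → ¬ p ∣ Nat.card W → W ≤ L) → H ≤ L

/-- (EXTRA) A nonabelian subgroup `P₁` of order `p³` and exponent `p`: its centre `Z` has
order `p`; for a noncentral `u ∈ P₁` the subgroup `⟨u⟩ Z` is elementary abelian of order `p²`,
and each of its subgroups of order `p` is `Z` or a `P₁`-conjugate of `⟨u⟩`. -/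
def StExtra (G : Type u) [Group G] : Prop :=
  ∀ (p : ℕ) [Fact p.Prime] (P₁ : Subgroup G), Nat.card P₁ = p ^ 3 → (∀ a ∈ P₁, a ^ p = 1) →
    ¬ IsMulCommutative P₁ →
    Nat.card ↥(P₁ ⊓ centralizer (P₁ : Set G)) = p ∧
      ∀ u ∈ P₁, u ∉ centralizer (P₁ : Set G) →
        IsElementaryAbelian p (zpowers u ⊔ (P₁ ⊓ centralizer (P₁ : Set G))) ∧
        Nat.card ↥(zpowers u ⊔ (P₁ ⊓ centralizer (P₁ : Set G))) = p ^ 2 ∧
        ∀ A₀ : Subgroup G, A₀ ≤ zpowers u ⊔ (P₁ ⊓ centralizer (P₁ : Set G)) →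
          Nat.card A₀ = p →
          A₀ = P₁ ⊓ centralizer (P₁ : Set G) ∨
            ∃ t ∈ P₁, A₀ = (zpowers u).map (MulAut.conj t).toMonoidHom

/-- (GEN) Two-direction generation: a `p'`-subgroup `Q` normalized by a nonabelian group `P₁`
of order `p³` and exponent `p` whose centre centralizes `Q` lies in `L` as soon as `L` contains
`C_Q(u)` for every noncentral `u ∈ P₁`. -/
def StGen (G : Type u) [Group G] : Prop :=
  ∀ (p : ℕ) [Fact p.Prime] (P₁ Q L : Subgroup G), Nat.card P₁ = p ^ 3 →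
    (∀ a ∈ P₁, a ^ p = 1) → ¬ IsMulCommutative P₁ → P₁ ≤ normalizer (Q : Set G) →
    ¬ p ∣ Nat.card Q →
    (∀ c ∈ P₁ ⊓ centralizer (P₁ : Set G), ∀ q ∈ Q, c * q = q * c) →
    (∀ u ∈ P₁, u ∉ centralizer (P₁ : Set G) → Q ⊓ centralizer ({u} : Set G) ≤ L) → Q ≤ L

/-- (END) Two maximal subgroups with `p` in their `σ`-sets containing a common nonabelian Sylow
`p`-subgroup of `G` of rank at most `2` are equal. -/
def StEnd (G : Type u) [Group G] : Prop :=
  ∀ (p : ℕ) [Fact p.Prime] (S : Sylow p G) (M L : Subgroup G), IsCoatom M → IsCoatom L →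
    (S : Subgroup G) ≤ M → (S : Subgroup G) ≤ L → p ∈ sigma M → p ∈ sigma L →
    ¬ IsMulCommutative (S : Subgroup G) → PRankLE p 2 (S : Subgroup G) → M = L

/-! ### S1423 and its pieces -/

/-- S1423 (B&G 12.13). -/
def St1423 (G : Type u) [Group G] : Prop :=
  ∀ (M : Subgroup G), IsCoatom M → ∀ (p : ℕ) [Fact p.Prime], p ∈ sigma M →
    ∀ X : Subgroup G, X ≤ M → Nat.card X = p → ∀ P : Sylow p ↥(sigmaCore M),
    (p ∈ beta M ∨ X ≤ ⁅sigmaCore M, sigmaCore M⁆) →
    (centralizer (X : Set G) ≤ M ∧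
        ∀ L : Subgroup G, IsCoatom L → centralizer (X : Set G) ≤ L → L = M) ∧
      InUniqueMaximal ((P : Subgroup ↥(sigmaCore M)).map (sigmaCore M).subtype) ∧
      (P : Subgroup ↥(sigmaCore M)).map (sigmaCore M).subtype ≤ M

/-- (PS) For `p ∈ σ(M)`, a Sylow `p`-subgroup of `M_σ` is a Sylow `p`-subgroup of `G`. -/
def StPS (G : Type u) [Group G] : Prop :=
  ∀ (M : Subgroup G), IsCoatom M → ∀ (p : ℕ) [Fact p.Prime], p ∈ sigma M →
    ∀ P : Sylow p ↥(sigmaCore M),
      ∃ S : Sylow p G, (S : Subgroup G) = (P : Subgroup ↥(sigmaCore M)).map (sigmaCore M).subtype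

/-- (FOC) If `H` has a normal `p`-complement and `T` is a Sylow `p`-subgroup of `H`, every
`p`-subgroup of `H'` is `H`-conjugate into `T'`. -/
def StFoc (G : Type u) [Group G] : Prop :=
  ∀ (p : ℕ) [Fact p.Prime] (H T X : Subgroup G), HasNormalPComplement p ↥H → T ≤ H →
    IsPGroup p T → ¬ p ∣ T.relIndex H → X ≤ ⁅H, H⁆ → IsPGroup p X →
    ∃ g ∈ H, X.map (MulAut.conj g).toMonoidHom ≤ ⁅T, T⁆

/-- (DERU) The derived subgroup of a `p`-group `S` centralizes every normal elementary abelian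
subgroup of order `p²` of `S`. -/
def StDerU (G : Type u) [Group G] : Prop :=
  ∀ (p : ℕ) [Fact p.Prime] (S U : Subgroup G), IsPGroup p S → U ≤ S →
    S ≤ normalizer (U : Set G) → IsElementaryAbelian p U → Nat.card U = p ^ 2 →
    ⁅S, S⁆ ≤ centralizer (U : Set G)

/-- (R3U) A Sylow `p`-subgroup `S` of rank at least `3` has a normal elementary abelian subgroup
`U` of order `p²` with `C_S(U)` of rank at least `3` (from S1337). -/
def StR3U (G : Type u) [Group G] : Prop :=
  ∀ (p : ℕ) [Fact p.Prime] (S : Sylow p G), ¬ PRankLE p 2 (S : Subgroup G) →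
    ∃ U : Subgroup G, U ≤ (S : Subgroup G) ∧ (S : Subgroup G) ≤ normalizer (U : Set G) ∧
      IsElementaryAbelian p U ∧ Nat.card U = p ^ 2 ∧
      ¬ PRankLE p 2 ↥((S : Subgroup G) ⊓ centralizer (U : Set G))

/-- The conclusion of the main step of S1423 for a Sylow `p`-subgroup `S ≤ M_σ` of `G`: `S`
lies in a unique maximal subgroup, and some `M`-conjugate of `X` is centralized by a subgroup
`K ≤ M` lying in a unique maximal subgroup. -/
def Concl23 {G : Type u} [Group G] (M X : Subgroup G) (p : ℕ) (S : Sylow p G) : Prop :=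
  InUniqueMaximal (S : Subgroup G) ∧
    ∃ g ∈ M, ∃ K : Subgroup G, K ≤ M ∧ InUniqueMaximal K ∧
      K ≤ centralizer ((X.map (MulAut.conj g).toMonoidHom : Subgroup G) : Set G)

/-- (R3) The main step of S1423 when `S` has rank at least `3`. -/
def StMain23R3 (G : Type u) [Group G] : Prop :=
  ∀ (M : Subgroup G), IsCoatom M → ∀ (p : ℕ) [Fact p.Prime], p ∈ sigma M →
    ∀ X : Subgroup G, X ≤ M → Nat.card X = p → ∀ S : Sylow p G,
    (S : Subgroup G) ≤ sigmaCore M → (p ∈ beta M ∨ X ≤ ⁅sigmaCore M, sigmaCore M⁆) →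
    ¬ PRankLE p 2 (S : Subgroup G) → Concl23 M X p S

/-- (R2) The main step of S1423 when `S` has rank at most `2`. -/
def StMain23R2 (G : Type u) [Group G] : Prop :=
  ∀ (M : Subgroup G), IsCoatom M → ∀ (p : ℕ) [Fact p.Prime], p ∈ sigma M →
    ∀ X : Subgroup G, X ≤ M → Nat.card X = p → ∀ S : Sylow p G,
    (S : Subgroup G) ≤ sigmaCore M → (p ∈ beta M ∨ X ≤ ⁅sigmaCore M, sigmaCore M⁆) →
    PRankLE p 2 (S : Subgroup G) → Concl23 M X p S

end Cfsg.Agent.Lib.Helper30.BG12T
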