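import Mathlib
import Cfsg.Agent.H47.BG1216Defs2
import Cfsg.Agent.Lib.Helper30.BG12TDefs

set_option autoImplicit false

/-!
# Bender–Glauberman Theorem 13.4 (S1428): the pieces as `Prop`s (helper30, team project BG134)

`M` maximal, `E` a complement of `M_σ`, `p ∈ τ₁(M)`, `P ≤ E` of order `p`, `R ≤ C_E(P)` of prime
order `r`.  Claim: `C_{M_σ}(P) ≤ C(R)`.

A *configuration* `Cfg M E H P R Q1 p r q` records a counterexample together with a maximal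
subgroup `H ⊇ N_G(P)` and a nontrivial `q`-subgroup `Q1 ≤ C_{M_σ}(P)` normalized by `R` with
`C_{Q1}(R) = 1`.
-/

namespace Cfsg.Agent.Lib.Helper30.BG134

open Cfsg Subgroup

universe u

variable {G : Type u} [Group G]

/-- A counterexample configuration to B&G 13.4. -/
structure Cfg (M E H P R Q1 : Subgroup G) (p r q : ℕ) : Prop where
  hM : IsCoatom M
  hE : IsComplIn E (sigmaCore M) M
  hp : p ∈ tau1 M
  hPE : P ≤ E
  hP : Nat.card P = p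
  hRE : R ≤ E
  hRP : R ≤ centralizer (P : Set G)
  hR : Nat.card R = r
  hr : r.Prime
  hrp : r ≠ p
  hrM : r ∉ sigma M
  hH : IsCoatom H
  hNP : normalizer (P : Set G) ≤ H
  hPH : P ≤ H
  hRH : R ≤ H
  hnc : ∀ g : G, H ≠ M.map (MulAut.conj g).toMonoidHom
  hY : sigmaCore M ⊓ H ≤ centralizer (P : Set G)
  hq : q.Prime
  hqM : q ∈ sigma M
  hQ1q : IsPGroup q Q1
  hQ1 : Q1 ≠ ⊥
  hQ1M : Q1 ≤ sigmaCore M
  hQ1H : Q1 ≤ H
  hQ1P : Q1 ≤ centralizer (P : Set G)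
  hRQ1 : R ≤ normalizer (Q1 : Set G)
  hfree : Q1 ⊓ centralizer (R : Set G) = ⊥
  hcomm : Q1 ≤ ⁅Q1, R⁆

/-- The statement of S1428 (B&G 13.4). -/
def St1428 (G : Type u) [Group G] : Prop :=
  ∀ (M : Subgroup G), IsCoatom M → ∀ E : Subgroup G, IsComplIn E (sigmaCore M) M →
    ∀ p : ℕ, p ∈ tau1 M → ∀ P : Subgroup G, P ≤ E → Nat.card P = p →
    ∀ R : Subgroup G, R ≤ E ⊓ centralizer (P : Set G) → (Nat.card R).Prime →
      sigmaCore M ⊓ centralizer (P : Set G) ≤ sigmaCore M ⊓ centralizer (R : Set G)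

/-- (LA) `p ∈ τ₁(M)`, `P ≤ M` of order `p`, `H` maximal over `N_G(P)`: `H` is not conjugate to
`M` and `M_σ ∩ H ≤ C(P)`. -/
def StLA (G : Type u) [Group G] : Prop :=
  ∀ (M H P : Subgroup G) (p : ℕ), IsCoatom M → IsCoatom H → p ∈ tau1 M → P ≤ M →
    Nat.card P = p → normalizer (P : Set G) ≤ H →
    (∀ g : G, H ≠ M.map (MulAut.conj g).toMonoidHom) ∧
      sigmaCore M ⊓ H ≤ centralizer (P : Set G)

/-- (SETUP) a counterexample inside a normal subgroup `N ≤ M_σ` of `M` yields a configuration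
with `Q1 ≤ N`. -/
def StSetup (G : Type u) [Group G] : Prop :=
  ∀ (M E P R N : Subgroup G) (p : ℕ), IsCoatom M → IsComplIn E (sigmaCore M) M → p ∈ tau1 M →
    P ≤ E → Nat.card P = p → R ≤ E ⊓ centralizer (P : Set G) → (Nat.card R).Prime →
    N ≤ sigmaCore M → M ≤ normalizer (N : Set G) →
    ¬ (N ⊓ centralizer (P : Set G) ≤ centralizer (R : Set G)) →
    ∃ (H Q1 : Subgroup G) (q : ℕ), Cfg M E H P R Q1 p (Nat.card R) q ∧ Q1 ≤ N

/-- (CASEA) no configuration has `p ∉ σ(H)`. -/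
def StCaseA (G : Type u) [Group G] : Prop :=
  ∀ (M E H P R Q1 : Subgroup G) (p r q : ℕ), Cfg M E H P R Q1 p r q → p ∉ sigma H → False

/-- (DET) `A` elementary abelian of order `p²`, `P ≤ A` of order `p`; `Q1` (a `q`-group, `q ≠ p`)
and `R` normalize `A` and centralize `P`, `R` normalizes `Q1`, `C_{Q1}(R) = 1`, `q ∤ |R|`:
then `Q1` centralizes `A`. -/
def StDet (G : Type u) [Group G] : Prop :=
  ∀ (A P Q1 R : Subgroup G) (p q : ℕ), p.Prime → q.Prime → q ≠ p → IsElementaryAbelian p A →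
    Nat.card A = p ^ 2 → P ≤ A → Nat.card P = p → IsPGroup q Q1 → ¬ q ∣ Nat.card R →
    Q1 ≤ normalizer (A : Set G) → R ≤ normalizer (A : Set G) →
    Q1 ≤ centralizer (P : Set G) → R ≤ centralizer (P : Set G) →
    R ≤ normalizer (Q1 : Set G) → Q1 ⊓ centralizer (R : Set G) = ⊥ →
    Q1 ≤ centralizer (A : Set G)

/-- (AB) `L ≠ M` maximal, `q ∈ σ(L) ∖ α(L)`, `S ≤ L` a `q`-subgroup with `N_G(S) ≤ M`:
then `α(L) ⊆ β(L)`. -/
def StAB (G : Type u) [Group G] : Prop :=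
  ∀ (L M S : Subgroup G) (q : ℕ), IsCoatom L → IsCoatom M → L ≠ M → q ∈ sigma L →
    q ∉ alpha L → IsPGroup q S → S ≤ L → normalizer (S : Set G) ≤ M →
    ∀ s : ℕ, s ∈ alpha L → s ∈ beta L

/-- (RTAU1) in a configuration, `r ∈ τ₁(H)`. -/
def StRTau1 (G : Type u) [Group G] : Prop :=
  ∀ (M E H P R Q1 : Subgroup G) (p r q : ℕ), Cfg M E H P R Q1 p r q → r ∈ tau1 H

/-- (B1) no configuration has `p ∈ σ(H)`, `q ∉ σ(H)` and `H` of `q`-rank `≥ 2`. -/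
def StB1 (G : Type u) [Group G] : Prop :=
  ∀ (M E H P R Q1 : Subgroup G) (p r q : ℕ), Cfg M E H P R Q1 p r q → p ∈ sigma H →
    q ∉ sigma H → ¬ PRankLE q 1 H → False

/-- (B2L) `q ∉ σ(H)`, `H` of `q`-rank `1`: the subgroup `X` of order `q` of `Q1` has
`N_G(X) ≤ L` for a maximal `L ≠ H`, and `H = H_α (H ∩ L)`. -/
def StB2L (G : Type u) [Group G] : Prop :=
  ∀ (M E H P R Q1 : Subgroup G) (p r q : ℕ), Cfg M E H P R Q1 p r q → q ∉ sigma H →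
    PRankLE q 1 H →
    ∃ X L : Subgroup G, X ≤ Q1 ∧ Nat.card X = q ∧ R ≤ normalizer (X : Set G) ∧
      X ⊓ centralizer (R : Set G) = ⊥ ∧ IsCoatom L ∧ L ≠ H ∧ normalizer (X : Set G) ≤ L ∧
      ∀ h ∈ H, ∃ a ∈ alphaCore H, ∃ n ∈ H ⊓ L, h = a * n

/-- (B2B) `p ∈ σ(H) ∖ α(H)`, `1 ≠ X ≤ Q1`, `N_G(X) ≤ L ≠ H`, `H = H_α (H ∩ L)`: impossible. -/
def StB2b (G : Type u) [Group G] : Prop :=
  ∀ (M E H P R Q1 X L : Subgroup G) (p r q : ℕ), Cfg M E H P R Q1 p r q → p ∈ sigma H →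
    p ∉ alpha H → X ≤ Q1 → X ≠ ⊥ → IsCoatom L → L ≠ H → normalizer (X : Set G) ≤ L →
    (∀ h ∈ H, ∃ a ∈ alphaCore H, ∃ n ∈ H ⊓ L, h = a * n) → False

/-- (LC) `q ∈ σ(M) ∩ σ(H)`, `p ∈ σ(H)`, `p ∤ |M'|`: then `p ∈ α(H)`. -/
def StLC (G : Type u) [Group G] : Prop :=
  ∀ (M H : Subgroup G) (p q : ℕ), IsCoatom M → IsCoatom H → q ∈ sigma M → q ∈ sigma H →
    p ∈ sigma H → ¬ p ∣ Nat.card ↥⁅M, M⁆ → p ∈ alpha H

/-- (B3B) `q ∈ σ(H)`, `r ∈ τ₁(H)` and `H` the only maximal subgroup over `C_H(Q1)`: then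
`r ∈ τ₁(M)`, `M_α ≠ 1`, `C_M(Q1) ≤ H` and `M_α ∩ H ≤ C(Q1)`. -/
def StB3b (G : Type u) [Group G] : Prop :=
  ∀ (M E H P R Q1 : Subgroup G) (p r q : ℕ), Cfg M E H P R Q1 p r q → q ∈ sigma H →
    r ∈ tau1 H →
    (∀ L : Subgroup G, IsCoatom L → H ⊓ centralizer (Q1 : Set G) ≤ L → L = H) →
    r ∈ tau1 M ∧ alphaCore M ≠ ⊥ ∧ M ⊓ centralizer (Q1 : Set G) ≤ H ∧
      alphaCore M ⊓ H ≤ centralizer (Q1 : Set G)

/-- (LR) B&G 13.1(a). -/
def StLR (G : Type u) [Group G] : Prop :=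
  ∀ (H L R X : Subgroup G) (r q : ℕ), IsCoatom H → r ∈ tau1 H → R ≤ H → Nat.card R = r →
    q.Prime → q ∉ alpha H → X ≤ H → IsPGroup q X → X ≠ ⊥ → R ≤ normalizer (X : Set G) →
    X ⊓ centralizer (R : Set G) = ⊥ → IsCoatom L → L ≠ H →
    H ⊓ centralizer (X : Set G) ≤ L → alphaCore H ≠ ⊥ →
    alphaCore H ⊓ centralizer (R : Set G) ≠ ⊥ ∧
      alphaCore H ⊓ centralizer (X : Set G) ⊓ centralizer (R : Set G) = ⊥

/-- (LW) a Frobenius-type group `K ⋊ R` (`R` of prime order, `C_K(R) = 1`, `K` a `q`-group)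
acting coprimely on a `t`-group `T` (`t` odd) of rank `≥ 3`, with `C_T(R)` and `C_T(K)` cyclic,
has `C_T(KR) = 1`. -/
def StLW (G : Type u) [Group G] : Prop :=
  ∀ (K R T : Subgroup G) (q t : ℕ), q.Prime → t.Prime → t ≠ 2 → q ≠ t → IsPGroup q K →
    (Nat.card R).Prime → Nat.card R ≠ q → Nat.card R ≠ t → IsPGroup t T → ¬ PRankLE t 2 T →
    R ≤ normalizer (K : Set G) → K ⊓ centralizer (R : Set G) = ⊥ →
    K ≤ normalizer (T : Set G) → R ≤ normalizer (T : Set G) →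
    IsCyclic ↥(T ⊓ centralizer (R : Set G)) → IsCyclic ↥(T ⊓ centralizer (K : Set G)) →
    T ⊓ centralizer (K : Set G) ⊓ centralizer (R : Set G) = ⊥

end Cfsg.Agent.Lib.Helper30.BG134
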