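import Mathlib

/-!
# Additive closure of the powers of an element of a finite field (piece S2412-F1)
-/

namespace Cfsg.Agent.Lib.Helper30.Psu

/-- **S2412-F1**: the powers of `ρ` span the finite field `E` additively unless `ρ` lies in a
proper subfield. -/
theorem add_closure_pow_top {E : Type*} [Field E] [Fintype E] (ρ : E) (hρ : ρ ≠ 0)
    (h : ∀ s m : ℕ, 2 ≤ m → s ^ m = Fintype.card E → ¬ (orderOf ρ ∣ s - 1)) :
    AddSubmonoid.closure (Set.range (fun i : ℕ => ρ ^ i)) = ⊤ := by
  have hmem : ∀ x : E, x ∈ (Submonoid.powers ρ).subsemiringClosure ↔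
      x ∈ AddSubmonoid.closure (Set.range (fun i : ℕ => ρ ^ i)) := by
    intro x
    rw [Submonoid.subsemiringClosure_mem, Submonoid.coe_powers]
  have hneg : ∀ x ∈ (Submonoid.powers ρ).subsemiringClosure,
      -x ∈ (Submonoid.powers ρ).subsemiringClosure := by
    intro x hx
    have h1 : Fintype.card E • x = 0 := card_nsmul_eq_zero
    have h2 : 1 ≤ Fintype.card E := Fintype.card_pos
    have h3 : (Fintype.card E - 1) • x + x = 0 := by
      rw [← succ_nsmul, Nat.sub_add_cancel h2, h1]
    have h4 : -x = (Fintype.card E - 1) • x := (eq_neg_of_add_eq_zero_left h3).symm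
    rw [h4]; exact nsmul_mem hx _
  have hinv : ∀ x ∈ (Submonoid.powers ρ).subsemiringClosure,
      x⁻¹ ∈ (Submonoid.powers ρ).subsemiringClosure := by
    intro x hx
    by_cases hx0 : x = 0
    · rw [hx0, inv_zero]; exact Subsemiring.zero_mem _
    · have h1 : x ^ (Fintype.card E - 1) = 1 := FiniteField.pow_card_sub_one_eq_one x hx0
      have h2 : 2 ≤ Fintype.card E := Fintype.one_lt_card
      have h3 : x * x ^ (Fintype.card E - 2) = 1 := by
        rw [← pow_succ', show Fintype.card E - 2 + 1 = Fintype.card E - 1 by omega, h1]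
      have h4 : x⁻¹ = x ^ (Fintype.card E - 2) := (eq_inv_of_mul_eq_one_right h3).symm
      rw [h4]; exact pow_mem hx _
  let L : Subfield E :=
    { (Submonoid.powers ρ).subsemiringClosure with
      neg_mem' := fun {x} hx => hneg x hx
      inv_mem' := fun x hx => hinv x hx }
  have hL : ∀ x : E, x ∈ L ↔ x ∈ AddSubmonoid.closure (Set.range (fun i : ℕ => ρ ^ i)) :=
    fun x => hmem x
  have hρL : ρ ∈ L := by
    rw [hL]
    exact AddSubmonoid.subset_closure ⟨1, pow_one ρ⟩
  have hcard : Nat.card E = Nat.card L ^ Module.finrank L E := Module.natCard_eq_pow_finrank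
  have hm1 : 1 ≤ Module.finrank L E := Module.finrank_pos
  have hm : Module.finrank L E = 1 := by
    by_contra hne
    have hm2 : 2 ≤ Module.finrank L E := by omega
    apply h (Nat.card L) (Module.finrank L E) hm2 (by rw [← hcard, Nat.card_eq_fintype_card])
    let _ : Fintype L := Fintype.ofFinite L
    have h1 : (⟨ρ, hρL⟩ : L) ^ (Fintype.card L - 1) = 1 :=
      FiniteField.pow_card_sub_one_eq_one _ (fun h0 => hρ (congrArg Subtype.val h0))
    have h2 : ρ ^ (Fintype.card L - 1) = 1 := by
      have := congrArg Subtype.val h1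
      simpa using this
    rw [Nat.card_eq_fintype_card]
    exact orderOf_dvd_of_pow_eq_one h2
  rw [hm, pow_one] at hcard
  have htop : L.toSubring.toAddSubgroup = ⊤ := AddSubgroup.eq_top_of_card_eq _ hcard.symm
  rw [eq_top_iff]
  intro x _
  rw [← hL]
  have : x ∈ L.toSubring.toAddSubgroup := by rw [htop]; trivial
  exact this

/-- **S2412-F1**, numerical form. -/
theorem add_closure_pow_top_of_lt {E : Type*} [Field E] [Fintype E] (ρ : E) (hρ : ρ ≠ 0)
    (h : Fintype.card E < (orderOf ρ + 1) ^ 2) :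
    AddSubmonoid.closure (Set.range (fun i : ℕ => ρ ^ i)) = ⊤ := by
  apply add_closure_pow_top ρ hρ
  intro s m hm hsm hdvd
  have hE : 2 ≤ Fintype.card E := Fintype.one_lt_card
  have hs : 2 ≤ s := by
    by_contra hs
    have hs1 : s ≤ 1 := by omega
    have : s ^ m ≤ 1 := Nat.pow_le_one_iff (by omega) |>.2 hs1
    omega
  have h1 : orderOf ρ ≤ s - 1 := Nat.le_of_dvd (by omega) hdvd
  have h2 : (orderOf ρ + 1) ^ 2 ≤ s ^ 2 := Nat.pow_le_pow_left (by omega) 2
  have h3 : s ^ 2 ≤ s ^ m := Nat.pow_le_pow_right (by omega) hm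
  omega

end Cfsg.Agent.Lib.Helper30.Psu
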