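import Mathlib

/-!
# The multi-twist lemma (piece S2412-F2)
-/

namespace Cfsg.Agent.Lib.Helper30.Psu

/-- **S2412-F2**: an additive subgroup of `ι → E` stable under the diagonal twist by pairwise
distinct scalars `ξ l` (all with the same `e`-th power `ρ`, whose powers span `E` additively),
and containing a vector with no zero coordinate, is everything. -/
theorem twist_top {E : Type*} [Field E] {ι : Type*} [Fintype ι] [DecidableEq ι]
    (ξ : ι → E) (hξ : Function.Injective ξ) (ρ : E) (e : ℕ) (hρ : ∀ l, ξ l ^ e = ρ)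
    (hgen : AddSubmonoid.closure (Set.range (fun i : ℕ => ρ ^ i)) = ⊤)
    (X : AddSubgroup (ι → E)) (hX : ∀ v ∈ X, (fun l => ξ l * v l) ∈ X)
    (x : ι → E) (hx : x ∈ X) (hx0 : ∀ l, x l ≠ 0) : X = ⊤ := by
  have h0 : ∀ (k : ℕ) (v : ι → E), v ∈ X → (fun l => ξ l ^ k * v l) ∈ X := by
    intro k
    induction k with
    | zero => intro v hv; simpa using hv
    | succ k ih =>
      intro v hv
      have h := hX _ (ih v hv)
      have e1 : (fun l => ξ l ^ (k + 1) * v l) = (fun l => ξ l * (ξ l ^ k * v l)) := by
        funext l; ring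
      rw [e1]; exact h
  have h1 : ∀ (i : ℕ) (v : ι → E), v ∈ X → (fun l => ρ ^ i * v l) ∈ X := by
    intro i v hv
    have h := h0 (e * i) v hv
    have e1 : (fun l => ξ l ^ (e * i) * v l) = (fun l => ρ ^ i * v l) := by
      funext l; rw [pow_mul, hρ]
    rw [← e1]; exact h
  have h2 : ∀ (y : E) (v : ι → E), v ∈ X → (fun l => y * v l) ∈ X := by
    intro y v hv
    have hy : y ∈ AddSubmonoid.closure (Set.range (fun i : ℕ => ρ ^ i)) := by
      rw [hgen]; trivial
    induction hy using AddSubmonoid.closure_induction with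
    | mem z hz =>
      obtain ⟨i, rfl⟩ := hz
      exact h1 i v hv
    | zero =>
      have e1 : (fun l => (0 : E) * v l) = 0 := by funext l; simp
      rw [e1]; exact X.zero_mem
    | add a b _ _ ha hb =>
      have e1 : (fun l => (a + b) * v l) = (fun l => a * v l) + (fun l => b * v l) := by
        funext l; simp [add_mul]
      rw [e1]; exact X.add_mem ha hb
  have h3 : ∀ (T : Finset ι) (y : E), (fun j => y * x j * ∏ m ∈ T, (ξ j - ξ m)) ∈ X := by
    intro T
    induction T using Finset.induction_on with
    | empty =>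
      intro y
      have e1 : (fun j => y * x j * ∏ m ∈ (∅ : Finset ι), (ξ j - ξ m)) = (fun j => y * x j) := by
        funext j; simp
      rw [e1]; exact h2 y x hx
    | insert m T hm ih =>
      intro y
      have a1 := hX _ (ih y)
      have a2 := ih (ξ m * y)
      have e1 : (fun j => y * x j * ∏ m' ∈ insert m T, (ξ j - ξ m')) =
          (fun j => ξ j * (y * x j * ∏ m' ∈ T, (ξ j - ξ m'))) -
            (fun j => ξ m * y * x j * ∏ m' ∈ T, (ξ j - ξ m')) := by
        funext j
        rw [Finset.prod_insert hm]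
        simp only [Pi.sub_apply]
        ring
      rw [e1]; exact X.sub_mem a1 a2
  have h4 : ∀ (l : ι) (z : E), Pi.single l z ∈ X := by
    intro l z
    have hc0 : ∏ m ∈ Finset.univ.erase l, (ξ l - ξ m) ≠ 0 := by
      rw [Finset.prod_ne_zero_iff]
      intro m hm
      have hml : m ≠ l := Finset.ne_of_mem_erase hm
      exact sub_ne_zero.2 (fun h => hml (hξ h).symm)
    have a := h3 (Finset.univ.erase l) (z / (x l * ∏ m ∈ Finset.univ.erase l, (ξ l - ξ m)))
    have e1 : (fun j => z / (x l * ∏ m ∈ Finset.univ.erase l, (ξ l - ξ m)) * x j *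
        ∏ m ∈ Finset.univ.erase l, (ξ j - ξ m)) = Pi.single l z := by
      funext j
      by_cases hj : j = l
      · rw [hj, Pi.single_eq_same]
        have := hx0 l
        field_simp
      · rw [Pi.single_eq_of_ne hj]
        have h0 : ∏ m ∈ Finset.univ.erase l, (ξ j - ξ m) = 0 :=
          Finset.prod_eq_zero (Finset.mem_erase.2 ⟨hj, Finset.mem_univ j⟩) (sub_self _)
        rw [h0, mul_zero]
    rw [← e1]; exact a
  rw [eq_top_iff]
  intro v _
  have hv : v = ∑ l, Pi.single l (v l) := (Finset.univ_sum_single v).symm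
  rw [hv]
  exact X.sum_mem (fun l _ => h4 l _)

end Cfsg.Agent.Lib.Helper30.Psu
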