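import Mathlib
import Cfsg.Agent.S1398
import Cfsg.Agent.S1399
import Cfsg.Agent.S1400
import Cfsg.Agent.S1401
import Cfsg.Agent.H72.Subn

/-!
helper30 (for helper38, S1402-BGB): the package of consequences for a "big" maximal subgroup `M`
(one whose Fitting subgroup has `s`-rank at least 3) containing `A ∈ SCN_3(P)`.
-/

set_option autoImplicit false

open Cfsg Subgroup

universe u

namespace Cfsg.Agent.Lib.Helper30.BG95

open Cfsg.Agent.Lib.Helper30 Cfsg.Agent.H31.T2 Cfsg.Agent.H31.BG8 Cfsg.Agent.H31.BG9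

variable {G : Type u} [Group G]

theorem big_pack [Finite G] (hG : IsMinSimpleOddOrder G) {p : ℕ} [Fact p.Prime] (P : Sylow p G)
    {A : Subgroup G} (hA : IsSCN (P : Subgroup G) A) (hA3 : ¬ PRankLE p 2 ↥A)
    {M : Subgroup G} (hM : IsCoatom M) (hAM : A ≤ M) {s : ℕ} [Fact s.Prime] (hsp : s ≠ p)
    (hF : ¬ PRankLE s 2 ↥(fittingOf M))
    {T : Subgroup G} (hTM : T ≤ M) (hMT : M ≤ normalizer (T : Set G)) (hT : IsPGroup s T)
    (hTr : ¬ PRankLE s 2 ↥T)
    (hy : ∃ y ∈ A, y ≠ 1 ∧ centralizer ({y} : Set G) ≤ M) :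
    (∀ Y : Subgroup G, IsPGroup s Y → A ≤ normalizer (Y : Set G) → Y ≤ M) ∧
    (∀ R : Subgroup G, IsPGroup p R → A ≤ R → normalizer (R : Set G) ≤ M) ∧
    (∀ g : G, A ≤ M.map (MulAut.conj g).toMonoidHom → g ∈ M) := by
  classical
  have hp : p.Prime := Fact.out
  have hs : s.Prime := Fact.out
  have hAP : A ≤ (P : Subgroup G) := hA.1
  have hAp : IsPGroup p A := P.isPGroup'.to_le hAP
  have hAcomm : ∀ a ∈ A, ∀ b ∈ A, a * b = b * a := by
    intro a ha b hb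
    have hb' : b ∈ (P : Subgroup G) ⊓ centralizer (A : Set G) := by
      rw [hA.2.2]
      exact hb
    exact Subgroup.mem_centralizer_iff.mp hb'.2 a ha
  have hAc : IsMulCommutative A := ⟨⟨fun a b => Subtype.ext (hAcomm a a.2 b b.2)⟩⟩
  obtain ⟨B, hBA, hBc, hBp, hBcard⟩ := exists_elementary_of_not_pRankLE hA3
  have hA0 : A ≠ ⊥ := by
    intro h
    rw [h] at hBA
    rw [le_bot_iff.mp hBA, Subgroup.card_bot] at hBcard
    have : 1 ≤ p ^ 2 := Nat.one_le_pow _ _ hp.pos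
    omega
  have hpA : p ∣ Nat.card A := by
    rcases hAp.card_eq_or_dvd with h1 | h1
    · exact absurd (Subgroup.card_eq_one.mp h1) hA0
    · exact h1
  have hpG : p ∣ Nat.card G := hpA.trans (Subgroup.card_subgroup_dvd_card A)
  have hA1 : ¬ PRankLE p 1 ↥A := fun h => hA3 (fun B hBc hBp =>
    (h B hBc hBp).trans (Nat.pow_le_pow_right hp.pos (by norm_num)))
  have hTH : TransitivityHypothesis A :=
    Cfsg.Agent.S1396.result hG p hpG A hAp hAc (Or.inr ⟨P, hA, hA1⟩)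
  have hBe : IsElementaryAbelian p B := ⟨⟨⟨fun a b => Subtype.ext (hBc a a.2 b b.2)⟩⟩, hBp⟩
  have hZ : ¬ RankLE 2 ↥(A ⊓ centralizer (A : Set G)) := by
    intro h
    refine not_pRankLE_of_le (Z := A ⊓ centralizer (A : Set G)) ?_ hBe hBcard (h p hp)
    intro b hb
    exact ⟨hBA hb, Subgroup.mem_centralizer_iff.mpr (fun a ha => hAcomm a ha b (hBA hb))⟩
  have hsA : ¬ s ∣ Nat.card A := by
    intro h
    obtain ⟨n, hn⟩ := IsPGroup.iff_card.mp hAp
    rw [hn] at h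
    exact hsp ((Nat.prime_dvd_prime_iff_eq hs hp).mp (hs.dvd_of_dvd_pow h))
  have htr := trans_of_rank_three hG hTH hZ hs hsA
  -- an elementary abelian subgroup of rank three of `T`
  obtain ⟨E₀, hE₀T, hE₀c, hE₀p, hE₀card⟩ := exists_elementary_of_not_pRankLE hTr
  have hE₀e : IsElementaryAbelian s E₀ :=
    ⟨⟨⟨fun a b => Subtype.ext (hE₀c a a.2 b b.2)⟩⟩, hE₀p⟩
  have hE₀s : IsPGroup s E₀ := isPGroup_of_exponent hE₀p
  have hE₀3 : ¬ PRankLE s 2 ↥E₀ := not_pRankLE_of_le le_rfl hE₀e hE₀card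
  have hE₀U : InUniqueMaximal E₀ := Cfsg.Agent.S1401.result hG M hM s hF E₀ hE₀s hE₀e.1 hE₀3
  have hE₀M : E₀ ≤ M := hE₀T.trans hTM
  have hU : ∀ X : Subgroup G, X ≠ ⊤ → E₀ ≤ X → X ≤ M := by
    intro X hX hEX
    obtain ⟨L, hL, hXL⟩ := (eq_top_or_exists_le_coatom X).resolve_left hX
    have hLM : L = M := ExistsUnique.unique hE₀U ⟨hL, hEX.trans hXL⟩ ⟨hM, hE₀M⟩
    rw [← hLM]
    exact hXL
  have hE₀0 : E₀ ≠ ⊥ := by
    intro h
    rw [h, Subgroup.card_bot] at hE₀card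
    have : 1 ≤ s ^ 2 := Nat.one_le_pow _ _ hs.pos
    omega
  -- `C(A) ≤ M`
  obtain ⟨y, hyA, hy1, hyM⟩ := hy
  have hCA : centralizer (A : Set G) ≤ M :=
    (Subgroup.centralizer_le (Set.singleton_subset_iff.mpr hyA)).trans hyM
  have hKM : piCoreOf (primesNotDvd (Nat.card A)) (centralizer (A : Set G)) ≤ M :=
    (piCoreOf_le _ _).trans hCA
  have hconj : ∀ (X : Subgroup G) (k : G), X ≤ M → k ∈ M →
      X.map (MulAut.conj k).toMonoidHom ≤ M := by
    intro X k hX hk x hx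
    rw [mem_map_conj_iff] at hx
    have h1 := M.mul_mem (M.mul_mem hk (hX hx)) (M.inv_mem hk)
    have h2 : k * (k⁻¹ * x * k) * k⁻¹ = x := by group
    rw [h2] at h1
    exact h1
  -- a maximal `A`-invariant `s`-subgroup over `T`
  have hTinv : T ∈ invSubgroups ⊤ A {s} :=
    ⟨le_top, isPi_singleton_of_isPGroup hT, hAM.trans hMT⟩
  obtain ⟨Q₀, hQ₀, hTQ₀⟩ := exists_le_maxInvSubgroups hTinv
  have hQ₀s : IsPGroup s Q₀ := isPGroup_of_isPi_singleton hQ₀.1.2.1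
  have hQ₀top : Q₀ ≠ ⊤ := not_isPGroup_top hG hQ₀s
  have hEQ₀ : E₀ ≤ Q₀ := hE₀T.trans hTQ₀
  have hQ₀M : Q₀ ≤ M := hU Q₀ hQ₀top hEQ₀
  have hQ₀0 : Q₀ ≠ ⊥ := fun h => hE₀0 (le_bot_iff.mp (h ▸ hEQ₀))
  have hNQ₀M : normalizer (Q₀ : Set G) ≤ M :=
    hU _ (minSimple_normalizer_ne_top hG hQ₀0 hQ₀top) (hEQ₀.trans Subgroup.le_normalizer)
  have hmax : ∀ Q ∈ maxInvSubgroups ⊤ A {s}, Q ≤ M ∧ normalizer (Q : Set G) ≤ M := by
    intro Q hQ
    obtain ⟨k, hk, rfl⟩ := htr Q₀ hQ₀ Q hQ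
    have hkM : k ∈ M := hKM hk
    refine ⟨hconj Q₀ k hQ₀M hkM, ?_⟩
    rw [← Subgroup.map_equiv_normalizer_eq]
    exact hconj _ k hNQ₀M hkM
  have hb3 : ∀ Y : Subgroup G, IsPGroup s Y → A ≤ normalizer (Y : Set G) → Y ≤ M := by
    intro Y hY hAY
    obtain ⟨Q, hQ, hYQ⟩ := exists_le_maxInvSubgroups (A := A) (R := Y) (π := {s})
      ⟨le_top, isPi_singleton_of_isPGroup hY, hAY⟩
    exact hYQ.trans (hmax Q hQ).1
  refine ⟨hb3, ?_, ?_⟩
  · intro R hR hAR
    have hRtop : R ≠ ⊤ := not_isPGroup_top hG hR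
    have hPπ : ∀ r : ℕ, r.Prime → r ∣ Nat.card R → r ∣ Nat.card A := by
      intro r hr hdvd
      obtain ⟨n, hn⟩ := IsPGroup.iff_card.mp hR
      rw [hn] at hdvd
      have hrp : r = p := (Nat.prime_dvd_prime_iff_eq hr hp).mp (hr.dvd_of_dvd_pow hdvd)
      rw [hrp]
      exact hpA
    have hsn : (A.subgroupOf R).IsSubnormal :=
      Cfsg.Agent.H72.isSubnormal_of_isPGroup p hR _
    obtain ⟨-, -, hc, hd⟩ := thm75 hG A hTH s hs hsA R hRtop hPπ hAR hsn htr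
    have hbot : (⊥ : Subgroup G) ∈ invSubgroups ⊤ R {s} := by
      refine ⟨le_top, ?_, ?_⟩
      · intro r hr hdvd
        rw [Subgroup.card_bot] at hdvd
        exact absurd (Nat.dvd_one.mp hdvd) hr.ne_one
      · intro x _
        rw [Subgroup.mem_normalizer_iff]
        intro h
        simp [Subgroup.mem_bot]
    obtain ⟨Q, hQ, -⟩ := exists_le_maxInvSubgroups hbot
    obtain ⟨-, hN⟩ := hd Q hQ
    rw [hN]
    refine sup_le ?_ (inf_le_right.trans (hmax Q (hc hQ)).2)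
    exact (piCoreOf_le _ _).trans
      ((Subgroup.centralizer_le (SetLike.coe_subset_coe.mpr hAR)).trans hCA)
  · intro g hg
    have hco : IsCoatom (M.map (MulAut.conj g).toMonoidHom) :=
      (OrderIso.isCoatom_iff (MulEquiv.mapSubgroup (MulAut.conj g)) M).mpr hM
    have hT' : T.map (MulAut.conj g).toMonoidHom ≤ M := by
      apply hb3
      · exact hT.map _
      · refine hg.trans ?_
        rw [← Subgroup.map_equiv_normalizer_eq]
        exact Subgroup.map_mono hMT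
    have hE' : E₀.map (MulAut.conj g).toMonoidHom ≤ M := (Subgroup.map_mono hE₀T).trans hT'
    have hU' := inUniqueMaximal_conj g hE₀U
    have hMM : M.map (MulAut.conj g).toMonoidHom = M :=
      ExistsUnique.unique hU' ⟨hco, Subgroup.map_mono hE₀M⟩ ⟨hM, hE'⟩
    have hM0 : M ≠ ⊥ := fun h => hA0 (le_bot_iff.mp (h ▸ hAM))
    have hNM : normalizer (M : Set G) = M :=
      normalizer_eq_of_coatom' hG hM hM0 hM.1 Subgroup.le_normalizer
    rw [← hNM, Subgroup.mem_normalizer_iff]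
    intro h
    constructor
    · intro hh
      rw [← hMM]
      exact ⟨h, hh, rfl⟩
    · intro hh
      rw [← hMM, mem_map_conj_iff] at hh
      have e : g⁻¹ * (g * h * g⁻¹) * g = h := by group
      rw [e] at hh
      exact hh

end Cfsg.Agent.Lib.Helper30.BG95
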