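import Cfsg.Agent.Lib.Helper30.ZGUtil
import Cfsg.Agent.H66.PLength
import Cfsg.Agent.H58.FrobQuot

/-!
# Internal `p`-length one chains and preimages from sections

`PChain p K R`: the subgroup `K` has an `R`-invariant normal chain `1 ≤ A ≤ B ≤ K` with `A` a
`p'`-group, `B/A` a `p`-group and `K/B` a `p'`-group.  Such a chain gives `PLengthLE p 1 K`, it
pulls back from sections `K/N` with `N` a `p'`-group, and two chains modulo subgroups with
trivial intersection combine to a chain of `K`.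
-/

set_option autoImplicit false
set_option linter.unusedSectionVars false
set_option linter.unusedVariables false

namespace Cfsg.Agent.Lib.Helper30.ZG

open Cfsg.Agent.H58.FrobQuot Cfsg.Agent.H58.FrobAct
open Subgroup

universe u

variable {G : Type u} [Group G] [Finite G]

/-- An `R`-invariant chain witnessing `p`-length at most one of `K`. -/
def PChain (p : ℕ) (K R : Subgroup G) : Prop :=
  ∃ A B : Subgroup G, A ≤ B ∧ B ≤ K ∧ K ≤ normalizer (A : Set G) ∧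
    K ≤ normalizer (B : Set G) ∧ R ≤ normalizer (A : Set G) ∧
    R ≤ normalizer (B : Set G) ∧ (Nat.card A).Coprime p ∧
    (∃ n : ℕ, A.relIndex B = p ^ n) ∧ (B.relIndex K).Coprime p

theorem pLengthLE_of_pChain {p : ℕ} [Fact p.Prime] {K R : Subgroup G}
    (h : PChain p K R) : Cfsg.PLengthLE p 1 ↥K := by
  obtain ⟨A, B, hAB, hBK, hKA, hKB, -, -, hA, ⟨n, hn⟩, hB⟩ := h
  rw [Cfsg.Agent.H66.pLengthLE_iff_plenRel]
  refine ⟨A.subgroupOf K, B.subgroupOf K, inferInstance,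
    Subgroup.normal_subgroupOf_of_le_normalizer hKA, bot_le, ?_, ?_, ⟨n, ?_⟩,
    Subgroup.normal_subgroupOf_of_le_normalizer hKB, inferInstance, le_top, ?_⟩
  · rw [Subgroup.relIndex_bot_left,
      Nat.card_congr (Subgroup.subgroupOfEquivOfLe (hAB.trans hBK)).toEquiv]
    exact hA
  · exact Subgroup.comap_mono hAB
  · rw [Subgroup.relIndex_subgroupOf hBK]; exact hn
  · rw [Subgroup.relIndex_top_right]
    exact hB

/-- The full preimage in `G` of a subgroup of the section `N_G(N)/N`. -/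
def pre (N : Subgroup G) (A' : Subgroup (SecGrp N)) : Subgroup G :=
  (A'.comap (secMk N)).map (normalizer (N : Set G)).subtype

theorem mem_pre {N : Subgroup G} {A' : Subgroup (SecGrp N)} {x : G} :
    x ∈ pre N A' ↔ ∃ hx : x ∈ normalizer (N : Set G), secMk N ⟨x, hx⟩ ∈ A' := by
  constructor
  · rintro ⟨a, ha, rfl⟩
    exact ⟨a.2, ha⟩
  · rintro ⟨hx, h⟩
    exact ⟨⟨x, hx⟩, h, rfl⟩

theorem le_pre (N : Subgroup G) (A' : Subgroup (SecGrp N)) : N ≤ pre N A' := by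
  intro x hx
  rw [mem_pre]
  refine ⟨Subgroup.le_normalizer hx, ?_⟩
  rw [(secMk_eq_one_iff N _).mpr hx]
  exact A'.one_mem

theorem pre_mono {N : Subgroup G} {A' B' : Subgroup (SecGrp N)} (h : A' ≤ B') :
    pre N A' ≤ pre N B' :=
  Subgroup.map_mono (Subgroup.comap_mono h)

theorem pre_im {N H : Subgroup G} (hNH : N ≤ H) (hHN : H ≤ normalizer (N : Set G)) :
    pre N (im N H) = H := by
  ext x
  rw [mem_pre]
  constructor
  · rintro ⟨hx, h⟩
    obtain ⟨y, hy, hxy⟩ := (mem_im hHN _).mp h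
    rw [secMk_eq_iff] at hxy
    have hxy' : y⁻¹ * x ∈ N := hxy
    have e : x = y * (y⁻¹ * x) := by group
    rw [e]; exact H.mul_mem hy (hNH hxy')
  · intro hx
    exact ⟨hHN hx, mk_mem_im _ hx⟩

theorem pre_le_of_le_im {N H : Subgroup G} (hNH : N ≤ H) (hHN : H ≤ normalizer (N : Set G))
    {A' : Subgroup (SecGrp N)} (h : A' ≤ im N H) : pre N A' ≤ H := by
  rw [← pre_im hNH hHN]; exact pre_mono h

theorem le_normalizer_pre {N Y : Subgroup G} {A' : Subgroup (SecGrp N)}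
    (hY : Y ≤ normalizer (N : Set G))
    (h : im N Y ≤ normalizer ((A' : Subgroup (SecGrp N)) : Set (SecGrp N))) :
    Y ≤ normalizer ((pre N A' : Subgroup G) : Set G) := by
  intro y hy
  apply mem_normalizer_of_conj
  intro x hx
  obtain ⟨hxN, hxA⟩ := mem_pre.mp hx
  rw [mem_pre]
  refine ⟨(normalizer (N : Set G)).mul_mem ((normalizer (N : Set G)).mul_mem (hY hy) hxN)
    ((normalizer (N : Set G)).inv_mem (hY hy)), ?_⟩
  have h1 : secMk N ⟨y, hY hy⟩ ∈ normalizer ((A' : Subgroup (SecGrp N)) : Set (SecGrp N)) :=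
    h (mk_mem_im _ hy)
  have h2 := conj_mem_of_mem_normalizer h1 hxA
  rw [← map_mul, ← map_inv, ← map_mul] at h2
  exact h2

theorem relIndex_pre (N : Subgroup G) (A' B' : Subgroup (SecGrp N)) :
    (pre N A').relIndex (pre N B') = A'.relIndex B' := by
  unfold pre
  rw [Subgroup.relIndex_map_map_of_injective _ _ (Subgroup.subtype_injective _),
    Cfsg.Agent.H66.relIndex_comap_comap (secMk N) (secMk_surjective N)]

theorem pre_bot (N : Subgroup G) : pre N ⊥ = N := by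
  ext x
  rw [mem_pre]
  constructor
  · rintro ⟨hx, h⟩
    exact (secMk_eq_one_iff N _).mp (Subgroup.mem_bot.mp h)
  · intro hx
    exact ⟨Subgroup.le_normalizer hx, Subgroup.mem_bot.mpr ((secMk_eq_one_iff N _).mpr hx)⟩

theorem relIndex_left_pre (N : Subgroup G) (A' : Subgroup (SecGrp N)) :
    N.relIndex (pre N A') = Nat.card A' := by
  have h := relIndex_pre N ⊥ A'
  rw [pre_bot, Subgroup.relIndex_bot_left] at h
  exact h

theorem relIndex_inf_dvd' {M K : Subgroup G} (D : Subgroup G)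
    (hKM : K ≤ normalizer (M : Set G)) (hMK : M ≤ K) :
    M.relIndex (K ⊓ D) ∣ M.relIndex K := by
  have h1 := Cfsg.Agent.H1.relIndex_sup_of_le_normalizer (K ⊓ D) M (inf_le_left.trans hKM)
  rw [← h1]
  exact Dvd.intro _ (Subgroup.relIndex_mul_relIndex M ((K ⊓ D) ⊔ M) K le_sup_right
    (sup_le inf_le_left hMK))

theorem card_eq_card_inf_mul_relIndex (N X : Subgroup G) :
    Nat.card X = Nat.card ↥(N ⊓ X) * N.relIndex X := by
  have h := Subgroup.relIndex_mul_relIndex ⊥ (N ⊓ X) X bot_le inf_le_right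
  rw [Subgroup.relIndex_bot_left, Subgroup.relIndex_bot_left, Subgroup.inf_relIndex_right] at h
  exact h.symm

/-- A chain of the section `H/N` pulls back to an invariant chain `N ≤ M ≤ B ≤ H`. -/
theorem exists_of_quot {p : ℕ} {N H R : Subgroup G} (hNH : N ≤ H)
    (hHN : H ≤ normalizer (N : Set G)) (hRN : R ≤ normalizer (N : Set G))
    (h : PChain p (im N H) (im N R)) :
    ∃ M B : Subgroup G, N ≤ M ∧ M ≤ B ∧ B ≤ H ∧ H ≤ normalizer (M : Set G) ∧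
      H ≤ normalizer (B : Set G) ∧ R ≤ normalizer (M : Set G) ∧ R ≤ normalizer (B : Set G) ∧
      (N.relIndex M).Coprime p ∧ (∃ n : ℕ, M.relIndex B = p ^ n) ∧ (B.relIndex H).Coprime p := by
  obtain ⟨A', B', hAB, hBK, hKA, hKB, hRA, hRB, hA, ⟨n, hn⟩, hB⟩ := h
  refine ⟨pre N A', pre N B', le_pre N A', pre_mono hAB, pre_le_of_le_im hNH hHN hBK,
    le_normalizer_pre hHN hKA, le_normalizer_pre hHN hKB, le_normalizer_pre hRN hRA,
    le_normalizer_pre hRN hRB, ?_, ⟨n, ?_⟩, ?_⟩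
  · rw [relIndex_left_pre]; exact hA
  · rw [relIndex_pre]; exact hn
  · have e : (pre N B').relIndex H = (pre N B').relIndex (pre N (im N H)) := by
      rw [pre_im hNH hHN]
    rw [e, relIndex_pre]; exact hB

theorem pChain_of_quot_pprime {p : ℕ} {N H R : Subgroup G} (hNH : N ≤ H)
    (hHN : H ≤ normalizer (N : Set G)) (hRN : R ≤ normalizer (N : Set G))
    (hN : (Nat.card N).Coprime p)
    (h : PChain p (im N H) (im N R)) : PChain p H R := by
  obtain ⟨M, B, hNM, hMB, hBH, hHM, hHB, hRM, hRB, hM, hn, hB⟩ := exists_of_quot hNH hHN hRN h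
  refine ⟨M, B, hMB, hBH, hHM, hHB, hRM, hRB, ?_, hn, hB⟩
  rw [card_eq_card_inf_mul_relIndex N M, inf_eq_left.mpr hNM]
  exact Nat.Coprime.mul_left hN hM

theorem pChain_of_two {p : ℕ} [hp : Fact p.Prime] {N₁ N₂ H R : Subgroup G}
    (hN₁H : N₁ ≤ H) (hHN₁ : H ≤ normalizer (N₁ : Set G)) (hRN₁ : R ≤ normalizer (N₁ : Set G))
    (hN₂H : N₂ ≤ H) (hHN₂ : H ≤ normalizer (N₂ : Set G)) (hRN₂ : R ≤ normalizer (N₂ : Set G))
    (hdisj : N₁ ⊓ N₂ = ⊥)
    (h₁ : PChain p (im N₁ H) (im N₁ R)) (h₂ : PChain p (im N₂ H) (im N₂ R)) : PChain p H R := by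
  obtain ⟨M₁, B₁, hNM₁, hMB₁, hBH₁, hHM₁, hHB₁, hRM₁, hRB₁, hM₁, ⟨n₁, hn₁⟩, hB₁⟩ :=
    exists_of_quot hN₁H hHN₁ hRN₁ h₁
  obtain ⟨M₂, B₂, hNM₂, hMB₂, hBH₂, hHM₂, hHB₂, hRM₂, hRB₂, hM₂, ⟨n₂, hn₂⟩, hB₂⟩ :=
    exists_of_quot hN₂H hHN₂ hRN₂ h₂
  have hnorm : ∀ {Y X₁ X₂ : Subgroup G}, Y ≤ normalizer (X₁ : Set G) →
      Y ≤ normalizer (X₂ : Set G) → Y ≤ normalizer ((X₁ ⊓ X₂ : Subgroup G) : Set G) :=
    fun h1 h2 => (le_inf h1 h2).trans Subgroup.inf_normalizer_le_normalizer_inf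
  refine ⟨M₁ ⊓ M₂, B₁ ⊓ B₂, inf_le_inf hMB₁ hMB₂, inf_le_left.trans hBH₁, hnorm hHM₁ hHM₂,
    hnorm hHB₁ hHB₂, hnorm hRM₁ hRM₂, hnorm hRB₁ hRB₂, ?_, ?_, ?_⟩
  · -- `M₁ ⊓ M₂` is a `p'`-group
    have hM₂N₁ : (Nat.card ↥(M₂ ⊓ N₁)).Coprime p := by
      rw [card_eq_card_inf_mul_relIndex N₂ (M₂ ⊓ N₁)]
      have e : N₂ ⊓ (M₂ ⊓ N₁) = ⊥ := by
        apply le_antisymm _ bot_le
        rw [← hdisj]
        exact le_inf (inf_le_right.trans inf_le_right) inf_le_left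
      rw [e, Subgroup.card_bot, one_mul]
      exact Nat.Coprime.coprime_dvd_left
        (relIndex_inf_dvd' N₁ ((hMB₂.trans hBH₂).trans hHN₂) hNM₂) hM₂
    rw [card_eq_card_inf_mul_relIndex N₁ (M₁ ⊓ M₂)]
    apply Nat.Coprime.mul_left
    · apply Nat.Coprime.coprime_dvd_left _ hM₂N₁
      exact Subgroup.card_dvd_of_le (le_inf (inf_le_right.trans inf_le_right) inf_le_left)
    · exact Nat.Coprime.coprime_dvd_left
        (relIndex_inf_dvd' M₂ ((hMB₁.trans hBH₁).trans hHN₁) hNM₁) hM₁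
  · -- `(B₁ ⊓ B₂)/(M₁ ⊓ M₂)` is a `p`-group
    have hB₁M₁ : B₁ ≤ normalizer (M₁ : Set G) := hBH₁.trans hHM₁
    have hB₂M₂ : B₂ ≤ normalizer (M₂ : Set G) := hBH₂.trans hHM₂
    have e1 : (M₁ ⊓ M₂).relIndex ((B₁ ⊓ B₂) ⊓ M₁) * ((B₁ ⊓ B₂) ⊓ M₁).relIndex (B₁ ⊓ B₂) =
        (M₁ ⊓ M₂).relIndex (B₁ ⊓ B₂) :=
      Subgroup.relIndex_mul_relIndex _ _ _
        (le_inf (inf_le_inf hMB₁ hMB₂) inf_le_left) inf_le_left
    have e2 : ((B₁ ⊓ B₂) ⊓ M₁).relIndex (B₁ ⊓ B₂) = M₁.relIndex (B₁ ⊓ B₂) := by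
      rw [inf_comm (B₁ ⊓ B₂) M₁, Subgroup.inf_relIndex_right]
    have e3 : (B₁ ⊓ B₂) ⊓ M₁ = B₂ ⊓ M₁ := by
      apply le_antisymm
      · exact le_inf (inf_le_left.trans inf_le_right) inf_le_right
      · exact le_inf (le_inf (inf_le_right.trans hMB₁) inf_le_left) inf_le_right
    have e4 : M₁ ⊓ M₂ = M₂ ⊓ (B₂ ⊓ M₁) := by
      apply le_antisymm
      · exact le_inf inf_le_right (le_inf (inf_le_right.trans hMB₂) inf_le_left)
      · exact le_inf (inf_le_right.trans inf_le_right) inf_le_left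
    have e5 : (M₁ ⊓ M₂).relIndex ((B₁ ⊓ B₂) ⊓ M₁) = M₂.relIndex (B₂ ⊓ M₁) := by
      rw [e3, e4, Subgroup.inf_relIndex_right]
    have d1 : M₁.relIndex (B₁ ⊓ B₂) ∣ p ^ n₁ := by
      rw [← hn₁]; exact relIndex_inf_dvd' B₂ hB₁M₁ hMB₁
    have d2 : M₂.relIndex (B₂ ⊓ M₁) ∣ p ^ n₂ := by
      rw [← hn₂]; exact relIndex_inf_dvd' M₁ hB₂M₂ hMB₂
    obtain ⟨k₁, -, hk₁⟩ := (Nat.dvd_prime_pow hp.out).1 d1
    obtain ⟨k₂, -, hk₂⟩ := (Nat.dvd_prime_pow hp.out).1 d2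
    refine ⟨k₂ + k₁, ?_⟩
    rw [← e1, e2, e5, hk₁, hk₂, pow_add]
  · -- `H/(B₁ ⊓ B₂)` is a `p'`-group
    have e1 := Subgroup.relIndex_inf_mul_relIndex B₁ B₂ H
    rw [← e1]
    apply Nat.Coprime.mul_left _ hB₂
    rw [inf_comm B₂ H]
    exact Nat.Coprime.coprime_dvd_left (relIndex_inf_dvd' B₂ hHB₁ hBH₁) hB₁

theorem subgroupOf_commutator {NN Y Z : Subgroup G} (hY : Y ≤ NN) (hZ : Z ≤ NN) :
    ⁅Y.subgroupOf NN, Z.subgroupOf NN⁆ = (⁅Y, Z⁆ : Subgroup G).subgroupOf NN := by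
  apply Subgroup.map_injective (Subgroup.subtype_injective NN)
  rw [Subgroup.map_commutator, Subgroup.subgroupOf_map_subtype, Subgroup.subgroupOf_map_subtype,
    Subgroup.subgroupOf_map_subtype, inf_eq_left.mpr hY, inf_eq_left.mpr hZ, eq_comm, inf_eq_left]
  rw [Subgroup.commutator_le]
  intro a ha b hb
  rw [commutatorElement_def]
  exact NN.mul_mem (NN.mul_mem (NN.mul_mem (hY ha) (hZ hb)) (NN.inv_mem (hY ha)))
    (NN.inv_mem (hZ hb))

theorem im_commutator {N Y Z : Subgroup G} (hY : Y ≤ normalizer (N : Set G))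
    (hZ : Z ≤ normalizer (N : Set G)) : ⁅im N Y, im N Z⁆ = im N ⁅Y, Z⁆ := by
  unfold im
  rw [← Subgroup.map_commutator, subgroupOf_commutator hY hZ]

theorem pChain_of_normal_sylow {p : ℕ} [hp : Fact p.Prime] {B H R : Subgroup G}
    (hBH : B ≤ H)
    (hHB : H ≤ normalizer (B : Set G)) (hRB : R ≤ normalizer (B : Set G))
    (hB : IsPGroup p B) (hidx : (B.relIndex H).Coprime p) : PChain p H R := by
  obtain ⟨n, hn⟩ := IsPGroup.iff_card.mp hB
  have hbot : ∀ Y : Subgroup G, Y ≤ normalizer (((⊥ : Subgroup G) : Subgroup G) : Set G) := by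
    intro Y y hy
    apply mem_normalizer_of_conj
    intro x hx
    rw [Subgroup.mem_bot] at hx ⊢
    rw [hx]; group
  refine ⟨⊥, B, bot_le, hBH, hbot H, hHB, hbot R, hRB, ?_, ⟨n, ?_⟩, hidx⟩
  · rw [Subgroup.card_bot]; exact Nat.coprime_one_left p
  · rw [Subgroup.relIndex_bot_left]; exact hn

end Cfsg.Agent.Lib.Helper30.ZG
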