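import Cfsg.Agent.Lib.Helper30.ZGUtil2
import Cfsg.Agent.Lib.Helper30.ZGChain
import Cfsg.Agent.H13.CopHH10
import Cfsg.Agent.H1.CoprimeSylow

/-!
# BG Theorem 3.5: reduction of a minimal counterexample to the key configuration
-/

set_option autoImplicit false
set_option linter.unusedSectionVars false
set_option linter.unusedVariables false
set_option linter.style.haveILetI false
set_option linter.deprecated false

namespace Cfsg.Agent.Lib.Helper30.ZG

open Cfsg.Agent.H58.FrobQuot Cfsg.Agent.H58.FrobAct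
open Subgroup
open scoped commutatorElement

universe u

variable {G : Type u} [Group G] [Finite G]

/-- `N` is a subgroup of `H` normalized by `H` and `R`. -/
def Inv (H R N : Subgroup G) : Prop :=
  N ≤ H ∧ H ≤ normalizer (N : Set G) ∧ R ≤ normalizer (N : Set G)

theorem Inv.self {H R : Subgroup G} (hRH : R ≤ normalizer (H : Set G)) : Inv H R H :=
  ⟨le_rfl, Subgroup.le_normalizer, hRH⟩

theorem Inv.inf {H R N₁ N₂ : Subgroup G} (h₁ : Inv H R N₁) (h₂ : Inv H R N₂) :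
    Inv H R (N₁ ⊓ N₂) :=
  ⟨inf_le_left.trans h₁.1, le_normalizer_inf' h₁.2.1 h₂.2.1, le_normalizer_inf' h₁.2.2 h₂.2.2⟩

theorem Inv.commutator {H R N₁ N₂ : Subgroup G} (h₁ : Inv H R N₁) (h₂ : Inv H R N₂) :
    Inv H R ⁅N₁, N₂⁆ :=
  ⟨(Cfsg.Agent.H1.commutator_le_of_le_normalizer N₂ N₁ (h₂.1.trans h₁.2.1)).trans h₁.1,
    Cfsg.Agent.H1.le_normalizer_commutator H N₁ N₂ h₁.2.1 h₂.2.1,
    Cfsg.Agent.H1.le_normalizer_commutator R N₁ N₂ h₁.2.2 h₂.2.2⟩

/-- A minimal counterexample (with `[H, R] = H`). -/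
structure MinCE (p : ℕ) (H R R₀ : Subgroup G) : Prop where
  hodd : Odd (Nat.card G)
  hsolv : Group.IsSolvable G
  hRH : R ≤ normalizer (H : Set G)
  hcop : (Nat.card H).Coprime (Nat.card R)
  hR₀ : R₀ ≤ R
  hr : (Nat.card R₀).Prime
  hZ : IsZGroup ↥(H ⊓ centralizer (R₀ : Set G))
  hcomm : ⁅H, R⁆ = H
  hnot : ¬ PChain p H R
  hquot : ∀ N : Subgroup G, Inv H R N → N ≠ ⊥ → PChain p (im N H) (im N R)

section CE

variable {p : ℕ} [hp : Fact p.Prime] {H R R₀ : Subgroup G}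

theorem MinCE.pprime_eq_bot (h : MinCE p H R R₀) {N : Subgroup G} (hN : Inv H R N)
    (hc : (Nat.card N).Coprime p) : N = ⊥ := by
  by_contra hne
  exact h.hnot (pChain_of_quot_pprime hN.1 hN.2.1 hN.2.2 hc (h.hquot N hN hne))

theorem MinCE.inf_ne_bot (h : MinCE p H R R₀) {N₁ N₂ : Subgroup G} (h₁ : Inv H R N₁)
    (h₂ : Inv H R N₂) (hne₁ : N₁ ≠ ⊥) (hne₂ : N₂ ≠ ⊥) : N₁ ⊓ N₂ ≠ ⊥ := by
  intro hbot
  exact h.hnot (pChain_of_two h₁.1 h₁.2.1 h₁.2.2 h₂.1 h₂.2.1 h₂.2.2 hbot (h.hquot N₁ h₁ hne₁)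
    (h.hquot N₂ h₂ hne₂))

theorem MinCE.ne_bot (h : MinCE p H R R₀) : H ≠ ⊥ := by
  intro hbot
  apply h.hnot
  refine pChain_of_normal_sylow (B := ⊥) bot_le (le_normalizer_bot H) (le_normalizer_bot R)
    (IsPGroup.of_bot) ?_
  rw [hbot, Subgroup.relIndex_self]; exact Nat.coprime_one_left p

theorem MinCE.exists_min (h : MinCE p H R R₀) :
    ∃ V : Subgroup G, Inv H R V ∧ V ≠ ⊥ ∧ ∀ N : Subgroup G, Inv H R N → N ≠ ⊥ → V ≤ N := by
  obtain ⟨V, -, hV⟩ := (Set.toFinite {N : Subgroup G | Inv H R N ∧ N ≠ ⊥}).exists_le_minimal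
    (a := H) ⟨Inv.self h.hRH, h.ne_bot⟩
  obtain ⟨⟨hVinv, hVne⟩, hVmin⟩ := hV
  refine ⟨V, hVinv, hVne, fun N hN hNne => ?_⟩
  have h1 : V ⊓ N ∈ {N : Subgroup G | Inv H R N ∧ N ≠ ⊥} :=
    ⟨hVinv.inf hN, h.inf_ne_bot hVinv hN hVne hNne⟩
  exact (hVmin h1 inf_le_left).trans inf_le_right

end CE

/-- A minimal counterexample together with its unique minimal invariant subgroup. -/
structure MinV (p : ℕ) (H R R₀ V : Subgroup G) : Prop where
  ce : MinCE p H R R₀
  hV : Inv H R V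
  hVne : V ≠ ⊥
  hVmin : ∀ N : Subgroup G, Inv H R N → N ≠ ⊥ → V ≤ N

section MV

variable {p : ℕ} [hp : Fact p.Prime] {H R R₀ V : Subgroup G}

theorem MinV.comm (m : MinV p H R R₀ V) : ∀ a ∈ V, ∀ b ∈ V, a * b = b * a := by
  haveI := m.ce.hsolv
  have hlt := commutator_self_lt V inferInstance m.hVne
  have hbot : ⁅V, V⁆ = ⊥ := by
    by_contra hne
    exact absurd (m.hVmin _ (m.hV.commutator m.hV) hne) (not_le_of_gt hlt)
  intro a ha b hb
  have h1 : ⁅a, b⁆ ∈ ⁅V, V⁆ := Subgroup.commutator_mem_commutator ha hb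
  rw [hbot, Subgroup.mem_bot, commutatorElement_eq_one_iff_mul_comm] at h1
  exact h1

theorem MinV.p_dvd (m : MinV p H R R₀ V) : p ∣ Nat.card V := by
  by_contra hnd
  exact m.hVne (m.ce.pprime_eq_bot m.hV ((Nat.Prime.coprime_iff_not_dvd hp.out).mpr hnd).symm)

theorem MinV.exp (m : MinV p H R R₀ V) : ∀ v ∈ V, v ^ p = 1 := by
  have hne := omegaSub_ne_bot (p := p) m.comm m.p_dvd
  have hinv : Inv H R (omegaSub p V m.comm) :=
    ⟨(omegaSub_le m.comm).trans m.hV.1, fun g hg => omegaSub_normalizer m.comm (m.hV.2.1 hg),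
      fun g hg => omegaSub_normalizer m.comm (m.hV.2.2 hg)⟩
  intro v hv
  exact (mem_omegaSub.mp (m.hVmin _ hinv hne hv)).2

theorem MinV.isPGroup (m : MinV p H R R₀ V) : IsPGroup p V := by
  intro v
  refine ⟨1, ?_⟩
  rw [pow_one]
  apply Subtype.ext
  rw [Subgroup.coe_pow]
  exact m.exp v v.2

theorem MinV.comm_pgroup (m : MinV p H R R₀ V) {B : Subgroup G} (hB : Inv H R B)
    (hBp : IsPGroup p B) : ⁅V, B⁆ = ⊥ := by
  by_contra hne
  have hlt := Cfsg.Agent.H1.commutator_lt_of_pgroup p B V hBp m.isPGroup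
    (hB.1.trans m.hV.2.1) m.hVne
  exact absurd (m.hVmin _ (m.hV.commutator hB) hne) (not_le_of_gt hlt)

end MV

section MV2

variable {p : ℕ} [hp : Fact p.Prime] {H R R₀ V : Subgroup G}

/-- The minimal invariant subgroup has an `R`-invariant complement in `H`. -/
theorem MinV.exists_compl (m : MinV p H R R₀ V) :
    ∃ L : Subgroup G, L ≤ H ∧ R ≤ normalizer (L : Set G) ∧ V ⊔ L = H ∧ V ⊓ L = ⊥ := by
  haveI := m.ce.hsolv
  have hVp := m.isPGroup
  obtain ⟨a, ha⟩ := IsPGroup.iff_card.mp hVp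
  obtain ⟨M, B, hVM, hMB, hBH, hHM, hHB, hRM, hRB, hM, ⟨n, hn⟩, hB⟩ :=
    exists_of_quot m.hV.1 m.hV.2.1 m.hV.2.2 (m.ce.hquot V m.hV m.hVne)
  have hcardM : Nat.card M = Nat.card V * V.relIndex M := by
    have := card_eq_card_inf_mul_relIndex V M
    rwa [inf_eq_left.mpr hVM] at this
  have hMV : M ≠ V := by
    intro hMV
    rw [hMV] at hn hMB
    apply m.ce.hnot
    refine pChain_of_normal_sylow hBH hHB hRB ?_ hB
    apply IsPGroup.of_card (n := a + n)
    have := card_eq_card_inf_mul_relIndex V B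
    rw [inf_eq_left.mpr hMB, hn, ha] at this
    rw [this, pow_add]
  have hMNV : M ≤ normalizer (V : Set G) := (hMB.trans hBH).trans m.hV.2.1
  have hcopm : (V.relIndex M).Coprime (Nat.card V) := by
    rw [ha]; exact Nat.Coprime.pow_right a hM
  obtain ⟨K', hK'⟩ := Cfsg.Agent.H1.hall_exists (G := ↥M) (V.relIndex M) (Nat.card V)
    (by rw [hcardM, mul_comm]) hcopm
  obtain ⟨Ω, hΩ⟩ : ∃ Ω : Set (Subgroup G), Ω = {K | K ≤ M ∧ Nat.card K = V.relIndex M} :=
    ⟨_, rfl⟩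
  have hΩmem : ∀ K : Subgroup G, K ∈ Ω ↔ K ≤ M ∧ Nat.card K = V.relIndex M := by
    intro K; rw [hΩ]; rfl
  have hΩne : Ω.Nonempty :=
    ⟨K'.map M.subtype, (hΩmem _).mpr ⟨Subgroup.map_subtype_le _, by
      rw [Subgroup.card_subtype]; exact hK'⟩⟩
  have hΩ1 : ∀ K ∈ Ω, K ⊓ V = ⊥ := by
    intro K hK
    apply Subgroup.inf_eq_bot_of_coprime
    rw [((hΩmem K).mp hK).2]; exact hcopm
  have hΩ2 : ∀ K ∈ Ω, K ⊔ V = M := by
    intro K hK
    apply Subgroup.eq_of_le_of_card_ge (sup_le ((hΩmem K).mp hK).1 hVM)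
    rw [Cfsg.Agent.H1.card_sup_of_le_normalizer K V (((hΩmem K).mp hK).1.trans hMNV) (hΩ1 K hK),
      ((hΩmem K).mp hK).2, hcardM, mul_comm]
  have htr : ∀ K₁ ∈ Ω, ∀ K₂ ∈ Ω, ∃ k ∈ V, K₂ = K₁.map (MulAut.conj k).toMonoidHom := by
    intro K₁ hK₁ K₂ hK₂
    obtain ⟨d, hd, hdK⟩ := Cfsg.Agent.H1.sz_conj_internal K₁ V K₂
      (((hΩmem K₁).mp hK₁).1.trans hMNV)
      (by rw [((hΩmem K₁).mp hK₁).2]; exact hcopm) (Or.inl inferInstance)
      (by rw [hΩ2 K₁ hK₁]; exact ((hΩmem K₂).mp hK₂).1)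
      (by rw [((hΩmem K₁).mp hK₁).2, ((hΩmem K₂).mp hK₂).2])
    exact ⟨d, hd, hdK.symm⟩
  have hΩconj : ∀ K ∈ Ω, ∀ g ∈ normalizer (M : Set G),
      K.map (MulAut.conj g).toMonoidHom ∈ Ω := by
    intro K hK g hg
    exact (hΩmem _).mpr ⟨map_conj_le_of_mem_normalizer ((hΩmem K).mp hK).1 hg, by
      rw [Cfsg.Agent.Lib.Helper30.card_map_conj]; exact ((hΩmem K).mp hK).2⟩
  have hcopRV : (Nat.card R).Coprime (Nat.card V) :=
    Nat.Coprime.coprime_dvd_right (Subgroup.card_dvd_of_le m.hV.1) m.ce.hcop.symm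
  obtain ⟨K, hKΩ, hRK⟩ := Cfsg.Agent.Lib.Helper30.exists_normalized_of_transitive (P := R)
    (K := V) m.hV.2.2 hcopRV (Or.inr inferInstance) hΩne
    (fun Q hQ g hg => hΩconj Q hQ g (hRM hg))
    (fun Q hQ k hk => hΩconj Q hQ k (hHM (m.hV.1 hk)))
    htr
  have hKM : K ≤ M := ((hΩmem K).mp hKΩ).1
  have hKH : K ≤ H := hKM.trans (hMB.trans hBH)
  obtain ⟨L, hL⟩ : ∃ L : Subgroup G, L = H ⊓ normalizer (K : Set G) := ⟨_, rfl⟩
  have hLH : L ≤ H := by rw [hL]; exact inf_le_left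
  have hLK : L ≤ normalizer (K : Set G) := by rw [hL]; exact inf_le_right
  have hLV : L ≤ normalizer (V : Set G) := hLH.trans m.hV.2.1
  have hRL : R ≤ normalizer (L : Set G) := by
    rw [hL]
    exact le_normalizer_inf' m.ce.hRH (hRK.trans Subgroup.le_normalizer)
  have hsup : V ⊔ L = H := by
    apply le_antisymm (sup_le m.hV.1 hLH)
    intro x hx
    have h1 : K.map (MulAut.conj x).toMonoidHom ∈ Ω := hΩconj K hKΩ x (hHM hx)
    obtain ⟨d, hd, hdK⟩ := htr K hKΩ _ h1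
    have h2 := Cfsg.Agent.Lib.Helper30.inv_mul_mem_normalizer_of_map_conj_eq hdK
    have e : x = d * (d⁻¹ * x) := by group
    rw [e]
    refine Subgroup.mul_mem_sup hd ?_
    rw [hL]
    exact Subgroup.mem_inf.mpr ⟨H.mul_mem (H.inv_mem (m.hV.1 hd)) hx, h2⟩
  refine ⟨L, hLH, hRL, hsup, ?_⟩
  -- `C_V(K) = 1`
  have hD : V ⊓ centralizer (K : Set G) = ⊥ := by
    by_contra hne
    have hinv : Inv H R (V ⊓ centralizer (K : Set G)) := by
      refine ⟨inf_le_left.trans m.hV.1, ?_,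
        le_normalizer_inf' m.hV.2.2 (le_normalizer_centralizer hRK)⟩
      rw [← hsup]
      apply sup_le
      · exact abelian_le_normalizer V V _ m.comm le_rfl inf_le_left
      · exact le_normalizer_inf' hLV (le_normalizer_centralizer hLK)
    have hVC : V ≤ centralizer (K : Set G) := (m.hVmin _ hinv hne).trans inf_le_right
    have hKinv : Inv H R K := by
      refine ⟨hKH, ?_, hRK⟩
      rw [← hsup]
      exact sup_le (hVC.trans (Subgroup.centralizer_le_normalizer _)) hLK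
    have hKbot : K = ⊥ := by
      apply m.ce.pprime_eq_bot hKinv
      rw [((hΩmem K).mp hKΩ).2]; exact hM
    have := hΩ2 K hKΩ
    rw [hKbot, bot_sup_eq] at this
    exact hMV this.symm
  apply le_antisymm _ bot_le
  rw [← hD]
  intro x hx
  obtain ⟨hxV, hxL⟩ := Subgroup.mem_inf.mp hx
  refine Subgroup.mem_inf.mpr ⟨hxV, ?_⟩
  rw [Subgroup.mem_centralizer_iff]
  intro k hk
  have hc1 : x * k * x⁻¹ * k⁻¹ ∈ K :=
    K.mul_mem (conj_mem_of_mem_normalizer (hLK hxL) hk) (K.inv_mem hk)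
  have hc2 : x * k * x⁻¹ * k⁻¹ ∈ V := by
    have h1 : k * x⁻¹ * k⁻¹ ∈ V := conj_mem_of_mem_normalizer (hMNV (hKM hk)) (V.inv_mem hxV)
    have e : x * k * x⁻¹ * k⁻¹ = x * (k * x⁻¹ * k⁻¹) := by group
    rw [e]; exact V.mul_mem hxV h1
  have hc3 : x * k * x⁻¹ * k⁻¹ ∈ (⊥ : Subgroup G) := by
    rw [← hΩ1 K hKΩ]; exact Subgroup.mem_inf.mpr ⟨hc1, hc2⟩
  rw [Subgroup.mem_bot] at hc3
  have e : x * k = (x * k * x⁻¹ * k⁻¹) * (k * x) := by group
  rw [e, hc3, one_mul]

end MV2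

/-- A minimal counterexample with its minimal invariant subgroup `V` and an `R`-invariant
complement `L` of `V` in `H`. -/
structure MinL (p : ℕ) (H R R₀ V L : Subgroup G) : Prop where
  mv : MinV p H R R₀ V
  hLH : L ≤ H
  hRL : R ≤ normalizer (L : Set G)
  hsup : V ⊔ L = H
  hinf : V ⊓ L = ⊥

section ML

variable {p : ℕ} [hp : Fact p.Prime] {H R R₀ V L : Subgroup G}

theorem MinL.hLV (c : MinL p H R R₀ V L) : L ≤ normalizer (V : Set G) :=
  c.hLH.trans c.mv.hV.2.1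

theorem MinL.cent (c : MinL p H R R₀ V L) : L ⊓ centralizer (V : Set G) = ⊥ := by
  by_contra hne
  have hinv : Inv H R (L ⊓ centralizer (V : Set G)) := by
    refine ⟨inf_le_left.trans c.hLH, ?_,
      le_normalizer_inf' c.hRL (le_normalizer_centralizer c.mv.hV.2.2)⟩
    rw [← c.hsup]
    apply sup_le
    · have h1 : V ≤ centralizer ((L ⊓ centralizer (V : Set G) : Subgroup G) : Set G) := by
        rw [Subgroup.le_centralizer_iff]; exact inf_le_right
      exact h1.trans (Subgroup.centralizer_le_normalizer _)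
    · exact le_normalizer_inf' Subgroup.le_normalizer (le_normalizer_centralizer c.hLV)
  have h1 := c.mv.ce.inf_ne_bot hinv c.mv.hV hne c.mv.hVne
  apply h1
  apply le_antisymm _ bot_le
  rw [← c.hinf]
  exact le_inf inf_le_right (inf_le_left.trans inf_le_left)

theorem MinL.opL (c : MinL p H R R₀ V L) {D : Subgroup G} (hDL : D ≤ L)
    (hLD : L ≤ normalizer (D : Set G)) (hRD : R ≤ normalizer (D : Set G))
    (hDp : IsPGroup p D) : D = ⊥ := by
  have hinv : Inv H R (V ⊔ D) := by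
    refine ⟨sup_le c.mv.hV.1 (hDL.trans c.hLH), ?_, le_normalizer_sup c.mv.hV.2.2 hRD⟩
    have h1 : V ⊔ L ≤ normalizer ((V ⊔ D : Subgroup G) : Set G) := by
      apply sup_le
      · exact le_sup_left.trans Subgroup.le_normalizer
      · exact le_normalizer_sup c.hLV hLD
    rw [c.hsup] at h1
    exact h1
  have hp' : IsPGroup p ↥(V ⊔ D) := by
    rw [sup_comm]
    exact IsPGroup.to_sup_of_normal_right' hDp c.mv.isPGroup (hDL.trans c.hLV)
  have h1 := c.mv.comm_pgroup hinv hp'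
  have h2 : V ⊔ D ≤ centralizer (V : Set G) := by
    rw [Subgroup.le_centralizer_iff]
    exact Subgroup.commutator_eq_bot_iff_le_centralizer.mp h1
  apply le_antisymm _ bot_le
  rw [← c.cent]
  exact le_inf hDL (le_sup_right.trans h2)

theorem MinL.p_dvd (c : MinL p H R R₀ V L) : p ∣ Nat.card L := by
  by_contra hnd
  apply c.mv.ce.hnot
  have h1 : Nat.card H = Nat.card L * Nat.card V := by
    rw [← Cfsg.Agent.H1.card_sup_of_le_normalizer L V c.hLV (by rw [inf_comm]; exact c.hinf),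
      sup_comm, c.hsup]
  have h2 := card_eq_card_inf_mul_relIndex V H
  rw [inf_eq_left.mpr c.mv.hV.1, h1] at h2
  have h3 : V.relIndex H = Nat.card L := by
    have hpos : 0 < Nat.card V := Nat.card_pos
    rw [mul_comm] at h2
    exact (Nat.eq_of_mul_eq_mul_left hpos h2).symm
  refine pChain_of_normal_sylow c.mv.hV.1 c.mv.hV.2.1 c.mv.hV.2.2 c.mv.isPGroup ?_
  rw [h3]
  exact ((Nat.Prime.coprime_iff_not_dvd hp.out).mpr hnd).symm

theorem MinL.pgroup_le (c : MinL p H R R₀ V L) {B : Subgroup G} (hB : Inv H R B)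
    (hBp : IsPGroup p B) : B ≤ V := by
  have h1 := c.mv.comm_pgroup hB hBp
  have h2 : B ≤ centralizer (V : Set G) := by
    rw [Subgroup.le_centralizer_iff]; exact Subgroup.commutator_eq_bot_iff_le_centralizer.mp h1
  intro b hb
  have hbH : b ∈ V ⊔ L := by rw [c.hsup]; exact hB.1 hb
  obtain ⟨v, hv, l, hl, rfl⟩ := (mem_sup_iff_of_le_normalizer c.hLV).mp hbH
  have hvc : v ∈ centralizer (V : Set G) := by
    rw [Subgroup.mem_centralizer_iff]; intro w hw; exact c.mv.comm w hw v hv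
  have hlc : l ∈ centralizer (V : Set G) := by
    have := (centralizer (V : Set G)).mul_mem ((centralizer (V : Set G)).inv_mem hvc) (h2 hb)
    rwa [inv_mul_cancel_left] at this
  have hl1 : l ∈ (⊥ : Subgroup G) := by rw [← c.cent]; exact Subgroup.mem_inf.mpr ⟨hl, hlc⟩
  rw [Subgroup.mem_bot] at hl1
  rw [hl1, mul_one]; exact hv

end ML

section ML2

variable {p : ℕ} [hp : Fact p.Prime] {H R R₀ V L : Subgroup G}

/-- If `C_V(R₀) = 1` then `[H, R₀] ≤ V` (Hall–Higman type argument, via the Fitting subgroup). -/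
theorem MinL.comm_mem (c : MinL p H R R₀ V L) (hbot : V ⊓ centralizer (R₀ : Set G) = ⊥)
    {x : G} (hx : x ∈ R₀) (hx1 : x ≠ 1) : ∀ h ∈ H, x * h * x⁻¹ * h⁻¹ ∈ V := by
  haveI := c.mv.ce.hsolv
  have hr := c.mv.ce.hr
  haveI : Fact (Nat.card R₀).Prime := ⟨hr⟩
  have hCx : centralizer ({x} : Set G) = centralizer (R₀ : Set G) :=
    centralizer_singleton_eq hr hx hx1
  have hxN : x ∈ normalizer (H : Set G) := c.mv.ce.hRH (c.mv.ce.hR₀ hx)
  have hle : (⨆ q : Nat.Primes, Cfsg.Agent.H13.FitInt.opInt (q : ℕ)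
      (H.subgroupOf (normalizer (H : Set G)))) ≤ V.subgroupOf (normalizer (H : Set G)) := by
    apply iSup_le
    intro q
    haveI : Fact (q : ℕ).Prime := ⟨q.2⟩
    have hBinv : Inv H R ((Cfsg.Agent.H13.FitInt.opInt (q : ℕ)
        (H.subgroupOf (normalizer (H : Set G)))).map (normalizer (H : Set G)).subtype) := by
      refine ⟨?_, ?_, ?_⟩
      · rintro _ ⟨z, hz, rfl⟩
        exact Subgroup.mem_subgroupOf.mp (Cfsg.Agent.H13.FitInt.opInt_le _ _ hz)
      · exact Subgroup.le_normalizer.trans (normal_map_subtype_normalizer _)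
      · exact c.mv.ce.hRH.trans (normal_map_subtype_normalizer _)
    have hBp : IsPGroup (q : ℕ) ↥((Cfsg.Agent.H13.FitInt.opInt (q : ℕ)
        (H.subgroupOf (normalizer (H : Set G)))).map (normalizer (H : Set G)).subtype) :=
      (Cfsg.Agent.H13.FitInt.opInt_isPGroup _ _).map _
    intro z hz
    rw [Subgroup.mem_subgroupOf]
    by_cases hqp : (q : ℕ) = p
    · have hBp' : IsPGroup p ↥((Cfsg.Agent.H13.FitInt.opInt (q : ℕ)
          (H.subgroupOf (normalizer (H : Set G)))).map (normalizer (H : Set G)).subtype) := by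
        intro g
        obtain ⟨k, hk⟩ := hBp g
        exact ⟨k, by rw [← hqp]; exact hk⟩
      exact c.pgroup_le hBinv hBp' ⟨z, hz, rfl⟩
    · have hb := c.mv.ce.pprime_eq_bot hBinv (coprime_of_isPGroup_ne hBp hqp)
      have hz' : (z : G) ∈ (⊥ : Subgroup G) := by rw [← hb]; exact ⟨z, hz, rfl⟩
      rw [Subgroup.mem_bot] at hz'
      rw [hz']; exact V.one_mem
  have hF : ∀ y ∈ Cfsg.fittingOf (H.subgroupOf (normalizer (H : Set G))), (y : G) ∈ V := by
    intro y hy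
    rw [Cfsg.Agent.H13.FitInt.fittingOf_eq_iSup] at hy
    exact Subgroup.mem_subgroupOf.mp (hle hy)
  have hodd' : Odd (Nat.card ↥(H.subgroupOf (normalizer (H : Set G)))) := by
    rw [Cfsg.Agent.H1.card_subgroupOf_of_le Subgroup.le_normalizer]
    exact Odd.of_dvd_nat c.mv.ce.hodd (Subgroup.card_subgroup_dvd_card H)
  have hcop' : (Nat.card ↥(H.subgroupOf (normalizer (H : Set G)))).Coprime (Nat.card R₀) := by
    rw [Cfsg.Agent.H1.card_subgroupOf_of_le Subgroup.le_normalizer]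
    exact Nat.Coprime.coprime_dvd_right (Subgroup.card_dvd_of_le c.mv.ce.hR₀) c.mv.ce.hcop
  have hr2 : Nat.card R₀ ≠ 2 := by
    intro h2
    have hodd2 : Odd (Nat.card R₀) :=
      Odd.of_dvd_nat c.mv.ce.hodd (Subgroup.card_subgroup_dvd_card R₀)
    rw [h2] at hodd2
    exact absurd hodd2 (by decide)
  have hxr : (⟨x, hxN⟩ : ↥(normalizer (H : Set G))) ^ (Nat.card R₀) = 1 := by
    apply Subtype.ext
    rw [Subgroup.coe_pow]
    have h1 := pow_card_eq_one' (G := ↥R₀) (x := ⟨x, hx⟩)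
    have h2 : (((⟨x, hx⟩ : ↥R₀) ^ Nat.card ↥R₀ : ↥R₀) : G) = ((1 : ↥R₀) : G) :=
      congrArg Subtype.val h1
    rw [Subgroup.coe_pow, Subgroup.coe_one] at h2
    exact h2
  have hCF : Cfsg.fittingOf (H.subgroupOf (normalizer (H : Set G))) ⊓
      centralizer ({(⟨x, hxN⟩ : ↥(normalizer (H : Set G)))} : Set ↥(normalizer (H : Set G))) =
      ⊥ := by
    apply le_antisymm _ bot_le
    intro y hy
    obtain ⟨hy1, hy2⟩ := Subgroup.mem_inf.mp hy
    have h1 : (y : G) ∈ V := hF y hy1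
    have h2 : (y : G) ∈ centralizer ({x} : Set G) := by
      rw [Subgroup.mem_centralizer_iff] at hy2 ⊢
      intro w hw
      rw [Set.mem_singleton_iff] at hw
      rw [hw]
      have h3 := hy2 ⟨x, hxN⟩ rfl
      exact congrArg Subtype.val h3
    have h3 : (y : G) ∈ (⊥ : Subgroup G) := by
      rw [← hbot, ← hCx]; exact Subgroup.mem_inf.mpr ⟨h1, h2⟩
    rw [Subgroup.mem_bot] at h3 ⊢
    exact Subtype.ext h3
  have key := Cfsg.Agent.H13.CopHH.comm_mem_fittingOf (Nat.card R₀) hr2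
    (H.subgroupOf (normalizer (H : Set G))) hodd' hcop' ⟨x, hxN⟩ hxr hCF
  intro h hh
  exact hF _ (key ⟨h, Subgroup.le_normalizer hh⟩ (Subgroup.mem_subgroupOf.mpr hh))

/-- `C_V(R₀) ≠ 1`. -/
theorem MinL.fixed_ne_bot (c : MinL p H R R₀ V L) : V ⊓ centralizer (R₀ : Set G) ≠ ⊥ := by
  intro hbot
  haveI := c.mv.ce.hsolv
  have hr := c.mv.ce.hr
  obtain ⟨x, hx, hx1⟩ := exists_ne_one_of_prime_card hr
  have hCx : centralizer ({x} : Set G) = centralizer (R₀ : Set G) :=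
    centralizer_singleton_eq hr hx hx1
  have hxR : x ∈ R := c.mv.ce.hR₀ hx
  have hcomm : ∀ h ∈ H, x * h * x⁻¹ * h⁻¹ ∈ V := c.comm_mem hbot hx hx1
  have hLV := c.hLV
  -- `L ≤ C(R₀)`
  have hLC : L ≤ centralizer (R₀ : Set G) := by
    rw [← hCx]
    intro l hl
    rw [Subgroup.mem_centralizer_iff]
    intro y hy
    rw [Set.mem_singleton_iff] at hy
    rw [hy]
    have h1 := hcomm l (c.hLH hl)
    have h2 : x * l * x⁻¹ * l⁻¹ ∈ L :=
      L.mul_mem (conj_mem_of_mem_normalizer (c.hRL hxR) hl) (L.inv_mem hl)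
    have h3 : x * l * x⁻¹ * l⁻¹ ∈ (⊥ : Subgroup G) := by
      rw [← c.hinf]; exact Subgroup.mem_inf.mpr ⟨h1, h2⟩
    rw [Subgroup.mem_bot] at h3
    have e : x * l = (x * l * x⁻¹ * l⁻¹) * (l * x) := by group
    rw [e, h3, one_mul]
  -- `[L, R] = L`
  have hLRL : ⁅L, R⁆ ≤ L := Cfsg.Agent.H1.commutator_le_of_le_normalizer R L c.hRL
  have hLR : L ≤ ⁅L, R⁆ := by
    have h1 : ⁅H, R⁆ ≤ V ⊔ ⁅L, R⁆ := by
      rw [Subgroup.commutator_le]
      intro h hh t ht
      have hh' : h ∈ V ⊔ L := by rw [c.hsup]; exact hh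
      obtain ⟨v, hv, l, hl, rfl⟩ := (mem_sup_iff_of_le_normalizer hLV).mp hh'
      have e : ⁅v * l, t⁆ = v * (⁅l, t⁆ * (t * v⁻¹ * t⁻¹)) := by
        rw [commutatorElement_def, commutatorElement_def]; group
      rw [e]
      have h2 : t * v⁻¹ * t⁻¹ ∈ V :=
        conj_mem_of_mem_normalizer (c.mv.hV.2.2 ht) (V.inv_mem hv)
      have h3 : ⁅l, t⁆ ∈ ⁅L, R⁆ := Subgroup.commutator_mem_commutator hl ht
      exact (V ⊔ ⁅L, R⁆).mul_mem (Subgroup.mem_sup_left hv)
        ((V ⊔ ⁅L, R⁆).mul_mem (Subgroup.mem_sup_right h3) (Subgroup.mem_sup_left h2))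
    intro l hl
    have h2 : l ∈ V ⊔ ⁅L, R⁆ := h1 (by rw [c.mv.ce.hcomm]; exact c.hLH hl)
    obtain ⟨v, hv, l₁, hl₁, rfl⟩ := (mem_sup_iff_of_le_normalizer (hLRL.trans hLV)).mp h2
    have hvL : v ∈ L := by
      have := L.mul_mem hl (L.inv_mem (hLRL hl₁))
      rwa [mul_inv_cancel_right] at this
    have hv1 : v ∈ (⊥ : Subgroup G) := by rw [← c.hinf]; exact Subgroup.mem_inf.mpr ⟨hv, hvL⟩
    rw [Subgroup.mem_bot] at hv1
    rw [hv1, one_mul]; exact hl₁
  -- `L` is a `Z`-group with `L' ≤ Z(L)`, hence abelian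
  haveI hLZ : IsZGroup ↥L := by
    haveI := c.mv.ce.hZ
    exact IsZGroup.of_injective (f := Subgroup.inclusion (le_inf c.hLH hLC))
      (Subgroup.inclusion_injective _)
  have hDcyc : IsCyclic ↥(⁅L, L⁆ : Subgroup G) := by
    haveI := IsZGroup.isCyclic_commutator ↥L
    rw [← Subgroup.map_subtype_commutator]
    exact isCyclic_of_surjective ((L.subtype).subgroupMap (commutator ↥L))
      ((L.subtype).subgroupMap_surjective _)
  have hLD : L ≤ normalizer ((⁅L, L⁆ : Subgroup G) : Set G) :=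
    Cfsg.Agent.H1.le_normalizer_commutator L L L Subgroup.le_normalizer Subgroup.le_normalizer
  have hRD : R ≤ normalizer ((⁅L, L⁆ : Subgroup G) : Set G) :=
    Cfsg.Agent.H1.le_normalizer_commutator R L L c.hRL c.hRL
  have hLCD : L ≤ centralizer ((⁅L, L⁆ : Subgroup G) : Set G) := by
    refine hLR.trans ?_
    rw [Subgroup.commutator_le]
    intro l hl t ht
    rw [commutatorElement_def]
    exact comm_mem_centralizer_of_isCyclic hDcyc (hLD hl) (hRD ht)
  have hLc : ∀ a ∈ L, ∀ b ∈ L, a * b = b * a := by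
    haveI : IsCyclic (Abelianization ↥L) := IsZGroup.isCyclic_abelianization
    have hker : (Abelianization.of (G := ↥L)).ker ≤ Subgroup.center ↥L := by
      rw [Abelianization.ker_of]
      intro d hd
      rw [Subgroup.mem_center_iff]
      intro g
      have hd' : (d : G) ∈ (⁅L, L⁆ : Subgroup G) := by
        rw [← Subgroup.map_subtype_commutator]; exact ⟨d, hd, rfl⟩
      apply Subtype.ext
      rw [Subgroup.coe_mul, Subgroup.coe_mul]
      exact ((Subgroup.mem_centralizer_iff.mp (hLCD g.2)) (d : G) hd').symm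
    intro a ha b hb
    have h1 := commutative_of_cyclic_center_quotient (Abelianization.of (G := ↥L)) hker
      ⟨a, ha⟩ ⟨b, hb⟩
    exact congrArg Subtype.val h1
  have hΩne := omegaSub_ne_bot (p := p) hLc c.p_dvd
  have hΩp : IsPGroup p ↥(omegaSub p L hLc) := by
    intro v
    refine ⟨1, ?_⟩
    rw [pow_one]
    apply Subtype.ext
    rw [Subgroup.coe_pow]
    exact (mem_omegaSub.mp v.2).2
  exact hΩne (c.opL (omegaSub_le hLc)
    (fun g hg => omegaSub_normalizer hLc (Subgroup.le_normalizer hg))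
    (fun g hg => omegaSub_normalizer hLc (c.hRL hg)) hΩp)

end ML2

section ML3

variable {p : ℕ} [hp : Fact p.Prime] {H R R₀ V L : Subgroup G}

/-- The minimal counterexample does not exist: it would contain the key configuration. -/
theorem MinL.false (c : MinL p H R R₀ V L) : False := by
  haveI := c.mv.ce.hsolv
  have hr := c.mv.ce.hr
  have hV := c.mv.hV
  have hVp := c.mv.isPGroup
  have hLV := c.hLV
  have hR₀L : R₀ ≤ normalizer (L : Set G) := c.mv.ce.hR₀.trans c.hRL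
  have hR₀V : R₀ ≤ normalizer (V : Set G) := c.mv.ce.hR₀.trans hV.2.2
  have hcopR₀H : (Nat.card R₀).Coprime (Nat.card H) :=
    Nat.Coprime.coprime_dvd_left (Subgroup.card_dvd_of_le c.mv.ce.hR₀) c.mv.ce.hcop.symm
  have hcopR₀L : (Nat.card R₀).Coprime (Nat.card L) :=
    Nat.Coprime.coprime_dvd_right (Subgroup.card_dvd_of_le c.hLH) hcopR₀H
  -- an `R₀`-invariant Sylow `p`-subgroup of `L`
  obtain ⟨P₀, hP₀L, hP₀c, hR₀P₀⟩ := Cfsg.Agent.H1.coprime_exists_invariant_sylow_aux R₀ L hR₀L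
    hcopR₀L (Or.inr inferInstance) p
  have hP₀p : IsPGroup p P₀ := IsPGroup.of_card hP₀c
  have hP₀ne : P₀ ≠ ⊥ := by
    intro hbot
    rw [hbot, Subgroup.card_bot] at hP₀c
    have hpos := Nat.Prime.factorization_pos_of_dvd hp.out Nat.card_pos.ne' c.p_dvd
    have h1 : 1 < p ^ (Nat.card L).factorization p := Nat.one_lt_pow hpos.ne' hp.out.one_lt
    omega
  have hZ := c.mv.ce.hZ
  have hVR₀ne := c.fixed_ne_bot
  have hY₁p : IsPGroup p ↥(V ⊓ centralizer (R₀ : Set G)) := hVp.to_le inf_le_left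
  have hY₂p : IsPGroup p ↥(P₀ ⊓ centralizer (R₀ : Set G)) := hP₀p.to_le inf_le_left
  have hPR : P₀ ⊓ centralizer (R₀ : Set G) = ⊥ := by
    by_contra hne
    have hnorm : P₀ ⊓ centralizer (R₀ : Set G) ≤
        normalizer ((V ⊓ centralizer (R₀ : Set G) : Subgroup G) : Set G) := by
      apply le_normalizer_inf' (inf_le_left.trans (hP₀L.trans hLV))
      exact inf_le_right.trans Subgroup.le_normalizer
    have hDp : IsPGroup p ↥((P₀ ⊓ centralizer (R₀ : Set G)) ⊔ (V ⊓ centralizer (R₀ : Set G))) :=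
      IsPGroup.to_sup_of_normal_right' hY₂p hY₁p hnorm
    have hDle : (P₀ ⊓ centralizer (R₀ : Set G)) ⊔ (V ⊓ centralizer (R₀ : Set G)) ≤
        H ⊓ centralizer (R₀ : Set G) :=
      sup_le (inf_le_inf_right _ (hP₀L.trans c.hLH)) (inf_le_inf_right _ hV.1)
    have hDcyc := isCyclic_of_isZGroup hZ hDle hDp
    have h1 := inf_ne_bot_of_isCyclic hDcyc le_sup_right le_sup_left hY₁p hY₂p hVR₀ne hne
    apply h1
    apply le_antisymm _ bot_le
    rw [← c.hinf]
    exact le_inf (inf_le_left.trans inf_le_left) (inf_le_right.trans (inf_le_left.trans hP₀L))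
  have hVR : Nat.card ↥(V ⊓ centralizer (R₀ : Set G)) ≤ p := by
    have hcyc := isCyclic_of_isZGroup hZ (inf_le_inf_right _ hV.1) hY₁p
    exact Nat.le_of_dvd hp.out.pos (card_dvd_of_isCyclic_of_pow hcyc
      (fun v hv => c.mv.exp v (Subgroup.mem_inf.mp hv).1))
  -- `O_p(L) = 1`
  have hOp : Cfsg.pCore p ↥L = ⊥ := by
    rw [← Subgroup.map_eq_bot_iff_of_injective _ (Subgroup.subtype_injective L)]
    apply c.opL (Subgroup.map_subtype_le _)
    · exact Subgroup.le_normalizer.trans (Cfsg.Agent.H58.char_map_le_normalizer L _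
        (Cfsg.Agent.H13.FitInt.pCore_char p ↥L))
    · exact c.hRL.trans (Cfsg.Agent.H58.char_map_le_normalizer L _
        (Cfsg.Agent.H13.FitInt.pCore_char p ↥L))
    · exact (Cfsg.Agent.H13.pCore_isPGroup p ↥L).map _
  obtain ⟨q, hq, hqp, hnc⟩ := exists_pCore_not_commute p hOp (P₀.subgroupOf L)
    hP₀p.comap_subtype (by
      intro hbot
      rw [Subgroup.subgroupOf_eq_bot] at hbot
      exact hP₀ne (hbot.eq_bot_of_le hP₀L))
  haveI : Fact q.Prime := ⟨hq⟩
  obtain ⟨Q₀, hQ₀⟩ : ∃ Q₀ : Subgroup G, Q₀ = (Cfsg.pCore q ↥L).map L.subtype := ⟨_, rfl⟩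
  have hQ₀L : Q₀ ≤ L := by rw [hQ₀]; exact Subgroup.map_subtype_le _
  have hQ₀q : IsPGroup q Q₀ := by
    rw [hQ₀]; exact (Cfsg.Agent.H13.pCore_isPGroup q ↥L).map _
  have hNQ₀ : normalizer (L : Set G) ≤ normalizer (Q₀ : Set G) := by
    rw [hQ₀]
    exact Cfsg.Agent.H58.char_map_le_normalizer L _ (Cfsg.Agent.H13.FitInt.pCore_char q ↥L)
  have hcomm : ⁅Q₀, P₀⁆ ≠ ⊥ := by
    intro hbot
    apply hnc
    have h1 : Q₀ ≤ centralizer (P₀ : Set G) :=
      Subgroup.commutator_eq_bot_iff_le_centralizer.mp hbot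
    intro y hy
    rw [Subgroup.mem_centralizer_iff]
    intro z hz
    apply Subtype.ext
    rw [Subgroup.coe_mul, Subgroup.coe_mul]
    have hz' : (z : G) ∈ Q₀ := by rw [hQ₀]; exact ⟨z, hz, rfl⟩
    exact ((Subgroup.mem_centralizer_iff.mp (h1 hz')) (y : G)
      (Subgroup.mem_subgroupOf.mp hy)).symm
  have hQ₀ne : Q₀ ≠ ⊥ := by
    intro hbot
    apply hcomm
    rw [hbot]
    exact Subgroup.commutator_bot_left _
  have hrp : Nat.card R₀ ≠ p := by
    intro hrp
    have h1 : p ∣ Nat.card H :=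
      (dvd_card_of_ne_bot hVp c.mv.hVne).trans (Subgroup.card_dvd_of_le hV.1)
    rw [hrp] at hcopR₀H
    exact hp.out.one_lt.ne' (Nat.Coprime.eq_one_of_dvd hcopR₀H h1)
  have hrq : Nat.card R₀ ≠ q := by
    intro hrq
    have h1 : q ∣ Nat.card H :=
      (dvd_card_of_ne_bot hQ₀q hQ₀ne).trans (Subgroup.card_dvd_of_le (hQ₀L.trans c.hLH))
    rw [hrq] at hcopR₀H
    exact hq.one_lt.ne' (Nat.Coprime.eq_one_of_dvd hcopR₀H h1)
  have hfin := key_prop c.mv.ce.hodd hqp.symm c.mv.comm c.mv.exp hP₀p (hP₀L.trans hLV) hr hrp hrq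
    hR₀V hR₀P₀ hPR hVR (Nat.card Q₀) Q₀ rfl hQ₀q (hQ₀L.trans hLV)
    ((hP₀L.trans Subgroup.le_normalizer).trans hNQ₀) (hR₀L.trans hNQ₀)
    (isCyclic_of_isZGroup hZ (inf_le_inf_right _ (hQ₀L.trans c.hLH)) (hQ₀q.to_le inf_le_left))
    (by
      apply le_antisymm _ bot_le
      rw [← c.cent]
      exact inf_le_inf_right _ hQ₀L)
  exact hcomm hfin

end ML3

theorem isZGroup_im {N Y : Subgroup G} (hY : Y ≤ normalizer (N : Set G)) (hZ : IsZGroup ↥Y) :
    IsZGroup ↥(im N Y) := by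
  haveI := hZ
  haveI h1 : IsZGroup ↥(Y.subgroupOf (normalizer (N : Set G))) :=
    IsZGroup.of_injective (f := (Subgroup.subgroupOfEquivOfLe hY).toMonoidHom)
      (Subgroup.subgroupOfEquivOfLe hY).injective
  exact IsZGroup.of_surjective (f := (secMk N).subgroupMap (Y.subgroupOf (normalizer (N : Set G))))
    ((secMk N).subgroupMap_surjective _)

/-- **BG Theorem 3.5**, internal form: `[H, R]` has an `R`-invariant chain witnessing
`p`-length at most one. -/
theorem main_chain (p : ℕ) [hp : Fact p.Prime] : ∀ (n : ℕ) (G : Type u) [Group G] [Finite G]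
    [Group.IsSolvable G], Odd (Nat.card G) → ∀ (H R R₀ : Subgroup G), Nat.card H = n →
    R ≤ normalizer (H : Set G) → (Nat.card H).Coprime (Nat.card R) → R₀ ≤ R →
    (Nat.card R₀).Prime → IsZGroup ↥(H ⊓ centralizer (R₀ : Set G)) → PChain p ⁅H, R⁆ R := by
  intro n
  induction n using Nat.strong_induction_on with
  | _ n ih =>
  intro G _ _ _ hodd H R R₀ hn hRH hcop hR₀ hr hZ
  have hcomm_le : ⁅H, R⁆ ≤ H := Cfsg.Agent.H1.commutator_le_of_le_normalizer R H hRH
  by_cases hc : ⁅H, R⁆ = H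
  · rw [hc]
    by_contra hnot
    have hce : MinCE p H R R₀ := by
      refine ⟨hodd, inferInstance, hRH, hcop, hR₀, hr, hZ, hc, hnot, ?_⟩
      intro N hN hNne
      have hNH := hN.1
      have hHN := hN.2.1
      have hRN := hN.2.2
      have hR₀N : R₀ ≤ normalizer (N : Set G) := hR₀.trans hRN
      have hcard : Nat.card (im N H) < n := by
        have h1 := card_im_of_le hHN hNH
        have h2 : 1 < Nat.card N := by
          by_contra hle
          have h3 : Nat.card N = 1 := by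
            have hpos : 0 < Nat.card N := Nat.card_pos
            omega
          exact hNne (Subgroup.card_eq_one.mp h3)
        have h4 : 0 < Nat.card (im N H) := Nat.card_pos
        rw [← hn, ← h1]
        nlinarith
      have hcopR₀H : (Nat.card R₀).Coprime (Nat.card H) :=
        Nat.Coprime.coprime_dvd_left (Subgroup.card_dvd_of_le hR₀) hcop.symm
      have hR₀disj : R₀ ⊓ N = ⊥ :=
        Subgroup.inf_eq_bot_of_coprime
          (Nat.Coprime.coprime_dvd_right (Subgroup.card_dvd_of_le hNH) hcopR₀H)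
      have hoddS : Odd (Nat.card (SecGrp N)) :=
        Odd.of_dvd_nat hodd ((Subgroup.card_quotient_dvd_card _).trans
          (Subgroup.card_subgroup_dvd_card _))
      have hres := ih (Nat.card (im N H)) hcard (SecGrp N) hoddS (im N H) (im N R) (im N R₀) rfl
        (im_normalizer hRN hHN hRH)
        (Nat.Coprime.of_dvd (card_im_dvd hHN) (card_im_dvd hRN) hcop)
        (im_mono N hR₀)
        (by rw [card_im_of_disjoint hR₀N hR₀disj]; exact hr)
        (by
          rw [im_inf_centralizer hNH hHN hR₀N hcopR₀H (Or.inr inferInstance)]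
          exact isZGroup_im (inf_le_left.trans hHN) hZ)
      rw [im_commutator hHN hRN, hc] at hres
      exact hres
    obtain ⟨V, hV, hVne, hVmin⟩ := hce.exists_min
    have mv : MinV p H R R₀ V := ⟨hce, hV, hVne, hVmin⟩
    obtain ⟨L, hLH, hRL, hsup, hinf⟩ := mv.exists_compl
    exact MinL.false ⟨mv, hLH, hRL, hsup, hinf⟩
  · have hlt : Nat.card ↥⁅H, R⁆ < n := by
      rw [← hn]
      exact Cfsg.Agent.Lib.Helper30.card_lt_card_of_lt (lt_of_le_of_ne hcomm_le hc)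
    have hR' : R ≤ normalizer ((⁅H, R⁆ : Subgroup G) : Set G) :=
      Cfsg.Agent.H1.le_normalizer_commutator R H R hRH Subgroup.le_normalizer
    have hres := ih _ hlt G hodd ⁅H, R⁆ R R₀ rfl hR'
      (Nat.Coprime.coprime_dvd_left (Subgroup.card_dvd_of_le hcomm_le) hcop) hR₀ hr (by
        haveI := hZ
        exact IsZGroup.of_injective (f := Subgroup.inclusion (inf_le_inf_right _ hcomm_le))
          (Subgroup.inclusion_injective _))
    rw [Cfsg.Agent.H1.coprime_commutator_commutator R H hRH hcop.symm (Or.inr inferInstance)]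
      at hres
    exact hres

end Cfsg.Agent.Lib.Helper30.ZG
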