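import Mathlib
import Cfsg.Agent.H58.BG10G
import Cfsg.Agent.H58.BG10Defs3
import Cfsg.Agent.H3.BG10B
import Cfsg.Agent.Lib.Helper30.PiCore

/-!
# BG10 piece N (helper30, for helper58): `M_σ` is a Hall `σ(M)`-subgroup of `M` and of `G`
(S1350), from the transfer statement `StSigComm` and B&G 10.2 (`St1405`).
-/

set_option autoImplicit false
set_option linter.unusedSectionVars false
set_option linter.style.haveILetI false

namespace Cfsg.Agent.Lib.Helper30.BG10N

open Cfsg Subgroup Cfsg.Agent.H58.BG10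

universe u

variable {G : Type u} [Group G]

/-- In a finite group `H` with a normal subgroup `K` and a normal subgroup `D` of `H ⧸ K`
that is nilpotent: a Sylow `p`-subgroup `P` of `H` whose image lies in `D` is contained in a
normal subgroup `L` of `H` each of whose elements of prime order `r ≠ p` lies in `K`. -/
theorem exists_normal_of_nilpotent_image {H : Type u} [Group H] [Finite H] (K : Subgroup H)
    [K.Normal] (C : Subgroup H) [C.Normal]
    (hnil : Group.IsNilpotent ↥(C.map (QuotientGroup.mk' K)))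
    {p : ℕ} [Fact p.Prime] (P : Sylow p H) (hPC : (P : Subgroup H) ≤ C) :
    ∃ L : Subgroup H, L.Normal ∧ (P : Subgroup H) ≤ L ∧
      ∀ x ∈ L, ∀ r : ℕ, r.Prime → r ≠ p → x ^ r = 1 → x ∈ K := by
  classical
  have hp : p.Prime := Fact.out
  set φ : H →* H ⧸ K := QuotientGroup.mk' K with hφ
  have hφs : Function.Surjective φ := QuotientGroup.mk'_surjective K
  set D : Subgroup (H ⧸ K) := C.map φ with hD
  haveI hDn : D.Normal := Subgroup.Normal.map inferInstance φ hφs
  haveI : Group.IsNilpotent ↥D := hnil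
  obtain ⟨Q⟩ : Nonempty (Sylow p ↥D) := inferInstance
  have hall : ∀ (q : ℕ) [Fact q.Prime] (S : Sylow q ↥D), (S : Subgroup ↥D).Normal := by
    have h03 := (Group.isNilpotent_of_finite_tfae (G := ↥D)).out 0 3
    exact h03.mp ‹Group.IsNilpotent ↥D›
  haveI hQn : (Q : Subgroup ↥D).Normal := hall p Q
  haveI hQc : (Q : Subgroup ↥D).Characteristic := Q.characteristic_of_normal hQn
  have hQ'n : ((Q : Subgroup ↥D).map D.subtype).Normal :=
    ConjAct.normal_of_characteristic_of_normal
  refine ⟨((Q : Subgroup ↥D).map D.subtype).comap φ, hQ'n.comap φ, ?_, ?_⟩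
  · -- `P ≤ L`
    intro x hx
    rw [Subgroup.mem_comap]
    have hxD : φ x ∈ D := Subgroup.mem_map_of_mem φ (hPC hx)
    -- the image of `P` in `D` is a `p`-subgroup
    have hPp : IsPGroup p (((P : Subgroup H).map φ).subgroupOf D) :=
      (P.isPGroup'.map φ).comap_subtype
    obtain ⟨Q₁, hQ₁⟩ := hPp.exists_le_sylow
    haveI : Unique (Sylow p ↥D) := Q.unique_of_normal hQn
    have hQQ : Q₁ = Q := Subsingleton.elim _ _
    rw [hQQ] at hQ₁
    have : (⟨φ x, hxD⟩ : ↥D) ∈ (Q : Subgroup ↥D) := by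
      apply hQ₁
      rw [Subgroup.mem_subgroupOf]
      exact Subgroup.mem_map_of_mem φ hx
    exact Subgroup.mem_map.mpr ⟨⟨φ x, hxD⟩, this, rfl⟩
  · -- elements of prime order `r ≠ p` of `L` lie in `K`
    intro x hx r hr hrp hxr
    rw [Subgroup.mem_comap] at hx
    obtain ⟨y, hy, hyx⟩ := Subgroup.mem_map.mp hx
    obtain ⟨k, hk⟩ := Q.isPGroup' ⟨y, hy⟩
    have hk' : (φ x) ^ (p ^ k) = 1 := by
      rw [← hyx]
      have := congrArg (fun z : ↥(Q : Subgroup ↥D) => ((z : ↥D) : H ⧸ K)) hk
      simpa using this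
    have hr' : (φ x) ^ r = 1 := by rw [← map_pow, hxr, map_one]
    have hcop : Nat.Coprime r (p ^ k) :=
      Nat.Coprime.pow_right k ((Nat.coprime_primes hr hp).mpr hrp)
    have h1 : orderOf (φ x) ∣ Nat.gcd r (p ^ k) :=
      Nat.dvd_gcd (orderOf_dvd_of_pow_eq_one hr') (orderOf_dvd_of_pow_eq_one hk')
    rw [hcop.gcd_eq_one, Nat.dvd_one, orderOf_eq_one_iff] at h1
    exact (QuotientGroup.eq_one_iff x).mp h1

/-- Piece N of BG10: `M_σ` is a Hall `σ(M)`-subgroup of `M` and of `G`, and the only normal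
Hall `σ(M)`-subgroup of `M` (S1350). -/
theorem sigmaHall [Finite G] (hG : IsMinSimpleOddOrder G) (h96 : St1403 G) (hT : StSigComm G)
    (h102 : St1405 G) : St1350 G := by
  classical
  intro M hM
  have hle : sigmaCore M ≤ M := piCoreOf_le (sigma M) M
  have hpi : IsPi (sigma M) (sigmaCore M) := piCoreOf_isPi (sigma M) M
  have hrelEq : (sigmaCore M).relIndex M = (piCore (sigma M) ↥M).index := by
    unfold sigmaCore Subgroup.relIndex Subgroup.subgroupOf
    rw [Subgroup.comap_map_eq_self_of_injective M.subtype_injective]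
  have hidx : ∀ p : ℕ, p.Prime → p ∈ sigma M → ¬ p ∣ (piCore (sigma M) ↥M).index := by
    intro p hp hpσ
    haveI : Fact p.Prime := ⟨hp⟩
    obtain ⟨P⟩ : Nonempty (Sylow p ↥M) := inferInstance
    have hPC : (P : Subgroup ↥M) ≤ commutator ↥M := hT M hM p hpσ P
    haveI : (commutator ↥M).Normal := inferInstance
    obtain ⟨L, hLn, hPL, hL⟩ :=
      exists_normal_of_nilpotent_image (piCore (alpha M) ↥M) (commutator ↥M)
        (h102 M hM).2.2.2.2 P hPC
    have hLpi : IsPi (sigma M) L := by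
      intro r hr hrL
      by_cases hrp : r = p
      · rw [hrp]; exact hpσ
      · haveI : Fact r.Prime := ⟨hr⟩
        obtain ⟨x, hx⟩ := exists_prime_orderOf_dvd_card' (G := ↥L) r hrL
        have hxr : ((x : ↥L) : ↥M) ^ r = 1 := by
          have := pow_orderOf_eq_one x
          rw [hx] at this
          have h2 := congrArg (fun z : ↥L => (z : ↥M)) this
          simpa using h2
        have hxK : ((x : ↥L) : ↥M) ∈ piCore (alpha M) ↥M := hL _ x.2 r hr hrp hxr
        have hord : orderOf ((x : ↥L) : ↥M) = r := by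
          rw [Subgroup.orderOf_coe]; exact hx
        have hdvd : r ∣ Nat.card ↥(piCore (alpha M) ↥M) := by
          have h3 := Subgroup.orderOf_dvd_natCard (piCore (alpha M) ↥M) hxK
          rwa [hord] at h3
        exact alpha_subset_sigma hG h96 hM (piCore_isPi (alpha M) r hr hdvd)
    have hPK : (P : Subgroup ↥M) ≤ piCore (sigma M) ↥M := hPL.trans (le_piCore hLn hLpi)
    intro hdvd
    exact P.not_dvd_index (hdvd.trans (Subgroup.index_dvd_of_le hPK))
  have hrel : ∀ p : ℕ, p.Prime → p ∈ sigma M → ¬ p ∣ (sigmaCore M).relIndex M := by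
    intro p hp hpσ
    rw [hrelEq]
    exact hidx p hp hpσ
  refine ⟨⟨hle, hpi, hrel⟩, ⟨hpi, ?_⟩, ?_⟩
  · intro p hp hpσ hdvd
    haveI : Fact p.Prime := ⟨hp⟩
    rw [← Subgroup.relIndex_mul_index hle] at hdvd
    rcases (Nat.Prime.dvd_mul hp).mp hdvd with h | h
    · exact hrel p hp hpσ h
    · obtain ⟨-, -, S, hS⟩ := hpσ
      exact Cfsg.Agent.H3.BG10.bg10b_not_dvd_index S hS h
  · intro N hNn ⟨hNM, hNpi, hNrel⟩
    have hNle : N ≤ sigmaCore M := le_piCoreOf hNM hNn hNpi
    apply le_antisymm hNle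
    rw [← Subgroup.relIndex_eq_one]
    by_contra hne
    obtain ⟨r, hr, hrd⟩ := Nat.exists_prime_and_dvd hne
    have hrσ : r ∈ sigma M := hpi r hr (hrd.trans (Subgroup.relIndex_dvd_card _ _))
    apply hNrel r hr hrσ
    rw [← Subgroup.relIndex_mul_relIndex N (sigmaCore M) M hNle hle]
    exact Dvd.dvd.mul_right hrd _

end Cfsg.Agent.Lib.Helper30.BG10N
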