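import Mathlib
import Cfsg.Agent.H57.BG129Defs
import Cfsg.Agent.Helper55.PRankOne

/-!
# S1420-C (helper30, for helper57): B&G Corollary 12.9 (c).  For `p ∈ σ(M)` and a noncyclic
`p`-subgroup `P ≤ M`, `N_G(P) ≤ M`.
-/

set_option autoImplicit false
set_option linter.unusedSectionVars false
set_option linter.style.haveILetI false

namespace Cfsg.Agent.Lib.Helper30.BG12

open Cfsg Subgroup Cfsg.Agent.H58.BG10 Cfsg.Agent.H57.BG12

universe u

variable {G : Type u} [Group G] [Finite G]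

/-- A subgroup of `p`-rank greater than one contains an elementary abelian subgroup of
order `p ^ 2`. -/
theorem exists_elem_sq_of_not_pRankLE_one {p : ℕ} [Fact p.Prime] {P : Subgroup G}
    (h : ¬ PRankLE p 1 ↥P) :
    ∃ A : Subgroup G, A ≤ P ∧ IsElementaryAbelian p A ∧ Nat.card A = p ^ 2 := by
  classical
  have hp : p.Prime := Fact.out
  unfold PRankLE at h
  push Not at h
  obtain ⟨A', hA'c, hA'p, hcard⟩ := h
  have hA'pg : IsPGroup p ↥A' := by
    intro a
    refine ⟨1, ?_⟩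
    rw [pow_one]
    exact Subtype.ext (hA'p a a.2)
  obtain ⟨k, hk⟩ := IsPGroup.iff_card.mp hA'pg
  have hk2 : 2 ≤ k := by
    by_contra hlt
    have hk1 : k ≤ 1 := by omega
    have : p ^ k ≤ p ^ 1 := Nat.pow_le_pow_right hp.pos hk1
    omega
  have hdvd : p ^ 2 ∣ Nat.card ↥A' := by
    rw [hk]
    exact pow_dvd_pow p hk2
  obtain ⟨K, hK⟩ := Sylow.exists_subgroup_card_pow_prime p hdvd
  refine ⟨(K.map A'.subtype).map P.subtype, Subgroup.map_subtype_le _, ⟨?_, ?_⟩, ?_⟩
  · refine ⟨⟨fun x y => Subtype.ext ?_⟩⟩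
    obtain ⟨a, ha, hax⟩ := x.2
    obtain ⟨b, hb, hby⟩ := y.2
    obtain ⟨a', -, rfl⟩ := ha
    obtain ⟨b', -, rfl⟩ := hb
    have hab : a' * b' = b' * a' := hA'c.is_comm.comm a' b'
    show (x : G) * (y : G) = (y : G) * (x : G)
    rw [← hax, ← hby]
    have := congrArg (fun z : ↥A' => ((z : ↥P) : G)) hab
    simpa using this
  · rintro _ ⟨a, ha, rfl⟩
    obtain ⟨a', -, rfl⟩ := ha
    have h1 := hA'p (a' : ↥P) a'.2
    have := congrArg (fun z : ↥P => (z : G)) h1
    simpa using this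
  · rw [Subgroup.card_map_of_injective P.subtype_injective,
      Subgroup.card_map_of_injective A'.subtype_injective, hK]

/-- Piece C of S1420: B&G Corollary 12.9 (c). -/
theorem bg129c (hG : IsMinSimpleOddOrder G) (h04 : St1404 G) (h16 : St1416 G) : St1420c G := by
  classical
  intro M hM p P hpσ hPp hPM hPc
  have hp : p.Prime := hpσ.1
  haveI : Fact p.Prime := ⟨hp⟩
  -- `p` is odd
  have hp2 : p ≠ 2 := by
    rintro rfl
    have h2 : 2 ∣ Nat.card G := hpσ.2.1.trans (Subgroup.card_subgroup_dvd_card M)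
    exact (Nat.not_even_iff_odd.mpr hG.1) (even_iff_two_dvd.mpr h2)
  have hPbot : P ≠ ⊥ := by
    rintro rfl
    exact hPc inferInstance
  have hrk : ¬ PRankLE p 1 ↥P := fun h =>
    hPc (Cfsg.Agent.Helper55.isCyclic_of_pRankLE_one hp2 hPp h)
  obtain ⟨A, hAP, hAe, hAc⟩ := exists_elem_sq_of_not_pRankLE_one hrk
  have hCA : centralizer (A : Set G) ≤ M := (h16 M hM p A ⟨hAP.trans hPM, hAe, hAc⟩).1
  have hCP : centralizer (P : Set G) ≤ M :=
    (Subgroup.centralizer_le (show (A : Set G) ⊆ P from hAP)).trans hCA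
  have hN := (h04 M hM p hpσ P hPp hPbot hPM).2
  rw [hN]
  exact sup_le inf_le_left hCP

end Cfsg.Agent.Lib.Helper30.BG12
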