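import Mathlib
import Cfsg.Agent.H57.BG129Defs
import Cfsg.Agent.H57.BG126
import Cfsg.Agent.H58.BG10FG
import Cfsg.Agent.Lib.Helper30.BG129C

/-!
# S1420-D (helper30, for helper57): B&G Corollary 12.9 (d).  For a `τ₂(M)`-element `x ≠ 1` of
`M` centralizing a non-identity element of `M_σ`, `M` is the only maximal subgroup containing
`C_G(x)`.
-/

set_option autoImplicit false
set_option linter.unusedSectionVars false
set_option linter.style.haveILetI false

namespace Cfsg.Agent.Lib.Helper30.BG12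

open Cfsg Subgroup Cfsg.Agent.H58.BG10 Cfsg.Agent.H57.BG12

universe u

variable {G : Type u} [Group G] [Finite G]

/-- The case `x ∈ E` of B&G Corollary 12.9 (d). -/
theorem bg129d_core (hG : IsMinSimpleOddOrder G) (h17 : St1417 G) (h18 : St1418 G)
    (hconj : StSigConj G) (hact : StAct G) {M : Subgroup G} (hM : IsCoatom M) {E : Subgroup G}
    (hE : IsComplIn E (sigmaCore M) M) {x : G} (hxE : x ∈ E) (hx1 : x ≠ 1)
    (hxτ : ∀ p : ℕ, p.Prime → p ∣ orderOf x → p ∈ tau2 M) {y : G} (hy : y ∈ sigmaCore M)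
    (hy1 : y ≠ 1) (hxy : x * y = y * x) :
    centralizer ({x} : Set G) ≤ M ∧
      ∀ L : Subgroup G, IsCoatom L → centralizer ({x} : Set G) ≤ L → L = M := by
  classical
  have hodd : Odd (Nat.card G) := hG.1
  have hox1 : orderOf x ≠ 1 := fun h => hx1 (orderOf_eq_one_iff.mp h)
  obtain ⟨s, hs⟩ : ∃ s : ℕ, s = (orderOf x).minFac := ⟨_, rfl⟩
  have hsp : s.Prime := hs ▸ Nat.minFac_prime hox1
  haveI : Fact s.Prime := ⟨hsp⟩
  have hsdvd : s ∣ orderOf x := hs ▸ Nat.minFac_dvd _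
  have hsτ : s ∈ tau2 M := hxτ s hsp hsdvd
  have hs2 : s ≠ 2 := by
    intro h2
    have h3 : 2 ∣ Nat.card G := h2 ▸ hsdvd.trans (orderOf_dvd_natCard x)
    exact (Nat.not_even_iff_odd.mpr hodd) (even_iff_two_dvd.mpr h3)
  have hsσ : s ∉ sigma M := hsτ.2.1
  have hr1 : ¬ PRankLE s 1 ↥M := hsτ.2.2.2
  -- an elementary abelian subgroup of order `s ^ 2` of `E`
  obtain ⟨B₀, hB₀M, hB₀e, hB₀c⟩ := exists_elem_sq_of_not_pRankLE_one (P := M) hr1
  obtain ⟨h, hhM, hBE⟩ := hconj M hM E hE B₀ hB₀M (by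
    intro p hp hpd
    rw [hB₀c] at hpd
    have h1 : p = s := (Nat.prime_dvd_prime_iff_eq hp hsp).mp (hp.dvd_of_dvd_pow hpd)
    rw [h1]
    exact hsσ)
  obtain ⟨B, hB⟩ : ∃ B : Subgroup G, B = B₀.map (MulAut.conj h).toMonoidHom := ⟨_, rfl⟩
  rw [← hB] at hBE
  have hBc : Nat.card B = s ^ 2 := by
    rw [hB, Subgroup.card_map_of_injective (MulAut.conj h).injective, hB₀c]
  have hBe : IsElementaryAbelian s B := by
    refine ⟨⟨⟨fun a b => Subtype.ext ?_⟩⟩, ?_⟩
    · have ha : (a : G) ∈ B₀.map (MulAut.conj h).toMonoidHom := by rw [← hB]; exact a.2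
      have hb : (b : G) ∈ B₀.map (MulAut.conj h).toMonoidHom := by rw [← hB]; exact b.2
      obtain ⟨a', ha', hax⟩ := ha
      obtain ⟨b', hb', hby⟩ := hb
      have hab : a' * b' = b' * a' :=
        congrArg Subtype.val (hB₀e.1.is_comm.comm ⟨a', ha'⟩ ⟨b', hb'⟩)
      show (a : G) * (b : G) = (b : G) * (a : G)
      rw [← hax, ← hby, ← map_mul, ← map_mul, hab]
    · intro a ha
      rw [hB] at ha
      obtain ⟨a', ha', rfl⟩ := ha
      rw [← map_pow, hB₀e.2 a' ha', map_one]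
  have hBM : B ≤ M := hBE.trans hE.1
  have h18' := h18 M hM E hE s hsτ B ⟨hBE, hBe, hBc⟩
  have hEN : E ≤ normalizer (B : Set G) := h18'.1.1
  have h17' := h17 M hM s hsτ B ⟨hBM, hBe, hBc⟩
  have hsyl : ∀ P : Sylow s M, IsMulCommutative (P : Subgroup M) := fun P => (h17'.2.1 P).1
  -- the `s`-part and the `s'`-part of `x`
  obtain ⟨a, m, hsm, hom⟩ := Nat.exists_eq_pow_mul_and_not_dvd (orderOf_pos x).ne' s hsp.ne_one
  -- the `s`-part centralizes `B`
  have hu : ∀ b ∈ B, x ^ m * b = b * x ^ m := by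
    have huE : x ^ m ∈ E := E.pow_mem hxE m
    have hupow : (x ^ m) ^ (s ^ a) = 1 := by
      rw [← pow_mul, mul_comm, ← hom, pow_orderOf_eq_one]
    have hZp : IsPGroup s ↥(zpowers (x ^ m)) := by
      obtain ⟨j, -, hj⟩ := (Nat.dvd_prime_pow hsp).mp (orderOf_dvd_of_pow_eq_one hupow)
      exact IsPGroup.of_card (n := j) (by rw [Nat.card_zpowers, hj])
    have hZN : zpowers (x ^ m) ≤ normalizer (B : Set G) :=
      (Subgroup.zpowers_le.mpr huE).trans hEN
    have hTp : IsPGroup s ↥(zpowers (x ^ m) ⊔ B) :=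
      IsPGroup.to_sup_of_normal_right' hZp (isPGroup_of_elementary hBe) hZN
    have hTM : zpowers (x ^ m) ⊔ B ≤ M :=
      sup_le ((Subgroup.zpowers_le.mpr huE).trans hE.1) hBM
    obtain ⟨P, hP⟩ := exists_sylow_map_ge hTp hTM
    intro b hb
    obtain ⟨u', hu', hu'x⟩ := hP (le_sup_left (a := zpowers (x ^ m)) (Subgroup.mem_zpowers _))
    obtain ⟨b', hb', hb'x⟩ := hP (le_sup_right (a := zpowers (x ^ m)) hb)
    have hcomm : u' * b' = b' * u' :=
      congrArg Subtype.val ((hsyl P).is_comm.comm ⟨u', hu'⟩ ⟨b', hb'⟩)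
    rw [← hu'x, ← hb'x, ← map_mul, ← map_mul, hcomm]
  -- the `s'`-part centralizes `B`
  have hv : ∀ b ∈ B, x ^ (s ^ a) * b = b * x ^ (s ^ a) := by
    have hvE : x ^ (s ^ a) ∈ E := E.pow_mem hxE _
    have hvpow : (x ^ (s ^ a)) ^ m = 1 := by
      rw [← pow_mul, ← hom, pow_orderOf_eq_one]
    have hvm : orderOf (x ^ (s ^ a)) ∣ m := orderOf_dvd_of_pow_eq_one hvpow
    have hvodd : Odd (orderOf (x ^ (s ^ a))) :=
      Odd.of_dvd_nat hodd (orderOf_dvd_natCard _)
    refine hact s hs2 B hBc (x ^ (s ^ a)) (hEN hvE) hvodd ?_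
    intro r hr hrd
    have hrm : r ∣ m := hrd.trans hvm
    have hrx : r ∣ orderOf x := hom ▸ Dvd.dvd.mul_left hrm _
    have hle : s ≤ r := hs ▸ Nat.minFac_le_of_dvd hr.two_le hrx
    have hne : s ≠ r := fun h => hsm (h ▸ hrm)
    omega
  -- `x` centralizes `B`
  have hxB : ∀ b ∈ B, x * b = b * x := by
    intro b hb
    have hcop : Nat.Coprime m (s ^ a) :=
      Nat.Coprime.pow_right a ((Nat.Prime.coprime_iff_not_dvd hsp).mpr hsm).symm
    have hbez := Nat.gcd_eq_gcd_ab m (s ^ a)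
    rw [hcop.gcd_eq_one] at hbez
    have hx : x = (x ^ m) ^ (Nat.gcdA m (s ^ a)) * (x ^ (s ^ a)) ^ (Nat.gcdB m (s ^ a)) := by
      rw [← zpow_natCast x m, ← zpow_natCast x (s ^ a), ← zpow_mul, ← zpow_mul, ← zpow_add]
      have h1 : (m : ℤ) * Nat.gcdA m (s ^ a) + ((s ^ a : ℕ) : ℤ) * Nat.gcdB m (s ^ a) = 1 := by
        rw [← hbez]; rfl
      rw [h1, zpow_one]
    have c1 : Commute ((x ^ m) ^ (Nat.gcdA m (s ^ a))) b :=
      (show Commute (x ^ m) b from hu b hb).zpow_left _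
    have c2 : Commute ((x ^ (s ^ a)) ^ (Nat.gcdB m (s ^ a))) b :=
      (show Commute (x ^ (s ^ a)) b from hv b hb).zpow_left _
    have c3 := c1.mul_left c2
    rw [← hx] at c3
    exact c3.eq
  have hBC : B ≤ centralizer ({x} : Set G) := by
    intro b hb
    rw [Subgroup.mem_centralizer_iff]
    intro g hg
    rw [Set.mem_singleton_iff] at hg
    rw [hg]
    exact hxB b hb
  have hyC : y ∈ centralizer ({x} : Set G) := by
    rw [Subgroup.mem_centralizer_iff]
    intro g hg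
    rw [Set.mem_singleton_iff] at hg
    rw [hg]
    exact hxy
  have huniq : ∀ L : Subgroup G, IsCoatom L → centralizer ({x} : Set G) ≤ L → L = M := by
    intro L hL hCL
    by_contra hne
    have h1 := h17'.2.2.2.2.1 L hL hne (hBC.trans hCL)
    have h2 : y ∈ sigmaCore M ⊓ L := ⟨hy, hCL hyC⟩
    rw [h1, Subgroup.mem_bot] at h2
    exact hy1 h2
  refine ⟨?_, huniq⟩
  have hCtop : centralizer ({x} : Set G) ≠ ⊤ := by
    intro htop
    have hZ1 : zpowers x ≠ ⊥ := by
      intro h0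
      exact hx1 (Subgroup.zpowers_eq_bot.mp h0)
    apply centralizer_ne_top' hG hZ1
    rw [eq_top_iff]
    intro g _
    have hg : g ∈ centralizer ({x} : Set G) := htop ▸ Subgroup.mem_top g
    rw [Subgroup.mem_centralizer_iff] at hg ⊢
    intro z hz
    obtain ⟨k, rfl⟩ := Subgroup.mem_zpowers_iff.mp hz
    exact ((show Commute x g from hg x rfl).zpow_left k).eq
  obtain ⟨L, hL, hCL⟩ := exists_coatom_ge hCtop
  rw [← huniq L hL hCL]
  exact hCL

/-- Piece D of S1420: B&G Corollary 12.9 (d). -/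
theorem bg129d (hG : IsMinSimpleOddOrder G) (h17 : St1417 G) (h18 : St1418 G)
    (hconj : StSigConj G) (hact : StAct G) : St1420d G := by
  classical
  intro M hM E hE x hxM hx1 hxτ hxhat
  obtain ⟨-, y, hy, hy1, hxy⟩ := hxhat
  -- conjugate `x` into `E`
  obtain ⟨g, hgM, hgE⟩ := hconj M hM E hE (zpowers x) (Subgroup.zpowers_le.mpr hxM) (by
    intro p hp hpd
    rw [Nat.card_zpowers] at hpd
    exact (hxτ p hp hpd).2.1)
  have hx'E : g * x * g⁻¹ ∈ E := hgE ⟨x, Subgroup.mem_zpowers x, by simp [MulAut.conj_apply]⟩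
  have hx'1 : g * x * g⁻¹ ≠ 1 := by
    intro h
    apply hx1
    have : x = g⁻¹ * (g * x * g⁻¹) * g := by group
    rw [this, h]; group
  have hord : orderOf (g * x * g⁻¹) = orderOf x := by
    have := orderOf_injective (MulAut.conj g).toMonoidHom (MulAut.conj g).injective x
    simpa [MulAut.conj_apply] using this
  have hy' : g * y * g⁻¹ ∈ sigmaCore M :=
    (Subgroup.mem_normalizer_iff.mp (le_normalizer_sigmaCore M hgM) y).mp hy
  have hy'1 : g * y * g⁻¹ ≠ 1 := by
    intro h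
    apply hy1
    have : y = g⁻¹ * (g * y * g⁻¹) * g := by group
    rw [this, h]; group
  have hxy' : g * x * g⁻¹ * (g * y * g⁻¹) = g * y * g⁻¹ * (g * x * g⁻¹) := by
    have e1 : g * x * g⁻¹ * (g * y * g⁻¹) = g * (x * y) * g⁻¹ := by group
    have e2 : g * y * g⁻¹ * (g * x * g⁻¹) = g * (y * x) * g⁻¹ := by group
    rw [e1, e2, hxy]
  obtain ⟨hC, huniq⟩ := bg129d_core hG h17 h18 hconj hact hM hE hx'E hx'1
    (fun p hp hpd => hxτ p hp (hord ▸ hpd)) hy' hy'1 hxy'
  -- conjugation transports centralizers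
  have hconjC : ∀ c ∈ centralizer ({x} : Set G), g * c * g⁻¹ ∈ centralizer ({g * x * g⁻¹} : Set G) := by
    intro c hc
    rw [Subgroup.mem_centralizer_iff] at hc ⊢
    intro z hz
    rw [Set.mem_singleton_iff] at hz
    rw [hz]
    have h1 : x * c = c * x := hc x rfl
    have e1 : g * x * g⁻¹ * (g * c * g⁻¹) = g * (x * c) * g⁻¹ := by group
    have e2 : g * c * g⁻¹ * (g * x * g⁻¹) = g * (c * x) * g⁻¹ := by group
    rw [e1, e2, h1]
  constructor
  · intro c hc
    have h1 : g * c * g⁻¹ ∈ M := hC (hconjC c hc)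
    have h2 : c = g⁻¹ * (g * c * g⁻¹) * g := by group
    rw [h2]
    exact M.mul_mem (M.mul_mem (M.inv_mem hgM) h1) hgM
  · intro L hL hCL
    have hL' : IsCoatom (L.map (MulAut.conj g).toMonoidHom) :=
      (OrderIso.isCoatom_iff (MulEquiv.mapSubgroup (MulAut.conj g)) L).mpr hL
    have hCL' : centralizer ({g * x * g⁻¹} : Set G) ≤ L.map (MulAut.conj g).toMonoidHom := by
      intro c hc
      have h1 : g⁻¹ * c * g ∈ centralizer ({x} : Set G) := by
        rw [Subgroup.mem_centralizer_iff] at hc ⊢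
        intro z hz
        rw [Set.mem_singleton_iff] at hz
        rw [hz]
        have h2 : g * x * g⁻¹ * c = c * (g * x * g⁻¹) := hc _ rfl
        have e1 : x * (g⁻¹ * c * g) = g⁻¹ * (g * x * g⁻¹ * c) * g := by group
        have e2 : g⁻¹ * c * g * x = g⁻¹ * (c * (g * x * g⁻¹)) * g := by group
        rw [e1, e2, h2]
      refine ⟨g⁻¹ * c * g, hCL h1, ?_⟩
      simp [MulAut.conj_apply]
      group
    have hLM := huniq _ hL' hCL'
    -- `L = g⁻¹ M g = M`
    ext z
    constructor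
    · intro hz
      have h1 : g * z * g⁻¹ ∈ M := by
        rw [← hLM]
        exact ⟨z, hz, by simp [MulAut.conj_apply]⟩
      have h2 : z = g⁻¹ * (g * z * g⁻¹) * g := by group
      rw [h2]
      exact M.mul_mem (M.mul_mem (M.inv_mem hgM) h1) hgM
    · intro hz
      have h1 : g * z * g⁻¹ ∈ L.map (MulAut.conj g).toMonoidHom := by
        rw [hLM]
        exact M.mul_mem (M.mul_mem hgM hz) (M.inv_mem hgM)
      obtain ⟨w, hw, hwz⟩ := h1
      have h2 : w = z := by
        have h3 : g * w * g⁻¹ = g * z * g⁻¹ := by simpa [MulAut.conj_apply] using hwz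
        have h4 : w = g⁻¹ * (g * w * g⁻¹) * g := by group
        rw [h4, h3]; group
      rw [← h2]
      exact hw

end Cfsg.Agent.Lib.Helper30.BG12
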