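import Cfsg.Agent.Lib.Helper30.Omega
import Cfsg.Agent.Lib.Helper30.Trans
import Cfsg.Agent.H1.HallHigman
import Cfsg.Agent.H31.PLen

/-!
# Groups of `p`-length one: `p'`-subgroups normalized by a maximal elementary abelian `p`-subgroup
(= S1462, Bender–Glauberman) (helper30)
-/

set_option autoImplicit false

namespace Cfsg.Agent.Lib.Helper30

open Cfsg

variable {G : Type*} [Group G]

open scoped IsMulCommutative in
/-- Adjoining a commuting element of order dividing `p` to an elementary abelian `p`-subgroup. -/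
theorem isElementaryAbelian_sup_zpowers {p : ℕ} {E : Subgroup G} (hE : IsElementaryAbelian p E)
    {s : G} (hsE : s ∈ Subgroup.centralizer (E : Set G)) (hsp : s ^ p = 1) :
    IsElementaryAbelian p (E ⊔ Subgroup.zpowers s) := by
  have hEc : ∀ x ∈ E, ∀ y ∈ E, x * y = y * x := by
    intro x hx y hy
    have hc : IsMulCommutative E := hE.1
    exact congrArg Subtype.val (mul_comm (⟨x, hx⟩ : E) ⟨y, hy⟩)
  have h1 : Subgroup.zpowers s ≤ Subgroup.centralizer (E : Set G) := Subgroup.zpowers_le.mpr hsE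
  have h2 : E ≤ Subgroup.centralizer (Subgroup.zpowers s : Set G) := Subgroup.le_centralizer_iff.mp h1
  have h3 : E ≤ Subgroup.normalizer (Subgroup.zpowers s : Set G) :=
    h2.trans (centralizer_le_normalizer' _)
  have hdec : ∀ u ∈ E ⊔ Subgroup.zpowers s, ∃ e ∈ E, ∃ i : ℤ, u = e * s ^ i := by
    intro u hu
    have hu' : (u : G) ∈ ((E ⊔ Subgroup.zpowers s : Subgroup G) : Set G) := hu
    rw [Subgroup.coe_mul_of_left_le_normalizer_right E (Subgroup.zpowers s) h3] at hu'
    obtain ⟨e, he, z, hz, rfl⟩ := Set.mem_mul.mp hu'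
    obtain ⟨i, rfl⟩ := Subgroup.mem_zpowers_iff.mp hz
    exact ⟨e, he, i, rfl⟩
  have hcomm : ∀ e ∈ E, ∀ i : ℤ, Commute e (s ^ i) := by
    intro e he i
    have := h2 he
    rw [Subgroup.mem_centralizer_iff] at this
    exact (this (s ^ i) (Subgroup.zpow_mem _ (Subgroup.mem_zpowers s) i)).symm
  constructor
  · refine ⟨⟨fun u v => ?_⟩⟩
    obtain ⟨e₁, he₁, i, hu⟩ := hdec u u.2
    obtain ⟨e₂, he₂, j, hv⟩ := hdec v v.2
    apply Subtype.ext
    rw [Subgroup.coe_mul, Subgroup.coe_mul, hu, hv]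
    have c1 := hcomm e₁ he₁ j
    have c2 := hcomm e₂ he₂ i
    have c3 : e₁ * e₂ = e₂ * e₁ := hEc e₁ he₁ e₂ he₂
    calc e₁ * s ^ i * (e₂ * s ^ j) = e₁ * (s ^ i * e₂) * s ^ j := by group
      _ = e₁ * (e₂ * s ^ i) * s ^ j := by rw [c2.eq]
      _ = (e₁ * e₂) * (s ^ i * s ^ j) := by group
      _ = (e₂ * e₁) * (s ^ j * s ^ i) := by rw [c3, ← zpow_add, ← zpow_add, add_comm]
      _ = e₂ * (e₁ * s ^ j) * s ^ i := by group
      _ = e₂ * (s ^ j * e₁) * s ^ i := by rw [c1.eq]
      _ = e₂ * s ^ j * (e₁ * s ^ i) := by group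
  · intro u hu
    obtain ⟨e, he, i, rfl⟩ := hdec u hu
    rw [(hcomm e he i).mul_pow, hE.2 e he, one_mul, ← zpow_natCast, ← zpow_mul, mul_comm,
      zpow_mul, zpow_natCast, hsp, one_zpow]

/-- S1462: in a solvable group of `p`-length one (`p` odd), a `p'`-subgroup normalized by a
maximal elementary abelian `p`-subgroup lies in `O_{p'}(G)`. -/
theorem le_pPrimeCore_of_plength_one [Finite G] [Group.IsSolvable G] (p : ℕ) [Fact p.Prime]
    (hp : p ≠ 2) (hpl : PLengthLE p 1 G) (E L : Subgroup G) (hE : IsElementaryAbelian p E)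
    (hEmax : ∀ B : Subgroup G, IsElementaryAbelian p B → E ≤ B → B = E)
    (hL : (Nat.card L).Coprime p) (hEL : E ≤ Subgroup.normalizer (L : Set G)) :
    L ≤ pPrimeCore p G := by
  have hpp : p.Prime := Fact.out
  have hEp : IsPGroup p E := by
    intro x
    refine ⟨1, ?_⟩
    rw [pow_one]
    exact Subtype.ext (by rw [Subgroup.coe_pow]; exact hE.2 x x.2)
  obtain ⟨S, hES⟩ := hEp.exists_le_sylow
  have hOn : (pPrimeCore p G).Normal := Cfsg.Agent.H1.pPrimeCore_normal p
  have hφ := QuotientGroup.mk'_surjective (pPrimeCore p G)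
  have hker : ∀ g : G, QuotientGroup.mk' (pPrimeCore p G) g = 1 ↔ g ∈ pPrimeCore p G := by
    intro g
    rw [QuotientGroup.mk'_apply, QuotientGroup.eq_one_iff]
  -- `S ∩ O = 1`
  have hSO : (S : Subgroup G) ⊓ pPrimeCore p G = ⊥ := by
    apply (Subgroup.disjoint_of_coprime_natCard _).eq_bot
    obtain ⟨k, hk⟩ := IsPGroup.iff_card.mp S.isPGroup'
    rw [hk]
    exact Nat.Coprime.pow_left k (Cfsg.Agent.H1.pPrimeCore_card_coprime p).symm
  have hinj : ∀ s ∈ (S : Subgroup G), QuotientGroup.mk' (pPrimeCore p G) s = 1 → s = 1 := by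
    intro s hs h
    have : s ∈ (S : Subgroup G) ⊓ pPrimeCore p G := Subgroup.mem_inf.mpr ⟨hs, (hker s).mp h⟩
    rw [hSO] at this
    exact Subgroup.mem_bot.mp this
  -- the image of `S` is `O_p` of the quotient
  obtain ⟨K, hKn, hKc, hNK⟩ := Cfsg.Agent.H31.exists_normal_pprime_of_plength_one p hpl S
  have hKO : K ≤ pPrimeCore p G := Cfsg.Agent.H1.le_pPrimeCore p K hKc
  have hNO : Subgroup.normalizer ((S : Subgroup G) : Set G) ⊔ pPrimeCore p G = ⊤ := by
    rw [eq_top_iff, ← hNK]
    exact sup_le_sup_left hKO _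
  have hSn : ((S : Subgroup G).map (QuotientGroup.mk' (pPrimeCore p G))).Normal := by
    constructor
    rintro _ ⟨s, hs, rfl⟩ gb
    obtain ⟨g, rfl⟩ := hφ gb
    have hg : (g : G) ∈ ((Subgroup.normalizer ((S : Subgroup G) : Set G) ⊔ pPrimeCore p G
        : Subgroup G) : Set G) := by
      rw [hNO]; exact Subgroup.mem_top g
    rw [Subgroup.mul_normal] at hg
    obtain ⟨n, hn, o, ho, rfl⟩ := Set.mem_mul.mp hg
    have ho' : QuotientGroup.mk' (pPrimeCore p G) o = 1 := (hker o).mpr ho
    refine ⟨n * s * n⁻¹, (Subgroup.mem_normalizer_iff.mp hn s).mp hs, ?_⟩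
    simp only [map_mul, map_inv, ho', mul_one]
  have hSbp : IsPGroup p ((S : Subgroup G).map (QuotientGroup.mk' (pPrimeCore p G))) :=
    S.isPGroup'.map _
  have hR : (S : Subgroup G).map (QuotientGroup.mk' (pPrimeCore p G))
      = pCore p (G ⧸ pPrimeCore p G) :=
    le_antisymm (Cfsg.Agent.H1.le_pCore p _ hSbp)
      (Cfsg.Agent.H1.pCore_le_sylow p (S.mapSurjective hφ))
  have hcent := Cfsg.Agent.H1.centralizer_pCore_le (G := G ⧸ pPrimeCore p G) p
    (Cfsg.Agent.H1.pPrimeCore_quotient_eq_bot p)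
  rw [← hR] at hcent
  -- images of `E` and `L`
  have hEb : E.map (QuotientGroup.mk' (pPrimeCore p G))
      ≤ (S : Subgroup G).map (QuotientGroup.mk' (pPrimeCore p G)) := Subgroup.map_mono hES
  have hLbc : (Nat.card (L.map (QuotientGroup.mk' (pPrimeCore p G)))).Coprime p :=
    Nat.Coprime.coprime_dvd_left (Subgroup.card_map_dvd L _) hL
  have hLR : L.map (QuotientGroup.mk' (pPrimeCore p G))
      ⊓ (S : Subgroup G).map (QuotientGroup.mk' (pPrimeCore p G)) = ⊥ := by
    apply (Subgroup.disjoint_of_coprime_natCard _).eq_bot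
    obtain ⟨k, hk⟩ := IsPGroup.iff_card.mp hSbp
    rw [hk]
    exact Nat.Coprime.pow_right k hLbc
  have hELb : E.map (QuotientGroup.mk' (pPrimeCore p G))
      ≤ Subgroup.normalizer ((L.map (QuotientGroup.mk' (pPrimeCore p G)) : Subgroup _) : Set _) := by
    rintro _ ⟨e, he, rfl⟩
    rw [Subgroup.mem_normalizer_iff]
    have key : ∀ e ∈ E, ∀ z ∈ L.map (QuotientGroup.mk' (pPrimeCore p G)),
        QuotientGroup.mk' (pPrimeCore p G) e * z * (QuotientGroup.mk' (pPrimeCore p G) e)⁻¹
          ∈ L.map (QuotientGroup.mk' (pPrimeCore p G)) := by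
      rintro e he _ ⟨l, hl, rfl⟩
      refine ⟨e * l * e⁻¹, (Subgroup.mem_normalizer_iff.mp (hEL he) l).mp hl, ?_⟩
      rw [map_mul, map_mul, map_inv]
    intro z
    constructor
    · exact key e he z
    · intro hz
      have := key e⁻¹ (E.inv_mem he) _ hz
      rw [map_inv] at this
      simpa [mul_assoc] using this
  -- `L̄` centralizes `Ē`
  have hcomm : ⁅L.map (QuotientGroup.mk' (pPrimeCore p G)),
      E.map (QuotientGroup.mk' (pPrimeCore p G))⁆ = ⊥ := by
    rw [← le_bot_iff, ← hLR]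
    refine le_inf (Cfsg.Agent.H1.commutator_le_of_le_normalizer _ _ hELb) ?_
    calc ⁅L.map (QuotientGroup.mk' (pPrimeCore p G)), E.map (QuotientGroup.mk' (pPrimeCore p G))⁆
        ≤ ⁅(⊤ : Subgroup (G ⧸ pPrimeCore p G)),
            (S : Subgroup G).map (QuotientGroup.mk' (pPrimeCore p G))⁆ :=
          Subgroup.commutator_mono le_top hEb
      _ ≤ (S : Subgroup G).map (QuotientGroup.mk' (pPrimeCore p G)) :=
          Subgroup.commutator_le_right _ _
  have hLE : L.map (QuotientGroup.mk' (pPrimeCore p G))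
      ≤ Subgroup.centralizer ((E.map (QuotientGroup.mk' (pPrimeCore p G)) : Subgroup _) : Set _) := by
    rw [Subgroup.commutator_eq_bot_iff_le_centralizer] at hcomm
    exact hcomm
  have hEL' : E.map (QuotientGroup.mk' (pPrimeCore p G))
      ≤ Subgroup.centralizer ((L.map (QuotientGroup.mk' (pPrimeCore p G)) : Subgroup _) : Set _) :=
    Subgroup.le_centralizer_iff.mp hLE
  -- elements of order `p` in `C_{S̄}(Ē)` lie in `Ē`
  have hkey : ∀ x ∈ (S : Subgroup G).map (QuotientGroup.mk' (pPrimeCore p G))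
      ⊓ Subgroup.centralizer ((E.map (QuotientGroup.mk' (pPrimeCore p G)) : Subgroup _) : Set _),
      orderOf x = p → x ∈ E.map (QuotientGroup.mk' (pPrimeCore p G)) := by
    intro x hx hxo
    obtain ⟨hxS, hxC⟩ := Subgroup.mem_inf.mp hx
    obtain ⟨s, hs, rfl⟩ := hxS
    have hsp : s ^ p = 1 := by
      apply hinj _ (Subgroup.pow_mem _ hs p)
      rw [map_pow]
      have h0 := pow_orderOf_eq_one (QuotientGroup.mk' (pPrimeCore p G) s)
      rw [hxo] at h0
      exact h0
    have hsE : s ∈ Subgroup.centralizer (E : Set G) := by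
      rw [Subgroup.mem_centralizer_iff]
      intro e he
      rw [Subgroup.mem_centralizer_iff] at hxC
      have h1 := hxC _ (Subgroup.mem_map_of_mem _ he)
      have h2 : e * s * (s * e)⁻¹ = 1 := by
        apply hinj _ (Subgroup.mul_mem _ (Subgroup.mul_mem _ (hES he) hs)
          (Subgroup.inv_mem _ (Subgroup.mul_mem _ hs (hES he))))
        rw [map_mul, map_mul, map_inv, map_mul, h1, mul_inv_cancel]
      exact mul_inv_eq_one.mp h2
    have hB := isElementaryAbelian_sup_zpowers hE hsE hsp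
    have hBE := hEmax _ hB le_sup_left
    have hsB : s ∈ E := by
      rw [← hBE]
      exact Subgroup.mem_sup_right (Subgroup.mem_zpowers s)
    exact Subgroup.mem_map_of_mem _ hsB
  -- `L̄` centralizes `C_{S̄}(Ē)`
  have hLN : L.map (QuotientGroup.mk' (pPrimeCore p G)) ≤ Subgroup.normalizer
      (((S : Subgroup G).map (QuotientGroup.mk' (pPrimeCore p G))
      ⊓ Subgroup.centralizer ((E.map (QuotientGroup.mk' (pPrimeCore p G)) : Subgroup _) : Set _)
        : Subgroup _) : Set _) := by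
    refine (le_inf ?_ (hLE.trans Subgroup.le_normalizer)).trans
      Subgroup.inf_normalizer_le_normalizer_inf
    rw [Subgroup.normalizer_eq_top]
    exact le_top
  have hLC := centralizer_of_omega hp (hSbp.to_le inf_le_left) hLN hLbc (fun x hx hxo => by
    have hxE := hkey x hx hxo
    intro l hl
    rw [Subgroup.mem_centralizer_iff]
    intro y hy
    rw [Set.mem_singleton_iff] at hy
    subst hy
    have := hLE hl
    rw [Subgroup.mem_centralizer_iff] at this
    exact this y hxE)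
  have hEbp : IsPGroup p (E.map (QuotientGroup.mk' (pPrimeCore p G))) := hEp.map _
  have hfin := Cfsg.Agent.H1.pq_lemma p (E.map (QuotientGroup.mk' (pPrimeCore p G)))
    (L.map (QuotientGroup.mk' (pPrimeCore p G)))
    ((S : Subgroup G).map (QuotientGroup.mk' (pPrimeCore p G))) hEbp hLbc hSbp hEL'
    (by rw [Subgroup.normalizer_eq_top]; exact le_top)
    (by rw [Subgroup.normalizer_eq_top]; exact le_top)
    (Subgroup.le_centralizer_iff.mp hLC)
  have hLbot : L.map (QuotientGroup.mk' (pPrimeCore p G)) = ⊥ := by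
    rw [← le_bot_iff, ← hLR]
    exact le_inf le_rfl (hfin.trans hcent)
  intro l hl
  rw [← hker]
  have : QuotientGroup.mk' (pPrimeCore p G) l ∈ L.map (QuotientGroup.mk' (pPrimeCore p G)) :=
    Subgroup.mem_map_of_mem _ hl
  rw [hLbot] at this
  exact Subgroup.mem_bot.mp this

end Cfsg.Agent.Lib.Helper30
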