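import Mathlib
import Cfsg.Agent.Lib.Helper30.BG12TDefs
import Cfsg.Agent.H28.Coprime
import Cfsg.Agent.H58.BG10FG
import Cfsg.Agent.H63.Sig

set_option autoImplicit false

/-!
# Bender–Glauberman 12.12 (S1422): the endgame and the assembly (helper30, project BG12T)
-/

namespace Cfsg.Agent.Lib.Helper30.BG12T

open Cfsg Subgroup Cfsg.Agent.H58.BG10 Cfsg.Agent.H57.BG12 Cfsg.Agent.H63.Sig
open scoped Pointwise

universe u

variable {G : Type u} [Group G]

/-- Uniqueness for the normalizer of an `M`-conjugate of `X` gives uniqueness for `N_G(X)`. -/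
theorem uniqIn_of_conj {X M : Subgroup G} {t : G} (ht : t ∈ M)
    (h : UniqIn (normalizer ((X.map (MulAut.conj t).toMonoidHom : Subgroup G) : Set G)) M) :
    UniqIn (normalizer (X : Set G)) M := by
  have e : normalizer ((X.map (MulAut.conj t).toMonoidHom : Subgroup G) : Set G)
      = MulAut.conj t • normalizer (X : Set G) := by
    rw [← map_conj_eq_smul]
    exact (Subgroup.map_equiv_normalizer_eq X (MulAut.conj t)).symm
  rw [e] at h
  refine ⟨?_, ?_⟩
  · intro g hg
    have h1 : t * g * t⁻¹ ∈ (MulAut.conj t • normalizer (X : Set G) : Subgroup G) := by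
      rw [mem_cj]
      have : t⁻¹ * (t * g * t⁻¹) * t = g := by group
      rw [this]
      exact hg
    have h2 := h.1 h1
    have : g = t⁻¹ * (t * g * t⁻¹) * t := by group
    rw [this]
    exact M.mul_mem (M.mul_mem (M.inv_mem ht) h2) ht
  · intro L hL hXL
    have h1 := h.2 (MulAut.conj t • L) (isCoatom_cj t hL) (cj_mono t hXL)
    have h2 : L = MulAut.conj t⁻¹ • M := by
      rw [← h1, cj_inv_cj]
    rw [h2]
    exact cj_eq_self_of_mem (M.inv_mem ht)

theorem centralizer_singleton_le_normalizer_zpowers (u : G) :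
    centralizer ({u} : Set G) ≤ normalizer ((zpowers u : Subgroup G) : Set G) := by
  refine le_trans ?_ (centralizer_le_normalizer _)
  intro g hg
  rw [Subgroup.mem_centralizer_iff] at hg ⊢
  intro h hh
  obtain ⟨k, rfl⟩ := Subgroup.mem_zpowers_iff.mp hh
  have hc : Commute u g := hg u rfl
  exact (hc.zpow_left k).eq

/-- (END) The endgame of S1422. -/
theorem endgame [Finite G] (h12 : St1412 G) (hN : StSigN G)
    (hWit : StWit G) (hFrat : StFrat G) (hExtra : StExtra G) (hGen : StGen G) : StEnd G := by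
  intro p _ S M L hM hL hSM hSL hpM hpL hna hrk
  by_contra hne
  have hp : p.Prime := Fact.out
  rcases h12 p S hrk with hab | ⟨P₁, P₂, hsup, hcomm, hP₁na, hP₁card, hP₁exp, -, -⟩
  · exact hna hab
  have hP₁S : P₁ ≤ (S : Subgroup G) := hsup ▸ le_sup_left
  have hexp : ∀ a ∈ P₁, a ^ p = 1 := by
    intro a ha
    have h1 := Monoid.pow_exponent_eq_one (⟨a, ha⟩ : P₁)
    rw [hP₁exp] at h1
    exact congrArg Subtype.val h1
  obtain ⟨hZcard, hEx⟩ := hExtra p P₁ hP₁card hexp hP₁na
  -- `Z` is centralized by `S`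
  have hSZ : (S : Subgroup G) ≤ centralizer ((P₁ ⊓ centralizer (P₁ : Set G) : Subgroup G) : Set G) := by
    rw [← hsup]
    apply sup_le
    · intro a ha
      rw [Subgroup.mem_centralizer_iff]
      intro c hc
      exact ((Subgroup.mem_centralizer_iff.mp hc.2) a ha).symm
    · intro b hb
      rw [Subgroup.mem_centralizer_iff]
      intro c hc
      exact hcomm c hc.1 b hb
  have hSNZ : (S : Subgroup G) ≤ normalizer ((P₁ ⊓ centralizer (P₁ : Set G) : Subgroup G) : Set G) :=
    hSZ.trans (centralizer_le_normalizer _)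
  -- a noncentral element
  obtain ⟨u₀, hu₀, hu₀nc⟩ : ∃ u ∈ P₁, u ∉ centralizer (P₁ : Set G) := by
    by_contra hcon
    push Not at hcon
    apply hP₁na
    refine ⟨⟨fun a b => ?_⟩⟩
    have h1 := (Subgroup.mem_centralizer_iff.mp (hcon b.1 b.2)) a.1 a.2
    exact Subtype.ext h1
  have hAS : ∀ u ∈ P₁, zpowers u ⊔ (P₁ ⊓ centralizer (P₁ : Set G)) ≤ (S : Subgroup G) :=
    fun u hu => sup_le ((zpowers_le).mpr (hP₁S hu)) (inf_le_left.trans hP₁S)
  -- the asymmetric statement
  have asym : ∀ M' L' : Subgroup G, IsCoatom M' → IsCoatom L' → M' ≠ L' →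
      (S : Subgroup G) ≤ M' → (S : Subgroup G) ≤ L' → p ∈ sigma M' → p ∈ sigma L' →
      UniqIn (normalizer ((P₁ ⊓ centralizer (P₁ : Set G) : Subgroup G) : Set G)) M' → False := by
    intro M' L' hM' hL' hne' hSM' hSL' hpM' hpL' hU
    have h3 : ∀ u ∈ P₁, u ∉ centralizer (P₁ : Set G) → centralizer ({u} : Set G) ≤ L' := by
      intro u hu hunc
      obtain ⟨hAe, hAc, hAsub⟩ := hEx u hu hunc
      obtain ⟨A₀, hA₀A, hA₀c, hA₀U⟩ := hWit p S L' M' hL' hM' (Ne.symm hne') hSL' hSM' hpL' hpM'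
        _ (hAS u hu) hAe hAc
      rcases hAsub A₀ hA₀A hA₀c with h | ⟨t, ht, h⟩
      · exfalso
        rw [h] at hA₀U
        exact hne' (hU.2 L' hL' hA₀U.1).symm
      · rw [h] at hA₀U
        have hU' := uniqIn_of_conj (hSL' (hP₁S ht)) hA₀U
        exact (centralizer_singleton_le_normalizer_zpowers u).trans hU'.1
    have hH : normalizer ((P₁ ⊓ centralizer (P₁ : Set G) : Subgroup G) : Set G) ≠ ⊤ :=
      fun h => hM'.1 (top_le_iff.mp (h ▸ hU.1))
    have hNL : normalizer ((P₁ ⊓ centralizer (P₁ : Set G) : Subgroup G) : Set G) ≤ L' := by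
      apply hFrat p S _ L' hH hSNZ (inf_le_right.trans (hN L' hL' p hpL' S hSL'))
      intro W hWH hHW hpW
      obtain ⟨hAe, hAc, hAsub⟩ := hEx u₀ hu₀ hu₀nc
      have hAW : zpowers u₀ ⊔ (P₁ ⊓ centralizer (P₁ : Set G)) ≤ normalizer (W : Set G) :=
        (hAS u₀ hu₀).trans (hSNZ.trans hHW)
      have hgen := Cfsg.Agent.H28.le_iSup_hyperplane_centralizers p _ W hAe (by rw [hAc]) hpW hAW
      refine hgen.trans (iSup_le ?_)
      rintro ⟨D, hDA, hDrel⟩
      have hDc : Nat.card D = p := by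
        have h1 := Subgroup.relIndex_mul_relIndex ⊥ D _ bot_le hDA
        rw [Subgroup.relIndex_bot_left, Subgroup.relIndex_bot_left, hDrel, hAc] at h1
        have h2 : Nat.card D * p = p * p := by rw [h1]; ring
        exact Nat.eq_of_mul_eq_mul_right hp.pos h2
      show W ⊓ centralizer ((D : Subgroup G) : Set G) ≤ L'
      rcases hAsub D hDA hDc with h | ⟨t, ht, h⟩
      · rw [h]
        apply hGen p P₁ _ L' hP₁card hexp hP₁na
        · intro a ha
          apply Subgroup.inf_normalizer_le_normalizer_inf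
          exact ⟨hHW (hSNZ (hP₁S ha)), Subgroup.le_normalizer (hSZ (hP₁S ha))⟩
        · intro hdvd
          exact hpW (hdvd.trans (Subgroup.card_dvd_of_le inf_le_left))
        · intro c hc q hq
          exact (Subgroup.mem_centralizer_iff.mp hq.2) c hc
        · intro u hu hunc
          exact inf_le_right.trans (h3 u hu hunc)
      · have hu' : t * u₀ * t⁻¹ ∈ P₁ := P₁.mul_mem (P₁.mul_mem ht hu₀) (P₁.inv_mem ht)
        have hu'nc : t * u₀ * t⁻¹ ∉ centralizer (P₁ : Set G) := by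
          intro hc
          apply hu₀nc
          rw [Subgroup.mem_centralizer_iff] at hc ⊢
          intro a ha
          have h1 := hc (t * a * t⁻¹) (P₁.mul_mem (P₁.mul_mem ht ha) (P₁.inv_mem ht))
          have h2 : t * (a * u₀) * t⁻¹ = t * (u₀ * a) * t⁻¹ := by
            calc t * (a * u₀) * t⁻¹ = (t * a * t⁻¹) * (t * u₀ * t⁻¹) := by group
              _ = (t * u₀ * t⁻¹) * (t * a * t⁻¹) := h1
              _ = t * (u₀ * a) * t⁻¹ := by group
          exact mul_left_cancel (mul_right_cancel h2)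
        refine le_trans ?_ (h3 _ hu' hu'nc)
        refine inf_le_right.trans (Subgroup.centralizer_le ?_)
        rw [Set.singleton_subset_iff, SetLike.mem_coe, h]
        exact ⟨u₀, mem_zpowers u₀, rfl⟩
    exact hne' (hU.2 L' hL' hNL).symm
  -- the witnesses for `A = ⟨u₀⟩ Z`
  obtain ⟨hAe, hAc, hAsub⟩ := hEx u₀ hu₀ hu₀nc
  obtain ⟨A₀, hA₀A, hA₀c, hA₀U⟩ := hWit p S M L hM hL hne hSM hSL hpM hpL _ (hAS u₀ hu₀) hAe hAc
  obtain ⟨A₁, hA₁A, hA₁c, hA₁U⟩ := hWit p S L M hL hM (Ne.symm hne) hSL hSM hpL hpM _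
    (hAS u₀ hu₀) hAe hAc
  rcases hAsub A₀ hA₀A hA₀c with h | ⟨t, ht, h⟩
  · rw [h] at hA₀U
    exact asym M L hM hL hne hSM hSL hpM hpL hA₀U
  · rcases hAsub A₁ hA₁A hA₁c with h' | ⟨t', ht', h'⟩
    · rw [h'] at hA₁U
      exact asym L M hL hM (Ne.symm hne) hSL hSM hpL hpM hA₁U
    · rw [h] at hA₀U
      rw [h'] at hA₁U
      have hU := uniqIn_of_conj (hSM (hP₁S ht)) hA₀U
      have hU' := uniqIn_of_conj (hSL (hP₁S ht')) hA₁U
      exact hne (hU.2 L hL hU'.1).symm

/-- Assembly of S1422 from (SYL), (END) and the Uniqueness Theorem. -/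
theorem st1422_of [Finite G] (hG : IsMinSimpleOddOrder G) (h03 : St1403 G) (hSyl : StSyl G)
    (hEnd : StEnd G) : St1422 G := by
  intro p _ P hP hPna
  have hp : p.Prime := Fact.out
  -- `P` is proper
  have hPtop : P ≠ ⊤ := by
    intro h
    apply hG.2.2.1
    have hsimple : IsSimpleGroup G := hG.2.1
    have hGp : IsPGroup p G := by
      intro g
      obtain ⟨k, hk⟩ := hP ⟨g, h ▸ Subgroup.mem_top g⟩
      exact ⟨k, congrArg Subtype.val hk⟩
    by_cases hnt : Nontrivial G
    · have hc : Nontrivial (center G) := hGp.center_nontrivial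
      rcases (inferInstance : (center G).Normal).eq_bot_or_eq_top with h1 | h1
      · exfalso
        obtain ⟨⟨z, hz⟩, hz1⟩ := exists_ne (1 : center G)
        apply hz1
        apply Subtype.ext
        have : z ∈ (⊥ : Subgroup G) := h1 ▸ hz
        exact Subgroup.mem_bot.mp this
      · refine ⟨⟨fun a b => ?_⟩⟩
        have hb : b ∈ center G := h1 ▸ Subgroup.mem_top b
        exact Subgroup.mem_center_iff.mp hb a
    · rw [not_nontrivial_iff_subsingleton] at hnt
      exact ⟨⟨fun a b => Subsingleton.elim _ _⟩⟩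
  obtain ⟨M, hM, hPM⟩ := (eq_top_or_exists_le_coatom P).resolve_left hPtop
  refine ⟨M, ⟨hM, hPM⟩, ?_⟩
  rintro L ⟨hL, hPL⟩
  obtain ⟨hpM, hpL, S, hPS, hSM, hSL⟩ := hSyl p P M L hP hPna hM hL hPM hPL
  by_cases hrk : PRankLE p 2 (S : Subgroup G)
  · have hSna : ¬ IsMulCommutative (S : Subgroup G) := by
      intro hc
      apply hPna
      refine ⟨⟨fun a b => ?_⟩⟩
      have h1 := hc.is_comm.comm (⟨a.1, hPS a.2⟩ : (S : Subgroup G)) ⟨b.1, hPS b.2⟩
      have h2 : a.1 * b.1 = b.1 * a.1 := congrArg Subtype.val h1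
      exact Subtype.ext h2
    exact (hEnd p S M L hM hL hSM hSL hpM hpL hSna hrk).symm
  · have hU : InUniqueMaximal (S : Subgroup G) := by
      apply h03 (S : Subgroup G)
      · intro h
        exact hM.1 (top_le_iff.mp (h ▸ hSM))
      · exact not_rankLE_of_not_pRankLE hp (not_pRankLE_mono hp (by norm_num) hrk)
      · exact Or.inl (not_rankLE_of_not_pRankLE hp hrk)
    exact eq_of_inUniqueMaximal hU hM hSM hL hSL

end Cfsg.Agent.Lib.Helper30.BG12T
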