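import Mathlib
import Cfsg.Agent.Lib.Helper30.BG12TEnd
import Cfsg.Agent.Lib.Helper30.BG129C
import Cfsg.Agent.H73.BG129A
import Cfsg.Agent.H58.BG10All2
import Cfsg.Agent.H12.BG12TSyl
import Cfsg.Agent.H12.BG12TExtra
import Cfsg.Agent.H7.BG12TSigN
import Cfsg.Agent.H7.BG12TWit
import Cfsg.Agent.H82.BG12TFrat
import Cfsg.Agent.H25.BG12TGen

set_option autoImplicit false

/-!
# Bender–Glauberman 12.12 (S1422) from Proposition 12.4 (S1416) and Theorem 12.5 (S1417)
(helper30, project BG12T; pieces by helper7, helper12, helper25, helper82)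
-/

namespace Cfsg.Agent.Lib.Helper30.BG12T

open Cfsg Subgroup Cfsg.Agent.H58.BG10 Cfsg.Agent.H57.BG12

universe u

variable {G : Type u} [Group G]

/-- S1422 from S1416 and S1417 (and the landed rows of §9, §10). -/
theorem st1422_core [Finite G] (hG : IsMinSimpleOddOrder G) (h16 : St1416 G) (h17 : St1417 G) :
    St1422 G := by
  have h03 : St1403 G := st1403 hG
  have h04 : St1404 G := st1404 hG
  have h10 : St1410 G := st1410 hG
  have h12 : St1412 G := st1412 hG
  have h50 : St1350 G := st1350 hG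
  have ha : St1420a G := Cfsg.Agent.H73.BG12.bg129a hG h03 h17
  have hc : St1420c G := Cfsg.Agent.Lib.Helper30.BG12.bg129c hG h04 h16
  have hN : StSigN G := Cfsg.Agent.H7.BG12T.sigN
  have hSyl : StSyl G := Cfsg.Agent.H12.BG12T.syl hG ha hc
  have hWit : StWit G := Cfsg.Agent.H7.BG12T.wit hG h16 h50 hN
  have hFrat : StFrat G := Cfsg.Agent.H82.BG12T.frat hG h10
  have hGen : StGen G := Cfsg.Agent.H25.BG12T.gen
  have hExtra : StExtra G := Cfsg.Agent.H12.BG12T.extra
  exact st1422_of hG h03 hSyl (endgame h12 hN hWit hFrat hExtra hGen)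

end Cfsg.Agent.Lib.Helper30.BG12T
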