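import Mathlib
import Cfsg.Agent.Lib.Helper30.BG12TDefs
import Cfsg.Agent.H58.BG10FG
import Cfsg.Agent.H57.BG126
import Cfsg.Agent.H63.Sig

set_option autoImplicit false

/-!
# Bender–Glauberman 12.13 (S1423): the assembly (helper30, project BG12T)
-/

namespace Cfsg.Agent.Lib.Helper30.BG12T

open Cfsg Subgroup Cfsg.Agent.H58.BG10 Cfsg.Agent.H57.BG12 Cfsg.Agent.H63.Sig
open scoped Pointwise

universe u

variable {G : Type u} [Group G]

/-- Assembly of S1423 from (PS) and the two main steps. -/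
theorem st1423_of [Finite G] (hG : IsMinSimpleOddOrder G) (hPS : StPS G) (hR3 : StMain23R3 G)
    (hR2 : StMain23R2 G) : St1423 G := by
  intro M hM p _ hp X hXM hXc P h
  have hpp : p.Prime := Fact.out
  obtain ⟨S, hS⟩ := hPS M hM p hp P
  have hSσ : (S : Subgroup G) ≤ sigmaCore M := by
    rw [hS]
    exact Subgroup.map_subtype_le _
  have hσM : sigmaCore M ≤ M := sigmaCore_le_self M
  have hC : Concl23 M X p S := by
    by_cases hrk : PRankLE p 2 (S : Subgroup G)
    · exact hR2 M hM p hp X hXM hXc S hSσ h hrk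
    · exact hR3 M hM p hp X hXM hXc S hSσ h hrk
  obtain ⟨hSU, g, hg, K, hKM, hKU, hKC⟩ := hC
  refine ⟨?_, hS ▸ hSU, hS ▸ (hSσ.trans hσM)⟩
  rw [map_conj_eq_smul] at hKC
  have hX1 : (MulAut.conj g • X : Subgroup G) ≠ ⊥ := by
    intro hbot
    have h1 : Nat.card (MulAut.conj g • X : Subgroup G) = p := by rw [card_cj, hXc]
    rw [hbot, Subgroup.card_bot] at h1
    exact hpp.one_lt.ne h1
  have hCtop : centralizer ((MulAut.conj g • X : Subgroup G) : Set G) ≠ ⊤ :=
    centralizer_ne_top' hG hX1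
  have hCM : centralizer ((MulAut.conj g • X : Subgroup G) : Set G) ≤ M :=
    le_of_inUniqueMaximal hKU hM hKM hKC hCtop
  rw [centralizer_cj] at hCM hKC
  refine ⟨?_, ?_⟩
  · intro c hc
    have h1 : g * c * g⁻¹ ∈ (MulAut.conj g • centralizer (X : Set G) : Subgroup G) := by
      rw [mem_cj]
      have : g⁻¹ * (g * c * g⁻¹) * g = c := by group
      rw [this]
      exact hc
    have h2 := hCM h1
    have : c = g⁻¹ * (g * c * g⁻¹) * g := by group
    rw [this]
    exact M.mul_mem (M.mul_mem (M.inv_mem hg) h2) hg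
  · intro L hL hCL
    have h1 : MulAut.conj g • L = M :=
      eq_of_inUniqueMaximal hKU hM hKM (isCoatom_cj g hL) (hKC.trans (cj_mono g hCL))
    have h2 : L = MulAut.conj g⁻¹ • M := by
      rw [← h1, cj_inv_cj]
    rw [h2]
    exact cj_eq_self_of_mem (M.inv_mem hg)

end Cfsg.Agent.Lib.Helper30.BG12T
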