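import Mathlib
import Cfsg.Agent.Lib.Helper30.BG12TMain
import Cfsg.Agent.Lib.Helper30.BG12TAsm23
import Cfsg.Agent.S1414
import Cfsg.Agent.H7.BG12TPS
import Cfsg.Agent.H7.BG12TR2
import Cfsg.Agent.H24.BG12TR3
import Cfsg.Agent.H12.BG12TR3U
import Cfsg.Agent.H69.BG12TFoc
import Cfsg.Agent.H69.BG12TDerU

set_option autoImplicit false

/-!
# Bender–Glauberman 12.13 (S1423) from Proposition 12.4 (S1416) and Theorem 12.5 (S1417)
(helper30, project BG12T; pieces by helper7, helper12, helper24, helper69)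
-/

namespace Cfsg.Agent.Lib.Helper30.BG12T

open Cfsg Subgroup Cfsg.Agent.H58.BG10 Cfsg.Agent.H57.BG12

universe u

variable {G : Type u} [Group G]

/-- S1423 from S1416 and S1417 (and the landed rows of §9, §10). -/
theorem st1423_core [Finite G] (hG : IsMinSimpleOddOrder G) (h16 : St1416 G) (h17 : St1417 G) :
    St1423 G := by
  have h03 : St1403 G := st1403 hG
  have h12 : St1412 G := st1412 hG
  have h50 : St1350 G := st1350 hG
  have h14 : St1414 G := fun M hM => Cfsg.Agent.S1414.result hG M hM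
  have h22 : St1422 G := st1422_core hG h16 h17
  have hFoc : StFoc G := Cfsg.Agent.H69.BG12T.foc
  have hDerU : StDerU G := Cfsg.Agent.H69.BG12T.derU
  have hR3U : StR3U G := Cfsg.Agent.H12.BG12T.r3u
  have hPS : StPS G := Cfsg.Agent.H7.BG12T.ps hG h50
  have hR3 : StMain23R3 G := Cfsg.Agent.H24.BG12T.main23_r3 hG h03 h14 hR3U hDerU hFoc
  have hR2 : StMain23R2 G := Cfsg.Agent.H7.BG12T.main23_r2 hG h12 h14 h22 hFoc
  exact st1423_of hG hPS hR3 hR2

end Cfsg.Agent.Lib.Helper30.BG12T
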