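import Mathlib
import Cfsg.Agent.Lib.Helper30.BG134Defs
import Cfsg.Agent.H92.BG123
import Cfsg.Agent.H58.BG10FG
import Cfsg.Agent.H63.Sig

set_option autoImplicit false

/-!
# Bender–Glauberman Theorem 13.4 (S1428): assembly of the pieces (helper30)
-/

namespace Cfsg.Agent.Lib.Helper30.BG134

open Cfsg Subgroup Cfsg.Agent.H58.BG10
open scoped Pointwise

universe u

variable {G : Type u} [Group G]

/-- Non-conjugacy in `•`-form, in both directions. -/
theorem not_conj_smul {M H : Subgroup G}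
    (hnc : ∀ g : G, H ≠ M.map (MulAut.conj g).toMonoidHom) :
    (∀ g : G, H ≠ MulAut.conj g • M) ∧ (∀ g : G, M ≠ MulAut.conj g • H) := by
  refine ⟨fun g h => hnc g (by rw [Cfsg.Agent.H63.Sig.map_conj_eq_smul]; exact h), fun g h => ?_⟩
  apply hnc g⁻¹
  rw [Cfsg.Agent.H63.Sig.map_conj_eq_smul, h, Cfsg.Agent.H63.Sig.cj_inv_cj]

/-- A nontrivial `q`-group has order divisible by `q`. -/
theorem dvd_card_of_pgroup [Finite G] {q : ℕ} (hq : q.Prime) {Q : Subgroup G}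
    (hQ : IsPGroup q Q) (hQ1 : Q ≠ ⊥) : q ∣ Nat.card Q := by
  haveI : Fact q.Prime := ⟨hq⟩
  obtain ⟨n, hn⟩ := hQ.exists_card_eq
  rcases n with _ | n
  · exfalso
    apply hQ1
    rw [pow_zero] at hn
    exact Subgroup.card_eq_one.mp hn
  · rw [hn, pow_succ]
    exact dvd_mul_left _ _

/-- A subgroup of prime order is nontrivial. -/
theorem ne_bot_of_card_prime {X : Subgroup G} {q : ℕ} (hq : q.Prime) (hX : Nat.card X = q) :
    X ≠ ⊥ := by
  intro h
  rw [h, Subgroup.card_bot] at hX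
  exact hq.one_lt.ne hX

/-- If `A ≤ C(B)` then `B ≤ C(A)`. -/
theorem le_centralizer_symm {A B : Subgroup G} (h : A ≤ centralizer (B : Set G)) :
    B ≤ centralizer (A : Set G) := by
  intro x hx
  rw [mem_centralizer_iff]
  intro y hy
  exact ((mem_centralizer_iff.mp (h hy)) x hx).symm

/-- No configuration has `q ∉ σ(H)`. -/
theorem no_cfg_of_not_sigma [Finite G] (hG : IsMinSimpleOddOrder G) (h03 : St1403 G)
    (h05 : St1405 G) (hA : StCaseA G) (hRT : StRTau1 G) (hB1 : StB1 G) (hB2L : StB2L G)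
    (hB2b : StB2b G) (hLR : StLR G)
    {M E H P R Q1 : Subgroup G} {p r q : ℕ} (c : Cfg M E H P R Q1 p r q)
    (hqσ : q ∉ sigma H) : False := by
  by_cases hpσ : p ∈ sigma H
  swap
  · exact hA M E H P R Q1 p r q c hpσ
  by_cases hq1 : PRankLE q 1 H
  swap
  · exact hB1 M E H P R Q1 p r q c hpσ hqσ hq1
  obtain ⟨X, L, hXQ, hXc, hRX, hXfree, hL, hLH, hNX, hfac⟩ :=
    hB2L M E H P R Q1 p r q c hqσ hq1
  have hX1 : X ≠ ⊥ := ne_bot_of_card_prime c.hq hXc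
  by_cases hpα : p ∈ alpha H
  · have hpp : p.Prime := c.hp.1
    haveI : Fact p.Prime := ⟨hpp⟩
    have hPp : IsPGroup p P := IsPGroup.of_card (n := 1) (by rw [c.hP, pow_one])
    have hPα : P ≤ alphaCore H :=
      Cfsg.Agent.H92.BG12.le_alphaCore_of_mem h05 c.hH hpα hPp c.hPH
    have hP1 : P ≠ ⊥ := ne_bot_of_card_prime hpp c.hP
    have hα1 : alphaCore H ≠ ⊥ := fun h => hP1 (le_bot_iff.mp (h ▸ hPα))
    have hqα : q ∉ alpha H := fun h => hqσ (alpha_subset_sigma hG h03 c.hH h)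
    have hXq : IsPGroup q X := c.hQ1q.to_le hXQ
    obtain ⟨-, h2⟩ := hLR H L R X r q c.hH (hRT M E H P R Q1 p r q c) c.hRH c.hR c.hq hqα
      (hXQ.trans c.hQ1H) hXq hX1 hRX hXfree hL hLH
      (inf_le_right.trans ((Cfsg.Agent.Lib.Helper30.centralizer_le_normalizer' X).trans hNX)) hα1
    apply hP1
    rw [eq_bot_iff, ← h2]
    exact le_inf (le_inf hPα (le_centralizer_symm (hXQ.trans c.hQ1P)))
      (le_centralizer_symm c.hRP)
  · exact hB2b M E H P R Q1 X L p r q c hpσ hpα hXQ hX1 hL hLH hNX hfac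

/-- No configuration has `Q1 ≤ M_α`. -/
theorem no_cfg_alpha [Finite G] (hG : IsMinSimpleOddOrder G) (h03 : St1403 G)
    (h05 : St1405 G) (hA : StCaseA G) (hRT : StRTau1 G) (hB1 : StB1 G) (hB2L : StB2L G)
    (hB2b : StB2b G) (hLR : StLR G)
    {M E H P R Q1 : Subgroup G} {p r q : ℕ} (c : Cfg M E H P R Q1 p r q)
    (hQα : Q1 ≤ alphaCore M) : False := by
  have hqα : q ∈ alpha M :=
    (h05 M c.hM).1.2.1 q c.hq
      ((dvd_card_of_pgroup c.hq c.hQ1q c.hQ1).trans (Subgroup.card_dvd_of_le hQα))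
  apply no_cfg_of_not_sigma hG h03 h05 hA hRT hB1 hB2L hB2b hLR c
  intro hqσ
  obtain ⟨g, hg⟩ := Cfsg.Agent.H92.BG12.conj_of_alpha_sigma hG h03 c.hM c.hH hqα hqσ
  exact (not_conj_smul c.hnc).2 g hg

/-- There is no configuration at all. -/
theorem no_cfg [Finite G] (hG : IsMinSimpleOddOrder G) (h03 : St1403 G)
    (h05 : St1405 G) (hSetup : StSetup G) (hA : StCaseA G) (hRT : StRTau1 G) (hB1 : StB1 G)
    (hB2L : StB2L G) (hB2b : StB2b G) (hLC : StLC G) (hB3b : StB3b G) (hLR : StLR G)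
    {M E H P R Q1 : Subgroup G} {p r q : ℕ} (c : Cfg M E H P R Q1 p r q) : False := by
  by_cases hqσ : q ∈ sigma H
  swap
  · exact no_cfg_of_not_sigma hG h03 h05 hA hRT hB1 hB2L hB2b hLR c hqσ
  by_cases hpσ : p ∈ sigma H
  swap
  · exact hA M E H P R Q1 p r q c hpσ
  have hpp : p.Prime := c.hp.1
  haveI : Fact p.Prime := ⟨hpp⟩
  have hr1 : r ∈ tau1 H := hRT M E H P R Q1 p r q c
  have hpα : p ∈ alpha H := hLC M H p q c.hM c.hH c.hqM hqσ hpσ c.hp.2.2.2.1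
  have hPp : IsPGroup p P := IsPGroup.of_card (n := 1) (by rw [c.hP, pow_one])
  have hPα : P ≤ alphaCore H :=
    Cfsg.Agent.H92.BG12.le_alphaCore_of_mem h05 c.hH hpα hPp c.hPH
  have hP1 : P ≠ ⊥ := ne_bot_of_card_prime hpp c.hP
  have hα1 : alphaCore H ≠ ⊥ := fun h => hP1 (le_bot_iff.mp (h ▸ hPα))
  have hqαH : q ∉ alpha H := by
    intro h
    obtain ⟨g, hg⟩ := Cfsg.Agent.H92.BG12.conj_of_alpha_sigma hG h03 c.hH c.hM h c.hqM
    exact (not_conj_smul c.hnc).1 g hg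
  have hqαM : q ∉ alpha M := by
    intro h
    obtain ⟨g, hg⟩ := Cfsg.Agent.H92.BG12.conj_of_alpha_sigma hG h03 c.hM c.hH h hqσ
    exact (not_conj_smul c.hnc).2 g hg
  by_cases hex : ∃ L : Subgroup G, IsCoatom L ∧ L ≠ H ∧ H ⊓ centralizer (Q1 : Set G) ≤ L
  · obtain ⟨L, hL, hLH, hCL⟩ := hex
    obtain ⟨-, h2⟩ := hLR H L R Q1 r q c.hH hr1 c.hRH c.hR c.hq hqαH c.hQ1H c.hQ1q c.hQ1
      c.hRQ1 c.hfree hL hLH hCL hα1
    apply hP1
    rw [eq_bot_iff, ← h2]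
    exact le_inf (le_inf hPα (le_centralizer_symm c.hQ1P)) (le_centralizer_symm c.hRP)
  · have huniq : ∀ L : Subgroup G, IsCoatom L → H ⊓ centralizer (Q1 : Set G) ≤ L → L = H := by
      intro L hL hCL
      by_contra hne
      exact hex ⟨L, hL, hne, hCL⟩
    obtain ⟨hrM1, hMα, hCM, hMαH⟩ := hB3b M E H P R Q1 p r q c hqσ hr1 huniq
    have hEM : E ≤ M := c.hE.1
    have hHM : H ≠ M := by
      intro h
      apply c.hnc 1
      rw [h, Cfsg.Agent.H63.Sig.map_conj_eq_smul, Cfsg.Agent.H63.Sig.cj_one]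
    obtain ⟨hne, h2⟩ := hLR M H R Q1 r q c.hM hrM1 (c.hRE.trans hEM) c.hR c.hq hqαM
      (c.hQ1M.trans (Cfsg.Agent.Lib.Helper30.piCoreOf_le (sigma M) M)) c.hQ1q c.hQ1
      c.hRQ1 c.hfree c.hH hHM hCM hMα
    have hnot : ¬ (alphaCore M ⊓ centralizer (R : Set G) ≤ centralizer (P : Set G)) := by
      intro hle
      apply hne
      rw [eq_bot_iff, ← h2]
      intro x hx
      have hxP : x ∈ centralizer (P : Set G) := hle hx
      have hxH : x ∈ H :=
        c.hNP ((Cfsg.Agent.Lib.Helper30.centralizer_le_normalizer' P) hxP)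
      exact ⟨⟨hx.1, hMαH ⟨hx.1, hxH⟩⟩, hx.2⟩
    obtain ⟨H', Q1', q', c', hQ1'⟩ := hSetup M E R P (alphaCore M) r c.hM c.hE hrM1 c.hRE c.hR
      (le_inf c.hPE (le_centralizer_symm c.hRP)) (by rw [c.hP]; exact hpp) (h05 M c.hM).2.2.1
      (Cfsg.Agent.Lib.Helper30.le_normalizer_piCoreOf (alpha M) M) hnot
    exact no_cfg_alpha hG h03 h05 hA hRT hB1 hB2L hB2b hLR c' hQ1'

/-- **B&G Theorem 13.4** (S1428) from the pieces. -/
theorem st1428_of [Finite G] (hG : IsMinSimpleOddOrder G) (h03 : St1403 G)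
    (h05 : St1405 G) (hSetup : StSetup G) (hA : StCaseA G) (hRT : StRTau1 G) (hB1 : StB1 G)
    (hB2L : StB2L G) (hB2b : StB2b G) (hLC : StLC G) (hB3b : StB3b G) (hLR : StLR G) :
    St1428 G := by
  intro M hM E hE p hp P hPE hP R hR hRpr
  by_contra hcon
  have hnot : ¬ (sigmaCore M ⊓ centralizer (P : Set G) ≤ centralizer (R : Set G)) := by
    intro hle
    exact hcon (le_inf inf_le_left hle)
  obtain ⟨H, Q1, q, c, -⟩ := hSetup M E P R (sigmaCore M) p hM hE hp hPE hP hR hRpr le_rfl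
    (Cfsg.Agent.Lib.Helper30.le_normalizer_piCoreOf (sigma M) M) hnot
  exact no_cfg hG h03 h05 hSetup hA hRT hB1 hB2L hB2b hLC hB3b hLR c

end Cfsg.Agent.Lib.Helper30.BG134
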