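import Mathlib
import Cfsg.Agent.Lib.Helper30.BG134Main
import Cfsg.Agent.H47.BG1216E1
import Cfsg.Agent.H58.Sig2
import Cfsg.Agent.H51.BG10E
import Cfsg.Agent.H37.BG12CS
import Cfsg.Agent.H31.BG9a

set_option autoImplicit false

/-!
# Bender–Glauberman Theorem 13.4 (S1428): piece CASEA (helper30)

No configuration has `p ∉ σ(H)`.
-/

namespace Cfsg.Agent.Lib.Helper30.BG134

open Cfsg Subgroup Cfsg.Agent.H58.BG10 Cfsg.Agent.H57.BG12 Cfsg.Agent.H76.BG12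
  Cfsg.Agent.H47.BG12 Cfsg.Agent.Lib.Helper30.BG12T
open scoped Pointwise

universe u

variable {G : Type u} [Group G]

/-- A Sylow `q`-subgroup of `K` containing a given `q`-subgroup of `K`. -/
theorem exists_sylow_ge [Finite G] {q : ℕ} [Fact q.Prime] {K X : Subgroup G}
    (hX : IsPGroup q X) (hXK : X ≤ K) :
    ∃ S : Sylow q ↥K, X ≤ (S : Subgroup ↥K).map K.subtype := by
  have hX' : IsPGroup q (X.subgroupOf K) := hX.comap_subtype
  obtain ⟨S, hS⟩ := hX'.exists_le_sylow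
  refine ⟨S, ?_⟩
  intro x hx
  exact ⟨⟨x, hXK hx⟩, hS (Subgroup.mem_subgroupOf.mpr hx), rfl⟩

/-- A conjugate of an elementary abelian subgroup of order `p²` inside a subgroup of `p`-rank
`1`: impossible. -/
theorem rank_one_contra [Finite G] {p : ℕ} (hp : p.Prime) {A K : Subgroup G} (g : G)
    (hA : IsElementaryAbelian p A) (hAc : Nat.card A = p ^ 2)
    (hAK : A.map (MulAut.conj g).toMonoidHom ≤ K) (hK : PRankLE p 1 K) : False := by
  refine Cfsg.Agent.H37.BG12.not_pRankLE_one_of_le hp hAK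
    (Cfsg.Agent.H31.BG9.isElementaryAbelian_map (MulAut.conj g).toMonoidHom hA) ?_ hK
  exact (Cfsg.Agent.H63.Sig.card_cj g A).trans hAc

/-- The only prime dividing the order of a group of order `p²` is `p`. -/
theorem prime_of_dvd_sq {p s : ℕ} (hp : p.Prime) (hs : s.Prime) {n : ℕ} (hn : n = p ^ 2)
    (h : s ∣ n) : s = p := by
  rw [hn] at h
  exact (Nat.prime_dvd_prime_iff_eq hs hp).mp (hs.dvd_of_dvd_pow h)

/-- (CASEA) no configuration has `p ∉ σ(H)`. -/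
theorem caseA [Finite G] (hG : IsMinSimpleOddOrder G) (h03 : St1403 G) (h50 : St1350 G)
    (h09 : St1409 G) (h17 : St1417 G) (h18 : St1418 G) (h23 : St1423 G) (h24 : St1424 G)
    (hSC : StSigConj G) (hSD : StSigDisj G) (hE1 : StEmbE1 G) (hD1 : StEmbD1 G)
    (hHA : StHallAlpha G) (hDet : StDet G) (hAB : StAB G) (hRT : StRTau1 G) : StCaseA G := by
  intro M E H P R Q1 p r q c hpσ
  have hpp : p.Prime := c.hp.1
  haveI : Fact p.Prime := ⟨hpp⟩
  haveI : Fact q.Prime := ⟨c.hq⟩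
  have hP1 : P ≠ ⊥ := ne_bot_of_card_prime hpp c.hP
  have hPp : IsPGroup p P := IsPGroup.of_card (n := 1) (by rw [c.hP, pow_one])
  have hEM : E ≤ M := c.hE.1
  have hσM : sigmaCore M ≤ M := c.hE.2.1
  have hQ1M : Q1 ≤ M := c.hQ1M.trans hσM
  have hrank1 : PRankLE p 1 M := c.hp.2.2.2.2
  have hqp : q ≠ p := fun h => c.hp.2.1 (h ▸ c.hqM)
  have hqr : q ≠ r := fun h => c.hrM (h ▸ c.hqM)
  -- `p ∈ τ₂(H)`
  obtain ⟨⟨hr2, hr1⟩, -, A0, hA0el, hA0card, hPA0⟩ := h09 H c.hH p hpσ P c.hP c.hNP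
  have hτ2 : p ∈ tau2 H := ⟨hpp, hpσ, hr2, hr1⟩
  have hA0H : A0 ≤ H := by
    refine le_trans ?_ c.hNP
    refine le_trans ?_ (Cfsg.Agent.Lib.Helper30.centralizer_le_normalizer' P)
    exact (Cfsg.Agent.H37.BG12.le_centralizer_self hA0el).trans
      (Subgroup.centralizer_le (by exact_mod_cast hPA0))
  have hA0pr : ∀ s : ℕ, s.Prime → s ∣ Nat.card A0 → s = p := fun s hs h =>
    prime_of_dvd_sq hpp hs hA0card h
  have hnil : Group.IsNilpotent (sigmaCore H) := (h17 H c.hH p hτ2 A0 ⟨hA0H, hA0el, hA0card⟩).1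
  have hqσH : q ∉ sigma H := by
    intro hqH
    obtain ⟨g, hg⟩ := hSD M H c.hM c.hH hnil q c.hqM hqH
    exact (not_conj_smul c.hnc).1 g hg
  have hrσH : r ∉ sigma H := (hRT M E H P R Q1 p r q c).2.1
  have hHM : H ≠ M := by
    intro h
    apply c.hnc 1
    rw [h, Cfsg.Agent.H63.Sig.map_conj_eq_smul, Cfsg.Agent.H63.Sig.cj_one]
  -- a complement of `H_σ` containing `Q1`, `R`, `P`
  have hPCQ : P ≤ centralizer (Q1 : Set G) := le_centralizer_symm c.hQ1P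
  have hRPN : R ⊔ P ≤ normalizer (Q1 : Set G) :=
    sup_le c.hRQ1 (hPCQ.trans (Cfsg.Agent.Lib.Helper30.centralizer_le_normalizer' Q1))
  have hPNR : P ≤ normalizer (R : Set G) :=
    (le_centralizer_symm c.hRP).trans (Cfsg.Agent.Lib.Helper30.centralizer_le_normalizer' R)
  have hYH : Q1 ⊔ (R ⊔ P) ≤ H := sup_le c.hQ1H (sup_le c.hRH c.hPH)
  have hYpr : ∀ s : ℕ, s.Prime → s ∣ Nat.card ↥(Q1 ⊔ (R ⊔ P)) → s ∉ sigma H := by
    intro s hs hsd
    have h1 : Nat.card ↥(Q1 ⊔ (R ⊔ P)) ∣ Nat.card Q1 * Nat.card ↥(R ⊔ P) :=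
      Cfsg.Agent.H58.card_sup_dvd hRPN
    have h2 : Nat.card ↥(R ⊔ P) ∣ Nat.card R * Nat.card P := Cfsg.Agent.H58.card_sup_dvd hPNR
    have h3 := hsd.trans (h1.trans (Nat.mul_dvd_mul_left _ h2))
    rw [c.hR, c.hP] at h3
    rcases (Nat.Prime.dvd_mul hs).mp h3 with h4 | h4
    · obtain ⟨n, hn⟩ := c.hQ1q.exists_card_eq
      rw [hn] at h4
      rw [(Nat.prime_dvd_prime_iff_eq hs c.hq).mp (hs.dvd_of_dvd_pow h4)]
      exact hqσH
    · rcases (Nat.Prime.dvd_mul hs).mp h4 with h5 | h5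
      · rw [(Nat.prime_dvd_prime_iff_eq hs c.hr).mp h5]
        exact hrσH
      · rw [(Nat.prime_dvd_prime_iff_eq hs hpp).mp h5]
        exact hpσ
  obtain ⟨E0, hE0⟩ := exists_complIn_sigmaCore h50 c.hH
  obtain ⟨g, hgH, hg⟩ := hSC H c.hH E0 hE0 (Q1 ⊔ (R ⊔ P)) hYH hYpr
  have hEH : IsComplIn (MulAut.conj g⁻¹ • E0) (sigmaCore H) H := complIn_cj hE0 (inv_mem hgH)
  have hYE : Q1 ⊔ (R ⊔ P) ≤ MulAut.conj g⁻¹ • E0 := Cfsg.Agent.H63.Sig.le_cj_inv hg
  have hQ1E : Q1 ≤ MulAut.conj g⁻¹ • E0 := le_sup_left.trans hYE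
  have hRE : R ≤ MulAut.conj g⁻¹ • E0 := (le_sup_left.trans le_sup_right).trans hYE
  have hPE : P ≤ MulAut.conj g⁻¹ • E0 := (le_sup_right.trans le_sup_right).trans hYE
  -- `A ≤ E_H` elementary abelian of order `p²`
  obtain ⟨g2, hg2H, hg2⟩ := hSC H c.hH _ hEH A0 hA0H
    (fun s hs h => by rw [hA0pr s hs h]; exact hpσ)
  have hAel : IsElementaryAbelian p (A0.map (MulAut.conj g2).toMonoidHom) :=
    Cfsg.Agent.H31.BG9.isElementaryAbelian_map _ hA0el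
  have hAcard : Nat.card (A0.map (MulAut.conj g2).toMonoidHom) = p ^ 2 :=
    (Cfsg.Agent.H63.Sig.card_cj g2 A0).trans hA0card
  obtain ⟨⟨hEN, hXA⟩, -, -⟩ := h18 H c.hH _ hEH p hτ2 _ ⟨hg2, hAel, hAcard⟩
  have hPA : P ≤ A0.map (MulAut.conj g2).toMonoidHom := hXA P hPE c.hP
  have hApr : ∀ s : ℕ, s.Prime → s ∣ Nat.card (A0.map (MulAut.conj g2).toMonoidHom) → s = p :=
    fun s hs h => prime_of_dvd_sq hpp hs hAcard h
  have hAH : A0.map (MulAut.conj g2).toMonoidHom ≤ H := hg2.trans hEH.1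
  -- `Q1` centralizes `A`
  have hqR : ¬ q ∣ Nat.card R := by
    rw [c.hR]
    intro h
    exact hqr ((Nat.prime_dvd_prime_iff_eq c.hq c.hr).mp h)
  have hQ1A : Q1 ≤ centralizer ((A0.map (MulAut.conj g2).toMonoidHom : Subgroup G) : Set G) :=
    hDet _ P Q1 R p q hpp c.hq hqp hAel hAcard hPA c.hP c.hQ1q hqR (hQ1E.trans hEN)
      (hRE.trans hEN) c.hQ1P c.hRP c.hRQ1 c.hfree
  have hANQ : A0.map (MulAut.conj g2).toMonoidHom ≤ normalizer (Q1 : Set G) :=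
    (le_centralizer_symm hQ1A).trans (Cfsg.Agent.Lib.Helper30.centralizer_le_normalizer' Q1)
  have hAnotM : ¬ A0.map (MulAut.conj g2).toMonoidHom ≤ M := fun h =>
    rank_one_contra hpp g2 hA0el hA0card h hrank1
  by_cases hNQ : normalizer (Q1 : Set G) ≤ H
  · -- `N_G(Q1) ≤ H`
    obtain ⟨S, hQ1S⟩ := exists_sylow_ge c.hQ1q (le_inf hQ1M c.hQ1H)
    obtain ⟨-, -, h3⟩ := h24 M c.hM q c.hqM Q1 c.hQ1q c.hQ1 hQ1M H c.hH hHM hNQ S hQ1S
    obtain ⟨-, -, hcompl⟩ := hE1 M H c.hM c.hH hHM q c.hqM hqσH Q1 c.hQ1 hNQ _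
      (S.2.map _) hQ1S ((Subgroup.map_subtype_le _).trans inf_le_left)
      ((Subgroup.map_subtype_le _).trans inf_le_right) h3
    obtain ⟨g3, -, hg3⟩ := hSC H c.hH _ hcompl A0 hA0H
      (fun s hs h => by rw [hA0pr s hs h]; exact hpσ)
    exact rank_one_contra hpp g3 hA0el hA0card (hg3.trans inf_le_left) hrank1
  · -- a maximal subgroup `L ⊇ N_G(Q1)`
    have hQ1top : Q1 ≠ ⊤ := fun h => c.hM.1 (top_le_iff.mp (h ▸ hQ1M))
    have hNtop : normalizer (Q1 : Set G) ≠ ⊤ :=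
      Cfsg.Agent.H51.BG10.normalizer_ne_top_of_ne hG c.hQ1 hQ1top
    obtain ⟨L, hL, hNL⟩ := (eq_top_or_exists_le_coatom _).resolve_left hNtop
    have hLH : L ≠ H := fun h => hNQ (h ▸ hNL)
    have hAL : A0.map (MulAut.conj g2).toMonoidHom ≤ L := hANQ.trans hNL
    have hLM : L ≠ M := fun h => hAnotM (h ▸ hAL)
    have hQ1L : Q1 ≤ L := (Subgroup.le_normalizer).trans hNL
    have hPL : P ≤ L := hPA.trans hAL
    obtain ⟨S, hQ1S⟩ := exists_sylow_ge c.hQ1q (le_inf hQ1M hQ1L)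
    obtain ⟨h1, h2, h3⟩ := h24 M c.hM q c.hqM Q1 c.hQ1q c.hQ1 hQ1M L hL hLM hNL S hQ1S
    have hSq : IsPGroup q ((S : Subgroup ↥(M ⊓ L)).map (M ⊓ L).subtype) := S.2.map _
    have hSM : (S : Subgroup ↥(M ⊓ L)).map (M ⊓ L).subtype ≤ M :=
      (Subgroup.map_subtype_le _).trans inf_le_left
    have hSL : (S : Subgroup ↥(M ⊓ L)).map (M ⊓ L).subtype ≤ L :=
      (Subgroup.map_subtype_le _).trans inf_le_right
    by_cases hqL : q ∈ sigma L
    · -- `q ∈ σ(L)`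
      have hfac := hD1 M L hL q hqL _ hSq hSL h3 h2
      have hpαL : p ∈ alpha L := by
        by_contra hpα
        obtain ⟨g3, -, hg3⟩ := hHA L hL (M ⊓ L) inf_le_right hfac _ hAL
          (fun s hs h => by rw [hApr s hs h]; exact hpα)
        exact rank_one_contra hpp g3 hAel hAcard (hg3.trans inf_le_left) hrank1
      have hqαL : q ∉ alpha L := by
        intro h
        obtain ⟨g3, hg3⟩ := Cfsg.Agent.H92.BG12.conj_of_alpha_sigma hG h03 hL c.hM h c.hqM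
        exact h1 g3 hg3
      have hβ : p ∈ beta L := hAB L M _ q hL c.hM hLM hqL hqαL hSq hSL h2 p hpαL
      obtain ⟨Pσ⟩ : Nonempty (Sylow p ↥(sigmaCore L)) := inferInstance
      obtain ⟨⟨-, huniq⟩, -⟩ := h23 L hL p (alpha_subset_sigma hG h03 hL hpαL) P hPL c.hP Pσ
        (Or.inl hβ)
      exact hLH (huniq H c.hH
        ((Cfsg.Agent.Lib.Helper30.centralizer_le_normalizer' P).trans c.hNP)).symm
    · -- `q ∉ σ(L)`
      obtain ⟨-, hdisj, hcompl⟩ := hE1 M L c.hM hL hLM q c.hqM hqL Q1 c.hQ1 hNL _ hSq hQ1S hSM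
        hSL h3
      by_cases hpL : p ∈ sigma L
      · apply hP1
        rw [eq_bot_iff, ← hdisj]
        exact le_inf (Cfsg.Agent.H92.BG12.le_sigmaCore_of_mem h50 hL hpL hPp hPL)
          (c.hPE.trans hEM)
      · obtain ⟨g3, -, hg3⟩ := hSC L hL _ hcompl _ hAL
          (fun s hs h => by rw [hApr s hs h]; exact hpL)
        exact rank_one_contra hpp g3 hAel hAcard (hg3.trans inf_le_left) hrank1

end Cfsg.Agent.Lib.Helper30.BG134
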