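import Mathlib
import Cfsg.Agent.Lib.Helper30.BG134CaseA
import Cfsg.Agent.H40.BG134B2B
import Cfsg.Agent.H29.BG134LR
import Cfsg.Agent.H31.BG1216D1
import Cfsg.Agent.H76.BG10x

set_option autoImplicit false

/-!
# Bender–Glauberman Theorem 13.4 (S1428): piece B3B (helper30)
-/

namespace Cfsg.Agent.Lib.Helper30.BG134

open Cfsg Subgroup Cfsg.Agent.H58.BG10 Cfsg.Agent.H57.BG12 Cfsg.Agent.H76.BG12
  Cfsg.Agent.H47.BG12 Cfsg.Agent.Lib.Helper30.BG12T
open scoped Pointwise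

universe u

variable {G : Type u} [Group G]

/-- For `q ∈ σ(H)` the index of `H` is prime to `q`. -/
theorem not_dvd_index_of_sigma [Finite G] {H : Subgroup G} {q : ℕ} [Fact q.Prime]
    (hq : q ∈ sigma H) : ¬ q ∣ H.index := by
  obtain ⟨-, -, PH, hN⟩ := hq
  obtain ⟨T, hT⟩ := Cfsg.Agent.H31.BG8.sylow_of_normalizer_le PH hN
  have hTH : (T : Subgroup G) ≤ H := by
    rw [hT]
    exact Subgroup.map_subtype_le _
  intro h
  exact T.not_dvd_index (h.trans (Subgroup.index_dvd_of_le hTH))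

/-- (B3B). -/
theorem b3b [Finite G] (hG : IsMinSimpleOddOrder G) (h03 : St1403 G) (h05 : St1405 G)
    (h50 : St1350 G) (hT : StSigComm G) (h24 : St1424 G) (hD1 : StEmbD1 G)
    (hHA : StHallAlpha G) (hF : StAlphaFrat G) : StB3b G := by
  intro M E H P R Q1 p r q c hqσ hr1 huniq
  haveI : Fact q.Prime := ⟨c.hq⟩
  haveI : Fact r.Prime := ⟨c.hr⟩
  have hEM : E ≤ M := c.hE.1
  have hσM : sigmaCore M ≤ M := c.hE.2.1
  have hQ1M : Q1 ≤ M := c.hQ1M.trans hσM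
  have hHM : H ≠ M := by
    intro h
    apply c.hnc 1
    rw [h, Cfsg.Agent.H63.Sig.map_conj_eq_smul, Cfsg.Agent.H63.Sig.cj_one]
  -- `N_G(Q1) ≤ H`
  have hQ1top : Q1 ≠ ⊤ := fun h => c.hM.1 (top_le_iff.mp (h ▸ hQ1M))
  have hNtop : normalizer (Q1 : Set G) ≠ ⊤ :=
    Cfsg.Agent.H51.BG10.normalizer_ne_top_of_ne hG c.hQ1 hQ1top
  have hNQ : normalizer (Q1 : Set G) ≤ H := by
    obtain ⟨L, hL, hNL⟩ := (eq_top_or_exists_le_coatom _).resolve_left hNtop
    have hLH : L = H := huniq L hL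
      (inf_le_right.trans ((Cfsg.Agent.Lib.Helper30.centralizer_le_normalizer' Q1).trans hNL))
    rw [← hLH]
    exact hNL
  -- the Sylow subgroup `S`
  obtain ⟨S, hQ1S⟩ := exists_sylow_ge c.hQ1q (le_inf hQ1M c.hQ1H)
  obtain ⟨-, -, h3⟩ := h24 M c.hM q c.hqM Q1 c.hQ1q c.hQ1 hQ1M H c.hH hHM hNQ S hQ1S
  have hSq : IsPGroup q ((S : Subgroup ↥(M ⊓ H)).map (M ⊓ H).subtype) := S.2.map _
  have hSM : (S : Subgroup ↥(M ⊓ H)).map (M ⊓ H).subtype ≤ M :=
    (Subgroup.map_subtype_le _).trans inf_le_left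
  have hSH : (S : Subgroup ↥(M ⊓ H)).map (M ⊓ H).subtype ≤ H :=
    (Subgroup.map_subtype_le _).trans inf_le_right
  have hSidx : ¬ q ∣ ((S : Subgroup ↥(M ⊓ H)).map (M ⊓ H).subtype).index := by
    rw [← Subgroup.relIndex_mul_index hSH]
    intro h
    rcases (Nat.Prime.dvd_mul c.hq).mp h with h | h
    · exact h3 h
    · exact not_dvd_index_of_sigma hqσ h
  have hNSH : normalizer (((S : Subgroup ↥(M ⊓ H)).map (M ⊓ H).subtype : Subgroup G) : Set G) ≤ H :=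
    Cfsg.Agent.H37.BG12.normalizer_le_of_mem_sigma hqσ hSH hSq hSidx
  have hSrelM : ¬ q ∣ ((S : Subgroup ↥(M ⊓ H)).map (M ⊓ H).subtype).relIndex M := fun h =>
    hSidx (h.trans (Subgroup.relIndex_dvd_index_of_le hSM))
  have hfac := hD1 H M c.hM q c.hqM _ hSq hSM hSrelM hNSH
  -- primes of `M_α`
  have hαpr : ∀ s : ℕ, s.Prime → s ∣ Nat.card (alphaCore M) → s ∈ alpha M := (h05 M c.hM).1.2.1
  have hαHpr : ∀ s : ℕ, s.Prime → s ∣ Nat.card (alphaCore H) → s ∈ alpha H := (h05 H c.hH).1.2.1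
  have hrαM : r ∉ alpha M := fun h => c.hrM (alpha_subset_sigma hG h03 c.hM h)
  have hMnorm : M ≤ normalizer (alphaCore M : Set G) :=
    Cfsg.Agent.Lib.Helper30.le_normalizer_piCoreOf (alpha M) M
  have hHnorm : H ≤ normalizer (alphaCore H : Set G) :=
    Cfsg.Agent.Lib.Helper30.le_normalizer_piCoreOf (alpha H) H
  have hnoconj : ∀ s : ℕ, s ∈ alpha M → s ∈ sigma H → False := by
    intro s hs1 hs2
    obtain ⟨g, hg⟩ := Cfsg.Agent.H92.BG12.conj_of_alpha_sigma hG h03 c.hM c.hH hs1 hs2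
    exact (not_conj_smul c.hnc).2 g hg
  refine ⟨⟨c.hr, c.hrM, ?_, ?_, ?_⟩, ?_, ?_, ?_⟩
  · -- `r ∣ |M|`
    rw [← c.hR]
    exact Subgroup.card_dvd_of_le (c.hRE.trans hEM)
  · -- `r ∤ |M'|`
    intro hrM'
    have h1 : r ∣ Nat.card ↥⁅H ⊓ M, H ⊓ M⁆ :=
      Cfsg.Agent.H40.BG134.der hMnorm inf_le_right hfac c.hr
        (fun h => hrαM (hαpr r c.hr h)) hrM'
    exact hr1.2.2.2.1 (h1.trans (Subgroup.card_dvd_of_le
      (Subgroup.commutator_mono inf_le_left inf_le_left)))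
  · -- `M` has `r`-rank `1`
    by_contra hrk
    obtain ⟨B, hBM, hBc, hBr, hBcard⟩ := Cfsg.Agent.H31.T2.exists_elementary_of_not_pRankLE hrk
    have hBel : IsElementaryAbelian r B :=
      ⟨⟨⟨fun a b => Subtype.ext (hBc a a.2 b b.2)⟩⟩, hBr⟩
    have hBp : IsPGroup r B := fun g => ⟨1, Subtype.ext (by simpa using hBr g g.2)⟩
    obtain ⟨g, -, hg⟩ := hHA M c.hM (H ⊓ M) inf_le_right hfac B hBM (by
      intro s hs hsd
      obtain ⟨n, hn⟩ := hBp.exists_card_eq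
      rw [hn] at hsd
      rw [(Nat.prime_dvd_prime_iff_eq hs c.hr).mp (hs.dvd_of_dvd_pow hsd)]
      exact hrαM)
    refine Cfsg.Agent.H31.BG8.not_pRankLE_of_le (hg.trans inf_le_left)
      (Cfsg.Agent.H31.BG9.isElementaryAbelian_map (MulAut.conj g).toMonoidHom hBel) ?_
      hr1.2.2.2.2
    exact lt_of_lt_of_eq hBcard (Cfsg.Agent.H63.Sig.card_cj g B).symm
  · -- `M_α ≠ 1`
    intro hα
    have hMH : M ≤ H := by
      intro m hm
      obtain ⟨a, ha, n, hn, rfl⟩ := hfac m hm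
      rw [hα, Subgroup.mem_bot] at ha
      rw [ha, one_mul]
      exact hn.1
    exact c.hH.1 (c.hM.2 H (lt_of_le_of_ne hMH (Ne.symm hHM)))
  · exact inf_le_right.trans ((Cfsg.Agent.Lib.Helper30.centralizer_le_normalizer' Q1).trans hNQ)
  · -- `M_α ∩ H ≤ C(Q1)`
    rintro x ⟨hxα, hxH⟩
    rw [mem_centralizer_iff]
    intro s hs
    have hSc : (S : Subgroup ↥(M ⊓ H)).map (M ⊓ H).subtype ≤ ⁅H, H⁆ :=
      (Cfsg.Agent.H92.BG12.le_sigmaCore_of_mem h50 c.hH hqσ hSq hSH).trans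
        (Cfsg.Agent.H76.BG10.sigmaCore_le_commutator hT H c.hH)
    obtain ⟨a, ha, n, hn, hxan⟩ := hF H c.hH q _ hSq hSH h3 hSc x hxH
    have hsS : s ∈ (S : Subgroup ↥(M ⊓ H)).map (M ⊓ H).subtype := hQ1S hs
    have hns : n * s * n⁻¹ ∈ (S : Subgroup ↥(M ⊓ H)).map (M ⊓ H).subtype :=
      (mem_normalizer_iff.mp hn.2 s).mp hsS
    -- the commutator
    have hy1 : x * s * x⁻¹ * s⁻¹ ∈ alphaCore M := by
      have h1 : s * x⁻¹ * s⁻¹ ∈ alphaCore M :=
        (mem_normalizer_iff.mp (hMnorm (hQ1M hs)) x⁻¹).mp (inv_mem hxα)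
      have h2 : x * s * x⁻¹ * s⁻¹ = x * (s * x⁻¹ * s⁻¹) := by group
      rw [h2]
      exact mul_mem hxα h1
    have hy2 : x * s * x⁻¹ * s⁻¹ ∈
        alphaCore H ⊔ (S : Subgroup ↥(M ⊓ H)).map (M ⊓ H).subtype := by
      have h2 : x * s * x⁻¹ * s⁻¹ = a * (n * s * n⁻¹) * a⁻¹ * s⁻¹ := by
        rw [hxan]
        group
      rw [h2]
      exact mul_mem (mul_mem (mul_mem (mem_sup_left ha) (mem_sup_right hns))
        (inv_mem (mem_sup_left ha))) (inv_mem (mem_sup_right hsS))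
    have hy : x * s * x⁻¹ * s⁻¹ = 1 := by
      by_contra hne
      have hord : orderOf (x * s * x⁻¹ * s⁻¹) ≠ 1 := fun h => hne (orderOf_eq_one_iff.mp h)
      obtain ⟨t, ht, htd⟩ := Nat.exists_prime_and_dvd hord
      have h1 : t ∣ Nat.card (alphaCore M) :=
        htd.trans (Subgroup.orderOf_dvd_natCard _ hy1)
      have h2 : t ∣ Nat.card (alphaCore H) *
          Nat.card ((S : Subgroup ↥(M ⊓ H)).map (M ⊓ H).subtype) :=
        (htd.trans (Subgroup.orderOf_dvd_natCard _ hy2)).trans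
          (Cfsg.Agent.H58.card_sup_dvd (hSH.trans hHnorm))
      have htM : t ∈ alpha M := hαpr t ht h1
      rcases (Nat.Prime.dvd_mul ht).mp h2 with h4 | h4
      · exact hnoconj t htM (alpha_subset_sigma hG h03 c.hH (hαHpr t ht h4))
      · obtain ⟨k, hk⟩ := hSq.exists_card_eq
        rw [hk] at h4
        have htq : t = q := (Nat.prime_dvd_prime_iff_eq ht c.hq).mp (ht.dvd_of_dvd_pow h4)
        exact hnoconj q (htq ▸ htM) hqσ
    have h5 : x * s = s * x := by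
      have h6 : x * s = (x * s * x⁻¹ * s⁻¹) * (s * x) := by group
      rw [h6, hy, one_mul]
    exact h5.symm

end Cfsg.Agent.Lib.Helper30.BG134
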