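import Mathlib

/-!
helper30 (for helper42, S5949 EL-COUNT): the number of `m`-dimensional subspaces of `F^n` over a
finite field, via counting linearly independent `m`-tuples by their span, and two
non-divisibility consequences.
-/

set_option autoImplicit false

namespace Cfsg.Agent.Lib.Helper30.El

/-- Linearly independent `m`-tuples with span `W` are the linearly independent `m`-tuples of `W`
(when `W` has dimension `m`). -/
noncomputable def fibreEquiv {F : Type*} [Field F] {V : Type*} [AddCommGroup V] [Module F V]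
    [FiniteDimensional F V] (m : ℕ) (W : Submodule F V) (hW : Module.finrank F W = m) :
    {s : {s : Fin m → V // LinearIndependent F s} // Submodule.span F (Set.range s.1) = W} ≃
      {t : Fin m → W // LinearIndependent F t} where
  toFun s := ⟨fun i => ⟨s.1.1 i, by
      have h : s.1.1 i ∈ Submodule.span F (Set.range s.1.1) := Submodule.subset_span ⟨i, rfl⟩
      rw [s.2] at h
      exact h⟩, by
    have h := s.1.2
    apply LinearIndependent.of_comp W.subtype
    exact h⟩
  invFun t := ⟨⟨fun i => (t.1 i : V), by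
      have h := t.2.map' W.subtype (Submodule.ker_subtype W)
      exact h⟩, by
      have h1 : Submodule.span F (Set.range t.1) = ⊤ :=
        t.2.span_eq_top_of_card_eq_finrank' (by rw [Fintype.card_fin, hW])
      show Submodule.span F (Set.range (W.subtype ∘ t.1)) = W
      rw [Set.range_comp, ← Submodule.map_span, h1, Submodule.map_subtype_top]⟩
  left_inv s := by
    apply Subtype.ext
    apply Subtype.ext
    rfl
  right_inv t := by
    apply Subtype.ext
    rfl

theorem card_subspaces_mul {F : Type*} [Field F] [Fintype F] (n m : ℕ) (hm : m ≤ n) :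
    Nat.card {W : Submodule F (Fin n → F) // Module.finrank F W = m} *
        ∏ j ∈ Finset.range m, (Fintype.card F ^ m - Fintype.card F ^ j) =
      ∏ j ∈ Finset.range m, (Fintype.card F ^ n - Fintype.card F ^ j) := by
  classical
  have hV : Module.finrank F (Fin n → F) = n := Module.finrank_fin_fun F
  have h1 : Nat.card {s : Fin m → (Fin n → F) // LinearIndependent F s} =
      ∏ j ∈ Finset.range m, (Fintype.card F ^ n - Fintype.card F ^ j) := by
    rw [card_linearIndependent (by rw [hV]; exact hm), hV]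
    exact Fin.prod_univ_eq_prod_range (fun j => Fintype.card F ^ n - Fintype.card F ^ j) m
  rw [← h1]
  let f : {s : Fin m → (Fin n → F) // LinearIndependent F s} →
      {W : Submodule F (Fin n → F) // Module.finrank F W = m} :=
    fun s => ⟨Submodule.span F (Set.range s.1), by rw [finrank_span_eq_card s.2, Fintype.card_fin]⟩
  have h2 : ∀ W : {W : Submodule F (Fin n → F) // Module.finrank F W = m},
      Nat.card {s // f s = W} =
        ∏ j ∈ Finset.range m, (Fintype.card F ^ m - Fintype.card F ^ j) := by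
    intro W
    have e : {s // f s = W} ≃ {t : Fin m → W.1 // LinearIndependent F t} :=
      (Equiv.subtypeEquivRight (fun s => by
        show f s = W ↔ Submodule.span F (Set.range s.1) = W.1
        exact Subtype.ext_iff)).trans (fibreEquiv m W.1 W.2)
    rw [Nat.card_congr e, card_linearIndependent (by rw [W.2]), W.2]
    exact Fin.prod_univ_eq_prod_range (fun j => Fintype.card F ^ m - Fintype.card F ^ j) m
  let inst : Fintype {W : Submodule F (Fin n → F) // Module.finrank F W = m} := Fintype.ofFinite _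
  rw [← Nat.card_congr (Equiv.sigmaFiberEquiv f), Nat.card_sigma]
  simp_rw [h2]
  rw [Finset.sum_const, Finset.card_univ, smul_eq_mul, Nat.card_eq_fintype_card]

theorem pow_sub_pow_eq (q k j : ℕ) (hjk : j ≤ k) :
    q ^ k - q ^ j = q ^ j * (q ^ (k - j) - 1) := by
  rw [Nat.mul_sub, mul_one, ← pow_add, Nat.add_sub_cancel' hjk]

theorem prod_fac (q k m : ℕ) (hmk : m ≤ k) :
    ∏ j ∈ Finset.range m, (q ^ k - q ^ j) =
      (∏ j ∈ Finset.range m, q ^ j) * ∏ j ∈ Finset.range m, (q ^ (k - j) - 1) := by
  rw [← Finset.prod_mul_distrib]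
  apply Finset.prod_congr rfl
  intro j hj
  exact pow_sub_pow_eq q k j (le_trans (le_of_lt (Finset.mem_range.1 hj)) hmk)

theorem not_dvd_card_subspaces_char {F : Type*} [Field F] [Fintype F] (p : ℕ) [Fact p.Prime]
    [CharP F p] (n m : ℕ) (hm : m ≤ n) :
    ¬ p ∣ Nat.card {W : Submodule F (Fin n → F) // Module.finrank F W = m} := by
  intro hp
  have hpp : p.Prime := Fact.out
  obtain ⟨k, -, hq⟩ := FiniteField.card F p
  have hpq : p ∣ Fintype.card F := by
    rw [hq]
    exact dvd_pow_self p k.ne_zero
  have hq0 : 0 < Fintype.card F := Fintype.card_pos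
  have h := card_subspaces_mul (F := F) n m hm
  rw [prod_fac _ m m le_rfl, prod_fac _ n m hm, ← mul_assoc,
    mul_comm (Nat.card _), mul_assoc] at h
  have hQ : 0 < ∏ j ∈ Finset.range m, Fintype.card F ^ j :=
    Finset.prod_pos (fun j _ => pow_pos hq0 j)
  have h' := Nat.eq_of_mul_eq_mul_left hQ h
  have h3 : p ∣ ∏ j ∈ Finset.range m, (Fintype.card F ^ (n - j) - 1) := by
    rw [← h']
    exact Dvd.dvd.mul_right hp _
  obtain ⟨j, hj, hdvd⟩ := (Prime.dvd_finsetProd_iff hpp.prime _).1 h3
  have hj' : j < m := Finset.mem_range.1 hj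
  have h4 : p ∣ Fintype.card F ^ (n - j) := dvd_pow hpq (by omega)
  have h5 : 1 ≤ Fintype.card F ^ (n - j) := Nat.one_le_pow _ _ hq0
  have h6 : p ∣ 1 := by
    have h7 := Nat.dvd_sub h4 hdvd
    rwa [Nat.sub_sub_self h5] at h7
  exact hpp.one_lt.ne' (Nat.dvd_one.1 h6)

theorem not_dvd_card_subspaces_of_le_mod {F : Type*} [Field F] [Fintype F] (r : ℕ) (hr : r.Prime)
    (hrF : (r : F) ≠ 0) (n m : ℕ) (hm : m ≤ n % orderOf (Fintype.card F : ZMod r)) :
    ¬ r ∣ Nat.card {W : Submodule F (Fin n → F) // Module.finrank F W = m} := by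
  intro hdvd
  obtain ⟨i, hi⟩ : ∃ i, i = orderOf (Fintype.card F : ZMod r) := ⟨_, rfl⟩
  rw [← hi] at hm
  have hmn : m ≤ n := le_trans hm (Nat.mod_le n i)
  have hq0 : 0 < Fintype.card F := Fintype.card_pos
  have hrq : ¬ r ∣ Fintype.card F := by
    intro h
    obtain ⟨p, hp⟩ := CharP.exists F
    have hpp : p.Prime := CharP.char_is_prime F p
    obtain ⟨k, -, hq⟩ := FiniteField.card F p
    rw [hq] at h
    have e : r = p := (Nat.prime_dvd_prime_iff_eq hr hpp).1 (hr.dvd_of_dvd_pow h)
    apply hrF
    rw [e]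
    exact CharP.cast_eq_zero F p
  have h := card_subspaces_mul (F := F) n m hmn
  have h3 : r ∣ ∏ j ∈ Finset.range m, (Fintype.card F ^ n - Fintype.card F ^ j) := by
    rw [← h]
    exact Dvd.dvd.mul_right hdvd _
  obtain ⟨j, hj, hd⟩ := (Prime.dvd_finsetProd_iff hr.prime _).1 h3
  have hj' : j < m := Finset.mem_range.1 hj
  rw [pow_sub_pow_eq _ n j (by omega)] at hd
  rcases (Nat.Prime.dvd_mul hr).1 hd with h4 | h4
  · exact hrq (hr.dvd_of_dvd_pow h4)
  · have h5 : 1 ≤ Fintype.card F ^ (n - j) := Nat.one_le_pow _ _ hq0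
    have h6 : (Fintype.card F : ZMod r) ^ (n - j) = 1 := by
      have h7 := (ZMod.natCast_eq_zero_iff _ r).2 h4
      rw [Nat.cast_sub h5, Nat.cast_pow, Nat.cast_one, sub_eq_zero] at h7
      exact h7
    have h7 : i ∣ n - j := by
      rw [hi]
      exact orderOf_dvd_of_pow_eq_one h6
    have h8 : i * (n / i) + n % i = n := Nat.div_add_mod n i
    obtain ⟨A, hA⟩ : ∃ A, i * (n / i) = A := ⟨_, rfl⟩
    obtain ⟨B, hB⟩ : ∃ B, n % i = B := ⟨_, rfl⟩
    rw [hA, hB] at h8
    rw [hB] at hm
    have e : n - j = A + (B - j) := by omega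
    rw [e, ← hA] at h7
    have h10 : i ∣ B - j := (Nat.dvd_add_right (dvd_mul_right i _)).1 h7
    by_cases hi0 : i = 0
    · rw [hi0] at h10
      have := Nat.eq_zero_of_zero_dvd h10
      omega
    · have h11 : B < i := by
        rw [← hB]
        exact Nat.mod_lt n (Nat.pos_of_ne_zero hi0)
      have h12 : i ≤ B - j := Nat.le_of_dvd (by omega) h10
      omega

end Cfsg.Agent.Lib.Helper30.El
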