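import Mathlib
import Cfsg.Agent.H45.D4Defs
import Cfsg.Agent.H49.CD
import Cfsg.Agent.H49.CD2
import Cfsg.Agent.H49.OmegaGen
import Cfsg.Agent.H49.SimpleForms

/-!
# S1082 P-CD (helper30, for helper45): `Ω ≤ ⟨Siegel elements⟩` for the plus type form over an
ARBITRARY field.

The characteristic two part of the Cartan–Dieudonné theorem is helper49's proof
(`Cfsg/Agent/H49/CD2.lean`) with the finiteness hypothesis removed: it was only used to
exclude the four-dimensional spaces over the field of two elements.
-/

set_option autoImplicit false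
set_option linter.unusedSectionVars false
set_option linter.unusedVariables false

namespace Cfsg.Agent.Lib.Helper30.D4

open Module Matrix Cfsg.Agent.H49

section
variable {ι : Type} [Fintype ι] [DecidableEq ι] {F : Type*} [Field F]

/-- First step of the characteristic-two induction: two vectors of the same non-zero norm in
the orthogonal complement of a non-degenerate subspace `W` are interchanged by a product of
reflections fixing `W` pointwise. -/
theorem cd2_step1_inf (Q : QuadraticForm F (ι → F)) (h2 : (2 : F) = 0)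
    (hQ : (QuadraticMap.polarBilin Q).Nondegenerate) {m : ℕ} (hV : finrank F (ι → F) = 2 * m)
    (hm : m ≠ 2) (W : Submodule F (ι → F))
    (hW : W ⊓ LinearMap.BilinForm.orthogonal (QuadraticMap.polarBilin Q) W = ⊥)
    (a b : ι → F) (ha : a ∈ LinearMap.BilinForm.orthogonal (QuadraticMap.polarBilin Q) W)
    (hb : b ∈ LinearMap.BilinForm.orthogonal (QuadraticMap.polarBilin Q) W)
    (hab : Q b = Q a) (hQa : Q a ≠ 0) :
    ∃ h : ↥(Cfsg.isometryGroup F (⇑Q)), h ∈ Subgroup.closure (reflSet Q) ∧
      ((h : Matrix.GeneralLinearGroup ι F) : Matrix ι ι F) *ᵥ b = a ∧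
      ∀ w ∈ W, ((h : Matrix.GeneralLinearGroup ι F) : Matrix ι ι F) *ᵥ w = w := by
  have hmemW : ∀ c, c ∈ LinearMap.BilinForm.orthogonal (QuadraticMap.polarBilin Q) W →
      ∀ w ∈ W, QuadraticMap.polar (⇑Q) c w = 0 := by
    intro c hc w hw
    rw [QuadraticMap.polar_comm]
    exact (LinearMap.BilinForm.mem_orthogonal_iff.mp hc) w hw
  have haW := hmemW a ha
  have hbW := hmemW b hb
  have h2a : Q a + Q a = 0 := by linear_combination (Q a) * h2
  by_cases hpol : QuadraticMap.polar (⇑Q) a b = 0
  swap
  · have hne : Q (b - a) ≠ 0 := by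
      rw [Q_sub', hab, QuadraticMap.polar_comm]
      have : Q a + Q a - QuadraticMap.polar (⇑Q) a b = -QuadraticMap.polar (⇑Q) a b := by
        rw [h2a]; ring
      rw [this]
      exact neg_ne_zero.mpr hpol
    refine ⟨reflG Q (b - a), Subgroup.subset_closure ⟨b - a, hne, rfl⟩, ?_, ?_⟩
    · rw [reflG_coe]
      exact reflection_map Q b a hab hne
    · intro w hw
      rw [reflG_coe, reflectionMatrix_mulVec, QuadraticMap.polar_sub_left, haW w hw, hbW w hw]
      simp
  by_cases heq : a = b
  · refine ⟨1, one_mem _, ?_, ?_⟩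
    · show (1 : Matrix ι ι F) *ᵥ b = a
      rw [Matrix.one_mulVec, heq]
    · intro w _
      show (1 : Matrix ι ι F) *ᵥ w = w
      rw [Matrix.one_mulVec]
  have hba : QuadraticMap.polar (⇑Q) b a = 0 := by rw [QuadraticMap.polar_comm]; exact hpol
  have haa : QuadraticMap.polar (⇑Q) a a = 0 := polar_self_two Q h2 a
  have hbb : QuadraticMap.polar (⇑Q) b b = 0 := polar_self_two Q h2 b
  have ha0 : a ≠ 0 := by
    rintro rfl; exact hQa (QuadraticMap.map_zero Q)
  have hb0 : b ≠ 0 := by
    rintro rfl; rw [QuadraticMap.map_zero] at hab; exact hQa hab.symm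
  -- a vector pairing non-trivially with both `a` and `b`
  have hexa : ∀ c, c ∈ LinearMap.BilinForm.orthogonal (QuadraticMap.polarBilin Q) W → c ≠ 0 →
      ∃ t ∈ LinearMap.BilinForm.orthogonal (QuadraticMap.polarBilin Q) W,
        QuadraticMap.polar (⇑Q) c t ≠ 0 := by
    intro c hc hc0
    by_contra hcon
    push Not at hcon
    apply hc0
    have h1 : c ∈ LinearMap.BilinForm.orthogonal (QuadraticMap.polarBilin Q)
        (LinearMap.BilinForm.orthogonal (QuadraticMap.polarBilin Q) W) := by
      rw [LinearMap.BilinForm.mem_orthogonal_iff]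
      intro n hn
      show QuadraticMap.polar (⇑Q) n c = 0
      rw [QuadraticMap.polar_comm]
      exact hcon n hn
    rw [LinearMap.BilinForm.orthogonal_orthogonal hQ (polarBilin_isRefl Q)] at h1
    have : c ∈ W ⊓ LinearMap.BilinForm.orthogonal (QuadraticMap.polarBilin Q) W := ⟨h1, hc⟩
    rw [hW] at this
    exact this
  obtain ⟨ta, hta, hta'⟩ := hexa a ha ha0
  obtain ⟨tb, htb, htb'⟩ := hexa b hb hb0
  obtain ⟨u, hu, hua, hub⟩ : ∃ u ∈ LinearMap.BilinForm.orthogonal (QuadraticMap.polarBilin Q) W,
      QuadraticMap.polar (⇑Q) a u ≠ 0 ∧ QuadraticMap.polar (⇑Q) b u ≠ 0 := by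
    by_cases h1 : QuadraticMap.polar (⇑Q) b ta = 0
    · by_cases h3 : QuadraticMap.polar (⇑Q) a tb = 0
      · refine ⟨ta + tb, Submodule.add_mem _ hta htb, ?_, ?_⟩
        · rw [QuadraticMap.polar_add_right, h3, add_zero]; exact hta'
        · rw [QuadraticMap.polar_add_right, h1, zero_add]; exact htb'
      · exact ⟨tb, htb, h3, htb'⟩
    · exact ⟨ta, hta, hta', h1⟩
  by_cases hc : ∃ c ∈ LinearMap.BilinForm.orthogonal (QuadraticMap.polarBilin Q) W,
      Q c ≠ 0 ∧ QuadraticMap.polar (⇑Q) a c ≠ 0 ∧ QuadraticMap.polar (⇑Q) b c ≠ 0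
  · obtain ⟨c, hcW, hQc, hca, hcb⟩ := hc
    set z := Cfsg.reflectionMatrix (⇑Q) c *ᵥ a with hz
    set μ := (Q c)⁻¹ * QuadraticMap.polar (⇑Q) c a with hμ
    have hμ0 : μ ≠ 0 := by
      rw [hμ, QuadraticMap.polar_comm]
      exact mul_ne_zero (inv_ne_zero hQc) hca
    have hzeq : z = a - μ • c := by
      rw [hz, reflectionMatrix_mulVec]
    have hQz : Q z = Q a := reflection_isometry Q c a
    have hrz : Cfsg.reflectionMatrix (⇑Q) c *ᵥ z = a := by
      rw [hz, Matrix.mulVec_mulVec, reflectionMatrix_mul_self, Matrix.one_mulVec]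
    have hzb : QuadraticMap.polar (⇑Q) b z = -(μ * QuadraticMap.polar (⇑Q) b c) := by
      rw [hzeq, QuadraticMap.polar_sub_right, QuadraticMap.polar_smul_right, hba]
      simp
    have hne : Q (b - z) ≠ 0 := by
      rw [Q_sub', hab, hQz, hzb]
      have : Q a + Q a - -(μ * QuadraticMap.polar (⇑Q) b c)
          = μ * QuadraticMap.polar (⇑Q) b c := by rw [h2a]; ring
      rw [this]
      exact mul_ne_zero hμ0 hcb
    refine ⟨reflG Q c * reflG Q (b - z), ?_, ?_, ?_⟩
    · exact mul_mem (Subgroup.subset_closure ⟨c, hQc, rfl⟩)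
        (Subgroup.subset_closure ⟨b - z, hne, rfl⟩)
    · rw [coe_mul_mulVec, reflG_coe, reflG_coe, reflection_map Q b z (hab.trans hQz.symm) hne,
        hrz]
    · intro w hw
      apply double_refl_fix
      · exact hmemW c hcW w hw
      · rw [QuadraticMap.polar_sub_left, hbW w hw, hzeq, QuadraticMap.polar_sub_left,
          QuadraticMap.polar_smul_left, haW w hw, hmemW c hcW w hw]
        simp
  · push Not at hc
    have hQ0 : ∀ c ∈ LinearMap.BilinForm.orthogonal (QuadraticMap.polarBilin Q) W,
        QuadraticMap.polar (⇑Q) a c ≠ 0 → QuadraticMap.polar (⇑Q) b c ≠ 0 → Q c = 0 := by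
      intro c hc1 hc2 hc3
      by_contra hne
      exact hc3 (hc c hc1 hne hc2)
    have hα : ∀ α : F, Q (u + α • a) = 0 := by
      intro α
      apply hQ0 _ (Submodule.add_mem _ hu (Submodule.smul_mem _ α ha))
      · rw [QuadraticMap.polar_add_right, QuadraticMap.polar_smul_right, haa, smul_zero,
          add_zero]
        exact hua
      · rw [QuadraticMap.polar_add_right, QuadraticMap.polar_smul_right, hba, smul_zero,
          add_zero]
        exact hub
    have hQu : Q u = 0 := by
      have := hα 0
      simpa using this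
    have hα' : ∀ α : F, α ≠ 0 → α * Q a + QuadraticMap.polar (⇑Q) u a = 0 := by
      intro α hα0
      have h3 := hα α
      rw [Q_add', hQu, QuadraticMap.map_smul, QuadraticMap.polar_smul_right] at h3
      simp only [smul_eq_mul, zero_add] at h3
      have h4 : α * (α * Q a + QuadraticMap.polar (⇑Q) u a) = 0 := by linear_combination h3
      exact (mul_eq_zero.mp h4).resolve_left hα0
    have hunit : ∀ α : F, α ≠ 0 → α = 1 := by
      intro α hα0
      have h3 := hα' α hα0
      have h4 := hα' 1 one_ne_zero
      have h5 : (α - 1) * Q a = 0 := by linear_combination h3 - h4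
      have := (mul_eq_zero.mp h5).resolve_right hQa
      linear_combination this
    obtain ⟨s, hsdef⟩ : ∃ s : ι → F, s = a + b := ⟨_, rfl⟩
    have hs0 : s ≠ 0 := by
      intro hs
      apply heq
      have h3 := two_smul_eq_zero h2 a
      rw [hsdef] at hs
      exact (add_left_cancel (hs.trans h3.symm)).symm
    have hQs : Q s = 0 := by
      rw [hsdef, Q_add', hab, hpol, add_zero]; exact h2a
    have hsW : s ∈ LinearMap.BilinForm.orthogonal (QuadraticMap.polarBilin Q) W := by
      rw [hsdef]; exact Submodule.add_mem _ ha hb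
    have has : QuadraticMap.polar (⇑Q) a s = 0 := by
      rw [hsdef, QuadraticMap.polar_add_right, haa, hpol, add_zero]
    have hbs : QuadraticMap.polar (⇑Q) b s = 0 := by
      rw [hsdef, QuadraticMap.polar_add_right, hba, hbb, add_zero]
    have hus : QuadraticMap.polar (⇑Q) u s = 0 := by
      have h3 : Q (u + s) = 0 := by
        apply hQ0 _ (Submodule.add_mem _ hu hsW)
        · rw [QuadraticMap.polar_add_right, has, add_zero]; exact hua
        · rw [QuadraticMap.polar_add_right, hbs, add_zero]; exact hub
      rw [Q_add', hQu, hQs] at h3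
      simpa using h3
    have hsu : QuadraticMap.polar (⇑Q) s u = 0 := by rw [QuadraticMap.polar_comm]; exact hus
    have hub1 : QuadraticMap.polar (⇑Q) u b = 1 := by
      rw [QuadraticMap.polar_comm]; exact hunit _ hub
    obtain ⟨z, hQz, hzs, hzu⟩ : ∃ z : ι → F, Q z ≠ 0 ∧ QuadraticMap.polar (⇑Q) z s = 0 ∧
        QuadraticMap.polar (⇑Q) z u = 0 := by
      by_contra hcon
      push Not at hcon
      have hunot : u ∉ Submodule.span F {s} := by
        intro hmem
        obtain ⟨c, rfl⟩ := Submodule.mem_span_singleton.mp hmem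
        apply hua
        rw [QuadraticMap.polar_smul_right, has, smul_zero]
      have hKts : IsTS Q (Submodule.span F {s} ⊔ Submodule.span F {u}) := by
        intro x hx
        obtain ⟨x₁, hx₁, x₂, hx₂, rfl⟩ := Submodule.mem_sup.mp hx
        obtain ⟨c₁, rfl⟩ := Submodule.mem_span_singleton.mp hx₁
        obtain ⟨c₂, rfl⟩ := Submodule.mem_span_singleton.mp hx₂
        rw [Q_lin2, hQs, hQu, hsu]; ring
      have hdimK : finrank F (Submodule.span F {s} ⊔ Submodule.span F {u} :
          Submodule F (ι → F)) = 2 := by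
        rw [finrank_sup_span_singleton _ hunot, finrank_span_singleton hs0]
      have hT : IsTS Q (LinearMap.BilinForm.orthogonal (QuadraticMap.polarBilin Q)
          (Submodule.span F {s} ⊔ Submodule.span F {u})) := by
        intro x hx
        by_contra hne
        have h3 := (LinearMap.BilinForm.mem_orthogonal_iff.mp hx) s
          (Submodule.mem_sup_left (Submodule.mem_span_singleton_self s))
        have h4 := (LinearMap.BilinForm.mem_orthogonal_iff.mp hx) u
          (Submodule.mem_sup_right (Submodule.mem_span_singleton_self u))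
        apply hcon x hne
        · rw [QuadraticMap.polar_comm]; exact h3
        · rw [QuadraticMap.polar_comm]; exact h4
      have h3 := hKts.finrank_le hQ hV
      have h4 := hT.finrank_le hQ hV
      rw [LinearMap.BilinForm.finrank_orthogonal hQ, hV, hdimK] at h4
      omega
    have hz1 : Q z = 1 := hunit _ hQz
    refine ⟨siegelTwoG Q h2 s u hQs hQu hsu,
      siegelTwoG_mem_closure Q h2 s u z hQs hQu hsu hz1 hzs hzu, ?_, ?_⟩
    · rw [siegelTwoG_mulVec, hub1, QuadraticMap.polar_comm (⇑Q) s b, hbs, hsdef]
      funext k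
      simp only [Pi.add_apply, Pi.smul_apply, smul_eq_mul]
      linear_combination (b k) * h2
    · intro w hw
      rw [siegelTwoG_mulVec, hmemW u hu w hw, hmemW s hsW w hw]
      simp

/-- Cartan–Dieudonné in characteristic two (any field, dimension other than four): an isometry fixing a non-degenerate subspace pointwise is a product
of reflections. -/
theorem cd2_aux_inf (Q : QuadraticForm F (ι → F)) (h2 : (2 : F) = 0)
    (hQ : (QuadraticMap.polarBilin Q).Nondegenerate) {m : ℕ} (hV : finrank F (ι → F) = 2 * m)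
    (hm : m ≠ 2) :
    ∀ (k : ℕ) (W : Submodule F (ι → F)) (g : ↥(Cfsg.isometryGroup F (⇑Q))),
      W ⊓ LinearMap.BilinForm.orthogonal (QuadraticMap.polarBilin Q) W = ⊥ →
      finrank F (LinearMap.BilinForm.orthogonal (QuadraticMap.polarBilin Q) W) ≤ k →
      (∀ w ∈ W, ((g : Matrix.GeneralLinearGroup ι F) : Matrix ι ι F) *ᵥ w = w) →
      g ∈ Subgroup.closure (reflSet Q) := by
  have hbase : ∀ (W : Submodule F (ι → F)) (g : ↥(Cfsg.isometryGroup F (⇑Q))),
      LinearMap.BilinForm.orthogonal (QuadraticMap.polarBilin Q) W = ⊥ →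
      (∀ w ∈ W, ((g : Matrix.GeneralLinearGroup ι F) : Matrix ι ι F) *ᵥ w = w) →
      g ∈ Subgroup.closure (reflSet Q) := by
    intro W g hbot hfix
    have h1 := LinearMap.BilinForm.finrank_orthogonal hQ W
    rw [hbot, finrank_bot] at h1
    have h3 : finrank F W ≤ finrank F (ι → F) := Submodule.finrank_le W
    have hW : W = ⊤ := Submodule.eq_top_of_finrank_eq (by omega)
    have : g = 1 := by
      apply isometry_ext
      intro x
      rw [hfix x (hW ▸ Submodule.mem_top)]
      show x = (1 : Matrix ι ι F) *ᵥ x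
      rw [Matrix.one_mulVec]
    rw [this]
    exact one_mem _
  intro k
  induction k with
  | zero =>
    intro W g hW hk hfix
    exact hbase W g (Submodule.finrank_eq_zero.mp (Nat.le_zero.mp hk)) hfix
  | succ k ih =>
    intro W g hW hk hfix
    by_cases hbot : LinearMap.BilinForm.orthogonal (QuadraticMap.polarBilin Q) W = ⊥
    · exact hbase W g hbot hfix
    · have hmemW : ∀ c, c ∈ LinearMap.BilinForm.orthogonal (QuadraticMap.polarBilin Q) W →
          ∀ w ∈ W, QuadraticMap.polar (⇑Q) c w = 0 := by
        intro c hc w hw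
        rw [QuadraticMap.polar_comm]
        exact (LinearMap.BilinForm.mem_orthogonal_iff.mp hc) w hw
      obtain ⟨x, hxW, hx⟩ : ∃ v ∈ LinearMap.BilinForm.orthogonal (QuadraticMap.polarBilin Q) W,
          Q v ≠ 0 := by
        by_contra hcon
        push Not at hcon
        apply hbot
        have hts : IsTS Q (LinearMap.BilinForm.orthogonal (QuadraticMap.polarBilin Q) W) := hcon
        have h1 := hts.le_orthogonal
        rw [LinearMap.BilinForm.orthogonal_orthogonal hQ (polarBilin_isRefl Q)] at h1
        rw [eq_bot_iff, ← hW]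
        exact le_inf h1 le_rfl
      -- `g x` lies in the orthogonal complement of `W`
      have hgxW : ((g : Matrix.GeneralLinearGroup ι F) : Matrix ι ι F) *ᵥ x
          ∈ LinearMap.BilinForm.orthogonal (QuadraticMap.polarBilin Q) W := by
        rw [LinearMap.BilinForm.mem_orthogonal_iff]
        intro n hn
        show QuadraticMap.polar (⇑Q) n (((g : Matrix.GeneralLinearGroup ι F) : Matrix ι ι F) *ᵥ x)
          = 0
        have := isometry_polar Q g n x
        rw [hfix n hn] at this
        rw [this, QuadraticMap.polar_comm]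
        exact hmemW x hxW n hn
      obtain ⟨h₁, hh₁, hh₁x, hh₁W⟩ := cd2_step1_inf Q h2 hQ hV hm W hW x
        (((g : Matrix.GeneralLinearGroup ι F) : Matrix ι ι F) *ᵥ x) hxW hgxW
        (isometry_apply g x) hx
      -- the corrected isometry fixes `x` and `W`
      have hg₁x : (((h₁ * g : ↥(Cfsg.isometryGroup F (⇑Q))) : Matrix.GeneralLinearGroup ι F) :
          Matrix ι ι F) *ᵥ x = x := by
        rw [coe_mul_mulVec, hh₁x]
      have hg₁W : ∀ w ∈ W, (((h₁ * g : ↥(Cfsg.isometryGroup F (⇑Q))) :
          Matrix.GeneralLinearGroup ι F) : Matrix ι ι F) *ᵥ w = w := by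
        intro w hw
        rw [coe_mul_mulVec, hfix w hw, hh₁W w hw]
      -- a partner `y` of `x`
      have hxnotW : x ∉ W := by
        intro hxin
        have : x ∈ W ⊓ LinearMap.BilinForm.orthogonal (QuadraticMap.polarBilin Q) W :=
          ⟨hxin, hxW⟩
        rw [hW, Submodule.mem_bot] at this
        rw [this] at hx
        exact hx (QuadraticMap.map_zero Q)
      obtain ⟨y₀, hy₀W, hy₀⟩ : ∃ t ∈ LinearMap.BilinForm.orthogonal (QuadraticMap.polarBilin Q) W,
          QuadraticMap.polar (⇑Q) x t ≠ 0 := by
        by_contra hcon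
        push Not at hcon
        apply hxnotW
        have h1 : x ∈ LinearMap.BilinForm.orthogonal (QuadraticMap.polarBilin Q)
            (LinearMap.BilinForm.orthogonal (QuadraticMap.polarBilin Q) W) := by
          rw [LinearMap.BilinForm.mem_orthogonal_iff]
          intro n hn
          show QuadraticMap.polar (⇑Q) n x = 0
          rw [QuadraticMap.polar_comm]
          exact hcon n hn
        rwa [LinearMap.BilinForm.orthogonal_orthogonal hQ (polarBilin_isRefl Q)] at h1
      obtain ⟨y, hyW, hxy⟩ : ∃ y ∈ LinearMap.BilinForm.orthogonal (QuadraticMap.polarBilin Q) W,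
          QuadraticMap.polar (⇑Q) x y = 1 := by
        refine ⟨(QuadraticMap.polar (⇑Q) x y₀)⁻¹ • y₀, Submodule.smul_mem _ _ hy₀W, ?_⟩
        rw [QuadraticMap.polar_smul_right, smul_eq_mul, inv_mul_cancel₀ hy₀]
      obtain ⟨h₂, hh₂, hh₂x, hh₂y, hh₂fix⟩ := cd2_step2 Q h2 (h₁ * g) x y hx hg₁x hxy
      have hg₂x : (((h₂ * (h₁ * g) : ↥(Cfsg.isometryGroup F (⇑Q))) :
          Matrix.GeneralLinearGroup ι F) : Matrix ι ι F) *ᵥ x = x := by
        rw [coe_mul_mulVec, hg₁x, hh₂x]
      have hg₂y : (((h₂ * (h₁ * g) : ↥(Cfsg.isometryGroup F (⇑Q))) :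
          Matrix.GeneralLinearGroup ι F) : Matrix ι ι F) *ᵥ y = y := by
        rw [coe_mul_mulVec, hh₂y]
      have hg₂W : ∀ w ∈ W, (((h₂ * (h₁ * g) : ↥(Cfsg.isometryGroup F (⇑Q))) :
          Matrix.GeneralLinearGroup ι F) : Matrix ι ι F) *ᵥ w = w := by
        intro w hw
        rw [coe_mul_mulVec, hg₁W w hw]
        apply hh₂fix w (hmemW x hxW w hw) (hmemW y hyW w hw)
        have := isometry_polar Q (h₁ * g) y w
        rw [hg₁W w hw] at this
        rw [this]
        exact hmemW y hyW w hw
      have hxx : QuadraticMap.polar (⇑Q) x x = 0 := polar_self_two Q h2 x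
      have hyy : QuadraticMap.polar (⇑Q) y y = 0 := polar_self_two Q h2 y
      have hyx : QuadraticMap.polar (⇑Q) y x = 1 := by rw [QuadraticMap.polar_comm]; exact hxy
      have hynot : y ∉ W ⊔ Submodule.span F {x} := by
        intro hmem
        obtain ⟨w, hw, t, ht, rfl⟩ := Submodule.mem_sup.mp hmem
        obtain ⟨c, rfl⟩ := Submodule.mem_span_singleton.mp ht
        rw [QuadraticMap.polar_add_right, QuadraticMap.polar_smul_right, hmemW x hxW w hw, hxx]
          at hxy
        simp at hxy
      have hmem : h₂ * (h₁ * g) ∈ Subgroup.closure (reflSet Q) := by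
        apply ih (W ⊔ Submodule.span F {x} ⊔ Submodule.span F {y}) (h₂ * (h₁ * g))
        · rw [eq_bot_iff]
          intro v hv
          obtain ⟨hv1, hv2⟩ := Submodule.mem_inf.mp hv
          obtain ⟨v₁, hv₁, t₂, ht₂, rfl⟩ := Submodule.mem_sup.mp hv1
          obtain ⟨w, hw, t₁, ht₁, rfl⟩ := Submodule.mem_sup.mp hv₁
          obtain ⟨α, rfl⟩ := Submodule.mem_span_singleton.mp ht₁
          obtain ⟨β, rfl⟩ := Submodule.mem_span_singleton.mp ht₂
          have hxv := (LinearMap.BilinForm.mem_orthogonal_iff.mp hv2) x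
            (Submodule.mem_sup_left (Submodule.mem_sup_right
              (Submodule.mem_span_singleton_self x)))
          have hyv := (LinearMap.BilinForm.mem_orthogonal_iff.mp hv2) y
            (Submodule.mem_sup_right (Submodule.mem_span_singleton_self y))
          have hxv' : QuadraticMap.polar (⇑Q) x (w + α • x + β • y) = 0 := hxv
          have hyv' : QuadraticMap.polar (⇑Q) y (w + α • x + β • y) = 0 := hyv
          rw [QuadraticMap.polar_add_right, QuadraticMap.polar_add_right,
            QuadraticMap.polar_smul_right, QuadraticMap.polar_smul_right, hmemW x hxW w hw, hxx,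
            hxy] at hxv'
          rw [QuadraticMap.polar_add_right, QuadraticMap.polar_add_right,
            QuadraticMap.polar_smul_right, QuadraticMap.polar_smul_right, hmemW y hyW w hw, hyy,
            hyx] at hyv'
          have hβ : β = 0 := by simpa using hxv'
          have hα : α = 0 := by simpa using hyv'
          subst hα hβ
          simp only [zero_smul, add_zero] at hv2 ⊢
          have : w ∈ W ⊓ LinearMap.BilinForm.orthogonal (QuadraticMap.polarBilin Q) W :=
            ⟨hw, LinearMap.BilinForm.orthogonal_le (le_trans le_sup_left le_sup_left) hv2⟩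
          rw [hW] at this
          exact this
        · have e1 := LinearMap.BilinForm.finrank_orthogonal hQ W
          have e2 := LinearMap.BilinForm.finrank_orthogonal hQ
            (W ⊔ Submodule.span F {x} ⊔ Submodule.span F {y})
          have e3 := finrank_sup_span_singleton W hxnotW
          have e4 := finrank_sup_span_singleton (W ⊔ Submodule.span F {x}) hynot
          have e5 : finrank F (W ⊔ Submodule.span F {x} ⊔ Submodule.span F {y} :
              Submodule F (ι → F)) ≤ finrank F (ι → F) := Submodule.finrank_le _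
          omega
        · intro v hv
          obtain ⟨v₁, hv₁, t₂, ht₂, rfl⟩ := Submodule.mem_sup.mp hv
          obtain ⟨w, hw, t₁, ht₁, rfl⟩ := Submodule.mem_sup.mp hv₁
          obtain ⟨α, rfl⟩ := Submodule.mem_span_singleton.mp ht₁
          obtain ⟨β, rfl⟩ := Submodule.mem_span_singleton.mp ht₂
          rw [Matrix.mulVec_add, Matrix.mulVec_add, Matrix.mulVec_smul, Matrix.mulVec_smul,
            hg₂W w hw, hg₂x, hg₂y]
      have : g = h₁⁻¹ * (h₂⁻¹ * (h₂ * (h₁ * g))) := by group
      rw [this]
      exact mul_mem (inv_mem hh₁) (mul_mem (inv_mem hh₂) hmem)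

/-- Over any field of characteristic two, the orthogonal group of a non-degenerate
quadratic form in dimension `2 m`, `m ≠ 2`, is generated by reflections (orthogonal
transvections). -/
theorem closure_reflSet_eq_top_two_inf (Q : QuadraticForm F (ι → F)) (h2 : (2 : F) = 0)
    (hQ : (QuadraticMap.polarBilin Q).Nondegenerate) {m : ℕ} (hV : finrank F (ι → F) = 2 * m)
    (hm : m ≠ 2) :
    Subgroup.closure (reflSet Q) = ⊤ := by
  rw [eq_top_iff]
  intro g _
  apply cd2_aux_inf Q h2 hQ hV hm (finrank F (ι → F)) ⊥ g
  · simp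
  · exact Submodule.finrank_le _
  · intro w hw
    rw [Submodule.mem_bot] at hw
    rw [hw, Matrix.mulVec_zero]

end

section
variable {F : Type*} [Field F]

/-- Cartan–Dieudonné for the plus type form of Witt index at least three, over any field. -/
theorem closure_reflSet_QP_eq_top (m : ℕ) (hm : 3 ≤ m) :
    Subgroup.closure (reflSet (QP m F)) = ⊤ := by
  by_cases h2 : (2 : F) = 0
  · exact closure_reflSet_eq_top_two_inf (QP m F) h2 (QP_nondeg m F) (finrank_plus m F)
      (by omega)
  · exact closure_reflSet_eq_top (QP m F) h2 (QP_nondeg m F)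

/-- **S1082 P-CD**: `Ω` of the plus type form is contained in the subgroup generated by the
Siegel elements, over an arbitrary field. -/
theorem commutator_le_closure_siegelSet_QP (m : ℕ) (hm : 3 ≤ m) :
    commutator ↥(Cfsg.isometryGroup F (⇑(QP m F))) ≤ Subgroup.closure (siegelSet (QP m F)) := by
  have hQ := QP_nondeg m F
  have h3 : HasTS3 (QP m F) := hasTS3_QP m hm
  have := closure_siegelSet_normal (QP m F)
  apply commutator_le_of_gens' _ (reflSet (QP m F)) (closure_reflSet_QP_eq_top m hm)
  rintro a ⟨x, hx, rfl⟩ b ⟨y, hy, rfl⟩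
  have hc : reflG (QP m F) y * reflG (QP m F) x * (reflG (QP m F) y)⁻¹
      = reflG (QP m F) (act (reflG (QP m F) y) x) :=
    conj_reflG (QP m F) (reflG (QP m F) y) x
  have e : (reflG (QP m F) x * reflG (QP m F) y)⁻¹ * (reflG (QP m F) y * reflG (QP m F) x)
      = reflG (QP m F) (act (reflG (QP m F) y) x) * reflG (QP m F) x := by
    rw [← hc, _root_.mul_inv_rev, reflG_inv, reflG_inv]
    group
  rw [e]
  exact refl_pair_mem (QP m F) hQ h3 _ x (by rw [Q_act]; exact hx) (by rw [Q_act])

end

end Cfsg.Agent.Lib.Helper30.D4
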