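import Mathlib
import Cfsg.Agent.Lib.Helper30.BG134CaseA
import Cfsg.Agent.H73.BG129B

set_option autoImplicit false

/-!
# Bender–Glauberman Theorem 14.4(a) (S1374): centralizers of elements of `M_σ` (helper30)

For `x ∈ M_σ`, `x ≠ 1`: `C_M(x)` is a Hall subgroup of `C_G(x)` with a normal complement `R`
acting sharply transitively on the conjugates of `M` containing `x`.
-/

namespace Cfsg.Agent.Lib.Helper30.BG144

open Cfsg Subgroup Cfsg.Agent.H58.BG10 Cfsg.Agent.H57.BG12 Cfsg.Agent.H76.BG12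
  Cfsg.Agent.H47.BG12 Cfsg.Agent.Lib.Helper30.BG134
open scoped Pointwise

universe u

variable {G : Type u} [Group G]

/-- The σ-partition (second half of S1378) as a `Prop`. -/
def StPart (G : Type u) [Group G] : Prop :=
  ∀ M N : Subgroup G, IsCoatom M → IsCoatom N → (sigma M ∩ sigma N).Nonempty →
    ∃ g : G, N = M.map (MulAut.conj g).toMonoidHom

/-- The conclusion of S1374 for `M`, `x`. -/
def Concl (M : Subgroup G) (x : G) : Prop :=
  (Nat.card ↥(M ⊓ centralizer ({x} : Set G))).Coprime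
      ((M ⊓ centralizer ({x} : Set G)).relIndex (centralizer ({x} : Set G))) ∧
    ∃ R : Subgroup G, centralizer ({x} : Set G) ≤ normalizer (R : Set G) ∧
      IsComplIn (M ⊓ centralizer ({x} : Set G)) R (centralizer ({x} : Set G)) ∧
      ∀ g : G, x ∈ M.map (MulAut.conj g).toMonoidHom →
        ∃! r : G, r ∈ R ∧ M.map (MulAut.conj r).toMonoidHom = M.map (MulAut.conj g).toMonoidHom

/-- The index of a complement is the order of the other factor. -/
theorem relIndex_of_isComplIn [Finite G] {A B M : Subgroup G} (h : IsComplIn A B M) :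
    A.relIndex M = Nat.card B := by
  have h1 := Cfsg.Agent.H73.BG12.card_mul_card_of_isComplIn h
  have h2 : Nat.card A * A.relIndex M = Nat.card M := by
    have := Subgroup.relIndex_mul_relIndex (H := ⊥) (K := A) (L := M) bot_le h.1
    rwa [Subgroup.relIndex_bot_left, Subgroup.relIndex_bot_left] at this
  have hpos : 0 < Nat.card A := Nat.card_pos
  rw [h1] at h2
  exact Nat.eq_of_mul_eq_mul_left hpos h2

/-- Fusion: if `x = g m g⁻¹` with `m ∈ M` and `Y` is generated by a power of `x`, then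
`g⁻¹ Y g ≤ M`. -/
theorem map_conj_inv_le {M : Subgroup G} {x g : G} (n : ℕ)
    (hx : x ∈ M.map (MulAut.conj g).toMonoidHom) :
    (zpowers (x ^ n)).map (MulAut.conj g⁻¹).toMonoidHom ≤ M := by
  obtain ⟨m0, hm0, hm0x⟩ := hx
  have hm0x' : g * m0 * g⁻¹ = x := hm0x
  rintro _ ⟨z, hz, rfl⟩
  obtain ⟨k, rfl⟩ := mem_zpowers_iff.mp hz
  have h1 : (MulAut.conj g⁻¹).toMonoidHom ((x ^ n) ^ k) = (m0 ^ n) ^ k := by
    rw [map_zpow, map_pow]
    congr 2
    show g⁻¹ * x * g⁻¹⁻¹ = m0
    rw [← hm0x']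
    group
  rw [h1]
  exact zpow_mem (pow_mem hm0 n) k

/-- S1374 from the landed Props. -/
theorem centStruct [Finite G] (hG : IsMinSimpleOddOrder G) (h50 : St1350 G) (h04 : St1404 G)
    (h24 : St1424 G) (hE1 : StEmbE1 G) (hPart : StPart G) (M : Subgroup G) (hM : IsCoatom M)
    (x : G) (hx : x ∈ sigmaCore M) (hx1 : x ≠ 1) : Concl M x := by
  have hσM : sigmaCore M ≤ M := (h50 M hM).1.1
  have hxM : x ∈ M := hσM hx
  have hxC : x ∈ centralizer ({x} : Set G) := by
    rw [mem_centralizer_iff]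
    intro h hh
    rw [Set.mem_singleton_iff.mp hh]
  -- the subgroup `Y` of prime order `q`
  have hord : orderOf x ≠ 1 := fun h => hx1 (orderOf_eq_one_iff.mp h)
  obtain ⟨q, hq, hqd⟩ := Nat.exists_prime_and_dvd hord
  haveI : Fact q.Prime := ⟨hq⟩
  have hord0 : orderOf x ≠ 0 := (orderOf_pos x).ne'
  have hyq : orderOf (x ^ (orderOf x / q)) = q := orderOf_pow_orderOf_div hord0 hqd
  have hYc : Nat.card (zpowers (x ^ (orderOf x / q))) = q := by
    rw [Nat.card_zpowers, hyq]
  have hYq : IsPGroup q (zpowers (x ^ (orderOf x / q))) :=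
    IsPGroup.of_card (n := 1) (by rw [hYc, pow_one])
  have hY1 : zpowers (x ^ (orderOf x / q)) ≠ ⊥ := ne_bot_of_card_prime hq hYc
  have hYσ : zpowers (x ^ (orderOf x / q)) ≤ sigmaCore M := by
    rw [zpowers_le]
    exact pow_mem hx _
  have hYM : zpowers (x ^ (orderOf x / q)) ≤ M := hYσ.trans hσM
  have hqσ : q ∈ sigma M := by
    refine (h50 M hM).1.2.1 q hq ?_
    rw [← hYc]
    exact Subgroup.card_dvd_of_le hYσ
  have hCY : centralizer ({x} : Set G) ≤
      centralizer ((zpowers (x ^ (orderOf x / q)) : Subgroup G) : Set G) := by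
    intro c hc
    rw [mem_centralizer_iff]
    intro z hz
    obtain ⟨k, rfl⟩ := mem_zpowers_iff.mp hz
    have h1 : Commute x c := (mem_centralizer_iff.mp hc) x rfl
    exact ((h1.pow_left _).zpow_left k).eq
  have hYtop : zpowers (x ^ (orderOf x / q)) ≠ ⊤ := fun h => hM.1 (top_le_iff.mp (h ▸ hYM))
  have hNtop : normalizer ((zpowers (x ^ (orderOf x / q)) : Subgroup G) : Set G) ≠ ⊤ :=
    Cfsg.Agent.H51.BG10.normalizer_ne_top_of_ne hG hY1 hYtop
  have hM1 : M ≠ ⊥ := fun h => hx1 (by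
    have := hxM
    rw [h, Subgroup.mem_bot] at this
    exact this)
  have hNM : normalizer (M : Set G) = M :=
    Cfsg.Agent.H31.BG8.normalizer_eq_of_coatom' hG hM hM1 hM.1 Subgroup.le_normalizer
  -- fusion
  have hfus : ∀ g : G, x ∈ M.map (MulAut.conj g).toMonoidHom →
      ∃ m ∈ M, ∃ c ∈ centralizer ((zpowers (x ^ (orderOf x / q)) : Subgroup G) : Set G),
        g⁻¹ = m * c := fun g hg =>
    (h04 M hM q hqσ _ hYq hY1 hYM).1 g⁻¹ (map_conj_inv_le _ hg)
  by_cases hex : ∃ N : Subgroup G, IsCoatom N ∧ N ≠ M ∧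
      normalizer ((zpowers (x ^ (orderOf x / q)) : Subgroup G) : Set G) ≤ N
  swap
  · -- `N_G(Y) ≤ M`
    have hNYM : normalizer ((zpowers (x ^ (orderOf x / q)) : Subgroup G) : Set G) ≤ M := by
      obtain ⟨L, hL, hNL⟩ := (eq_top_or_exists_le_coatom _).resolve_left hNtop
      have hLM : L = M := by
        by_contra hne
        exact hex ⟨L, hL, hne, hNL⟩
      rw [← hLM]
      exact hNL
    have hCYM : centralizer ((zpowers (x ^ (orderOf x / q)) : Subgroup G) : Set G) ≤ M :=
      (Cfsg.Agent.Lib.Helper30.centralizer_le_normalizer' _).trans hNYM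
    have hCM : centralizer ({x} : Set G) ≤ M := hCY.trans hCYM
    refine ⟨?_, ⊥, ?_, ?_, ?_⟩
    · rw [inf_eq_right.mpr hCM, Subgroup.relIndex_self]
      exact Nat.coprime_one_right _
    · rw [Subgroup.le_normalizer_iff]
      intro h _ k hk
      rw [Subgroup.mem_bot] at hk
      rw [hk, mul_one, mul_inv_cancel]
      exact Subgroup.mem_bot.mpr rfl
    · exact ⟨inf_le_right, bot_le, inf_bot_eq _, fun m hm =>
        ⟨m, ⟨hCM hm, hm⟩, 1, Subgroup.mem_bot.mpr rfl, (mul_one m).symm⟩⟩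
    · intro g hg
      obtain ⟨m, hm, c, hc, hgmc⟩ := hfus g hg
      have hgM : g ∈ M := by
        have h1 : g⁻¹ ∈ M := by
          rw [hgmc]
          exact mul_mem hm (hCYM hc)
        simpa using inv_mem h1
      have h2 : M.map (MulAut.conj g).toMonoidHom = M := by
        rw [Cfsg.Agent.H63.Sig.map_conj_eq_smul]
        exact Cfsg.Agent.H63.Sig.cj_eq_self_of_mem hgM
      refine ⟨1, ⟨one_mem _, ?_⟩, fun r hr => Subgroup.mem_bot.mp hr.1⟩
      rw [h2, Cfsg.Agent.H63.Sig.map_conj_eq_smul, Cfsg.Agent.H63.Sig.cj_one]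
  · -- a maximal subgroup `N ≠ M` over `N_G(Y)`
    obtain ⟨N, hN, hNneM, hNYN⟩ := hex
    obtain ⟨S, hYS⟩ := exists_sylow_ge hYq (le_inf hYM
      ((Subgroup.le_normalizer).trans hNYN))
    obtain ⟨hnc, -, hSyl⟩ := h24 M hM q hqσ _ hYq hY1 hYM N hN hNneM hNYN S hYS
    have hqN : q ∉ sigma N := by
      intro h
      obtain ⟨g, hg⟩ := hPart M N hM hN ⟨q, hqσ, h⟩
      exact hnc g hg
    obtain ⟨-, hdisj, hcompl⟩ := hE1 M N hM hN hNneM q hqσ hqN _ hY1 hNYN _ (S.2.map _) hYS
      ((Subgroup.map_subtype_le _).trans inf_le_left)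
      ((Subgroup.map_subtype_le _).trans inf_le_right) hSyl
    have hCN : centralizer ({x} : Set G) ≤ N :=
      hCY.trans ((Cfsg.Agent.Lib.Helper30.centralizer_le_normalizer' _).trans hNYN)
    have hxN : x ∈ N := hCN hxC
    -- key: `b ∈ N_σ` with `b x b⁻¹ ∈ M` centralizes `x`
    have hkey : ∀ b ∈ sigmaCore N, b * x * b⁻¹ ∈ M → b ∈ centralizer ({x} : Set G) := by
      intro b hb hbM
      have h1 : x⁻¹ * (b * x * b⁻¹) ∈ sigmaCore N ⊓ M := by
        have h2 : x⁻¹ * b * x⁻¹⁻¹ ∈ sigmaCore N := conj_mem_sigmaCore (inv_mem hxN) hb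
        have h3 : x⁻¹ * (b * x * b⁻¹) = (x⁻¹ * b * x⁻¹⁻¹) * b⁻¹ := by group
        have h4 : x⁻¹ * (b * x * b⁻¹) ∈ sigmaCore N := by
          rw [h3]
          exact mul_mem h2 (inv_mem hb)
        have h5 : x⁻¹ * (b * x * b⁻¹) ∈ M := mul_mem (inv_mem hxM) hbM
        exact Subgroup.mem_inf.mpr ⟨h4, h5⟩
      rw [hdisj, Subgroup.mem_bot] at h1
      rw [mem_centralizer_iff]
      intro h hh
      rw [Set.mem_singleton_iff.mp hh]
      have h4 : b * x * b⁻¹ = x := by
        have := congrArg (fun t => x * t) h1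
        simpa [mul_assoc] using this
      have h5 : b * x = x * b := by
        have := congrArg (fun t => t * b) h4
        simpa [mul_assoc] using this
      exact h5.symm
    -- decomposition of `C_G(x)`
    have hdec : ∀ c ∈ centralizer ({x} : Set G), ∃ a ∈ M ⊓ centralizer ({x} : Set G),
        ∃ b ∈ sigmaCore N ⊓ centralizer ({x} : Set G), c = a * b := by
      intro c hc
      obtain ⟨a, ha, b, hb, rfl⟩ := hcompl.2.2.2 c (hCN hc)
      have hcx : (a * b) * x = x * (a * b) := ((mem_centralizer_iff.mp hc) x rfl).symm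
      have hbM : b * x * b⁻¹ ∈ M := by
        have h1 : b * x * b⁻¹ = a⁻¹ * x * a := by
          have h2 : a * b * x * b⁻¹ = x * a := by
            rw [hcx]
            group
          have h3 : b * x * b⁻¹ = a⁻¹ * (a * b * x * b⁻¹) := by group
          rw [h3, h2]
          group
        rw [h1]
        exact mul_mem (mul_mem (inv_mem ha.1) hxM) ha.1
      have hbC : b ∈ centralizer ({x} : Set G) := hkey b hb hbM
      have haC : a ∈ centralizer ({x} : Set G) := by
        have h1 : a = (a * b) * b⁻¹ := by group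
        rw [h1]
        exact mul_mem hc (inv_mem hbC)
      exact ⟨a, ⟨ha.1, haC⟩, b, ⟨hb, hbC⟩, rfl⟩
    have hcomplC : IsComplIn (M ⊓ centralizer ({x} : Set G))
        (sigmaCore N ⊓ centralizer ({x} : Set G)) (centralizer ({x} : Set G)) := by
      refine ⟨inf_le_right, inf_le_right, ?_, hdec⟩
      rw [eq_bot_iff, ← hdisj]
      intro z hz
      exact ⟨hz.2.1, hz.1.1⟩
    refine ⟨?_, sigmaCore N ⊓ centralizer ({x} : Set G), ?_, hcomplC, ?_⟩
    · -- coprimality
      rw [relIndex_of_isComplIn hcomplC]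
      have hcop : (Nat.card ↥(M ⊓ N)).Coprime (Nat.card (sigmaCore N)) := by
        apply Nat.coprime_of_dvd
        intro p hp hp1 hp2
        have hpσ : p ∈ sigma N := (h50 N hN).1.2.1 p hp hp2
        apply (h50 N hN).1.2.2 p hp hpσ
        rw [← Cfsg.Agent.H73.BG12.card_eq_relIndex_of_isComplIn hcompl]
        exact hp1
      exact Nat.Coprime.coprime_dvd_left
        (Subgroup.card_dvd_of_le (inf_le_inf_left M hCN))
        (Nat.Coprime.coprime_dvd_right (Subgroup.card_dvd_of_le inf_le_left) hcop)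
    · -- normality
      rw [Subgroup.le_normalizer_iff]
      intro c hc z hz
      have hz' := Subgroup.mem_inf.mp hz
      have h1 : c * z * c⁻¹ ∈ sigmaCore N := conj_mem_sigmaCore (hCN hc) hz'.1
      have h2 : c * z * c⁻¹ ∈ centralizer ({x} : Set G) :=
        mul_mem (mul_mem hc hz'.2) (inv_mem hc)
      exact Subgroup.mem_inf.mpr ⟨h1, h2⟩
    · -- the conjugates of `M` through `x`
      intro g hg
      obtain ⟨m, hm, c, hc, hgmc⟩ := hfus g hg
      have hcN : c ∈ N :=
        ((Cfsg.Agent.Lib.Helper30.centralizer_le_normalizer' _).trans hNYN) hc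
      obtain ⟨a, ha, b, hb, rfl⟩ := hcompl.2.2.2 c hcN
      have hg' : g = b⁻¹ * (m * a)⁻¹ := by
        rw [← inv_inv g, hgmc]
        group
      have hmaM : (m * a)⁻¹ ∈ M := inv_mem (mul_mem hm ha.1)
      have hconj : M.map (MulAut.conj g).toMonoidHom = M.map (MulAut.conj b⁻¹).toMonoidHom := by
        rw [Cfsg.Agent.H63.Sig.map_conj_eq_smul, Cfsg.Agent.H63.Sig.map_conj_eq_smul, hg',
          Cfsg.Agent.H63.Sig.cj_mul, Cfsg.Agent.H63.Sig.cj_eq_self_of_mem hmaM]
      have hbM : b * x * b⁻¹ ∈ M := by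
        rw [hconj] at hg
        obtain ⟨m1, hm1, hm1x⟩ := hg
        have hm1x' : b⁻¹ * m1 * b⁻¹⁻¹ = x := hm1x
        rw [← hm1x']
        have h1 : b * (b⁻¹ * m1 * b⁻¹⁻¹) * b⁻¹ = m1 := by group
        rw [h1]
        exact hm1
      have hbC : b ∈ centralizer ({x} : Set G) := hkey b hb hbM
      have hbR : b⁻¹ ∈ sigmaCore N ⊓ centralizer ({x} : Set G) :=
        Subgroup.mem_inf.mpr ⟨inv_mem hb, inv_mem hbC⟩
      refine ⟨b⁻¹, ⟨hbR, hconj.symm⟩, ?_⟩
      rintro r ⟨hr0, hrconj⟩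
      have hr := Subgroup.mem_inf.mp hr0
      have h1 : MulAut.conj (b * r) • M = M := by
        have h2 : MulAut.conj r • M = MulAut.conj b⁻¹ • M := by
          rw [← Cfsg.Agent.H63.Sig.map_conj_eq_smul, ← Cfsg.Agent.H63.Sig.map_conj_eq_smul,
            hrconj, hconj]
        rw [Cfsg.Agent.H63.Sig.cj_mul, h2, Cfsg.Agent.H63.Sig.cj_cj_inv]
      have h3 : b * r ∈ M := by
        have := Cfsg.Agent.H63.Sig.mem_normalizer_of_cj_eq h1
        rw [hNM] at this
        exact this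
      have h4 : b * r ∈ sigmaCore N ⊓ M := Subgroup.mem_inf.mpr ⟨mul_mem hb hr.1, h3⟩
      rw [hdisj, Subgroup.mem_bot] at h4
      exact eq_inv_of_mul_eq_one_right h4

end Cfsg.Agent.Lib.Helper30.BG144
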