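import Mathlib
import Cfsg.Agent.H76.NCKillDefs
import Cfsg.Agent.H29.NCKTStruct
import Cfsg.Agent.H63.Sig

set_option autoImplicit false

/-!
# NCK-FUS (helper30, for helper76's kill of configuration (NC))

Every `N_G(S)`-conjugate of an element `a` of `A₀` is an `S`-conjugate of it: the `S`-class `C` of
`b = n a n⁻¹` is `P`-invariant and of `r`-power order, so `P` fixes some `b' ∈ C`; then
`b' ∈ Ω₁(C_S(P)) ≤ A₀`, so `⟨b'⟩ = A₀ = ⟨a⟩` and `s n ∈ N_G(A₀) = M ≤ C_G(A₀)`.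
-/

namespace Cfsg.Agent.Lib.Helper30.NCK

open Cfsg Subgroup Cfsg.Agent.H76.NCKill

universe u

variable {G : Type u} [Group G]

/-- Pure fixed point lemma: `S` an `r`-subgroup, `P` a `p`-subgroup (`p ≠ r` primes) normalizing
`S` such that every `P`-conjugate of `b` is an `S`-conjugate of `b`. Then some `S`-conjugate of `b`
is centralized by `P`. -/
theorem exists_conj_fixed [Finite G] {r p : ℕ} [Fact r.Prime] [Fact p.Prime] (hpr : p ≠ r)
    {S P : Subgroup G} (hS : IsPGroup r S) (hP : IsPGroup p P)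
    (hPS : P ≤ normalizer (S : Set G)) (b : G)
    (hb : ∀ g ∈ P, ∃ s ∈ S, g * b * g⁻¹ = s * b * s⁻¹) :
    ∃ s ∈ S, ∀ g ∈ P, g * (s * b * s⁻¹) * g⁻¹ = s * b * s⁻¹ := by
  classical
  let S' : Subgroup (ConjAct G) := S.map (ConjAct.toConjAct (G := G)).toMonoidHom
  have hS' : IsPGroup r S' := hS.map _
  let C : Set G := MulAction.orbit ↥S' b
  have hmemC : ∀ x : G, x ∈ C ↔ ∃ s ∈ S, x = s * b * s⁻¹ := by
    intro x
    constructor
    · rintro ⟨⟨s', hs'⟩, rfl⟩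
      obtain ⟨s, hs, rfl⟩ := hs'
      refine ⟨s, hs, ?_⟩
      show (ConjAct.toConjAct s) • b = _
      rw [ConjAct.smul_def]
      simp
    · rintro ⟨s, hs, rfl⟩
      refine ⟨⟨ConjAct.toConjAct s, ⟨s, hs, rfl⟩⟩, ?_⟩
      show (ConjAct.toConjAct s) • b = _
      rw [ConjAct.smul_def]
      simp
  obtain ⟨k, hk⟩ := hS'.card_orbit b
  have hstab : ∀ g ∈ P, ∀ x ∈ C, g * x * g⁻¹ ∈ C := by
    intro g hg x hx
    rw [hmemC] at hx ⊢
    obtain ⟨s, hs, rfl⟩ := hx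
    obtain ⟨t, ht, hgb⟩ := hb g hg
    refine ⟨g * s * g⁻¹ * t, mul_mem ((Subgroup.mem_normalizer_iff.mp (hPS hg) s).mp hs) ht, ?_⟩
    have h1 : g * (s * b * s⁻¹) * g⁻¹ = (g * s * g⁻¹) * (g * b * g⁻¹) * (g * s * g⁻¹)⁻¹ := by
      group
    rw [h1, hgb]
    group
  letI : MulAction ↥P ↥C :=
    { smul := fun g x => ⟨(g : G) * x.1 * (g : G)⁻¹, hstab g.1 g.2 x.1 x.2⟩
      one_smul := fun x => Subtype.ext (by
        show ((1 : ↥P) : G) * x.1 * ((1 : ↥P) : G)⁻¹ = x.1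
        simp)
      mul_smul := fun g h x => Subtype.ext (by
        show ((g * h : ↥P) : G) * x.1 * ((g * h : ↥P) : G)⁻¹
          = (g : G) * ((h : G) * x.1 * (h : G)⁻¹) * (g : G)⁻¹
        simp [mul_assoc]) }
  have hnd : ¬ p ∣ Nat.card ↥C := by
    have hk' : Nat.card ↥C = r ^ k := hk
    rw [hk']
    intro h
    exact hpr ((Nat.prime_dvd_prime_iff_eq Fact.out Fact.out).mp
      (Nat.Prime.dvd_of_dvd_pow Fact.out h))
  obtain ⟨x, hx⟩ := hP.nonempty_fixed_point_of_prime_not_dvd_card ↥C hnd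
  obtain ⟨s, hs, hxs⟩ := (hmemC x.1).mp x.2
  refine ⟨s, hs, fun g hg => ?_⟩
  have h1 := hx ⟨g, hg⟩
  have h2 : g * x.1 * g⁻¹ = x.1 := congrArg Subtype.val h1
  rw [← hxs]
  exact h2

theorem fus [Finite G] : Cfsg.Agent.H76.NCKill.StFus G := by
  intro hG M E A P r p _ hNC S hA0S hPS hcyc hcomm n hn a ha
  by_cases ha1 : a = 1
  · exact ⟨1, one_mem _, by rw [ha1]; simp⟩
  have hr : r.Prime := Fact.out
  have hp : p.Prime := hNC.tau1.1
  haveI : Fact p.Prime := ⟨hp⟩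
  have hpr : p ≠ r := by
    rintro rfl
    exact hNC.tau2.2.2.2 hNC.tau1.2.2.2.2
  have hA0card := Cfsg.Agent.H29.NCKill.card_A0 hG hNC
  have hNA0 := Cfsg.Agent.H29.NCKill.normalizer_A0 hG hNC
  have hPp : IsPGroup p P := IsPGroup.of_card (n := 1) (by rw [hNC.Pcard, pow_one])
  have haS : a ∈ (S : Subgroup G) := hA0S ha
  have hbS : n * a * n⁻¹ ∈ (S : Subgroup G) := (Subgroup.mem_normalizer_iff.mp hn a).mp haS
  -- `P`-conjugates of `b` are `S`-conjugates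
  have hPb : ∀ g ∈ P, ∃ s ∈ (S : Subgroup G),
      g * (n * a * n⁻¹) * g⁻¹ = s * (n * a * n⁻¹) * s⁻¹ := by
    intro g hg
    obtain ⟨c, hc, s, hs, hcs⟩ := hcomm n hn g hg
    refine ⟨s, hs, ?_⟩
    have hga : a * g = g * a := Subgroup.mem_centralizer_iff.mp (hNC.PA0 hg) a ha
    have hsb : s * (n * a * n⁻¹) * s⁻¹ ∈ (S : Subgroup G) :=
      mul_mem (mul_mem hs hbS) (inv_mem hs)
    have hc' : (s * (n * a * n⁻¹) * s⁻¹) * c = c * (s * (n * a * n⁻¹) * s⁻¹) :=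
      Subgroup.mem_centralizer_iff.mp hc _ hsb
    have h1 : g * (n * a * n⁻¹) * g⁻¹
        = (g * n * g⁻¹ * n⁻¹) * (n * a * n⁻¹) * (g * n * g⁻¹ * n⁻¹)⁻¹ := by
      have h2 : (g * n * g⁻¹ * n⁻¹) * (n * a * n⁻¹) * (g * n * g⁻¹ * n⁻¹)⁻¹
          = g * n * (g⁻¹ * (a * g)) * n⁻¹ * g⁻¹ := by group
      rw [h2, hga]
      group
    rw [h1, hcs]
    have h3 : c * s * (n * a * n⁻¹) * (c * s)⁻¹ = c * (s * (n * a * n⁻¹) * s⁻¹) * c⁻¹ := by
      group
    rw [h3, ← hc', mul_assoc, mul_inv_cancel, mul_one]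
  obtain ⟨s, hs, hfix⟩ := exists_conj_fixed hpr S.isPGroup' hPp hPS (n * a * n⁻¹) hPb
  have hb'S : s * (n * a * n⁻¹) * s⁻¹ ∈ (S : Subgroup G) :=
    mul_mem (mul_mem hs hbS) (inv_mem hs)
  have hb'eq : s * (n * a * n⁻¹) * s⁻¹ = (s * n) * a * (s * n)⁻¹ := by group
  rw [hb'eq] at hb'S hfix
  have hb'P : (s * n) * a * (s * n)⁻¹ ∈ centralizer (P : Set G) := by
    rw [Subgroup.mem_centralizer_iff]
    intro g hg
    have h1 := hfix g hg
    calc g * ((s * n) * a * (s * n)⁻¹) = g * ((s * n) * a * (s * n)⁻¹) * g⁻¹ * g := by group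
      _ = (s * n) * a * (s * n)⁻¹ * g := by rw [h1]
  have har : a ^ r = 1 := by
    have h1 := Subgroup.orderOf_dvd_natCard _ ha
    rw [hA0card] at h1
    exact orderOf_dvd_iff_pow_eq_one.mp h1
  have hb'r : ((s * n) * a * (s * n)⁻¹) ^ r = 1 := by
    rw [conj_pow, har]
    group
  have hb'A0 : (s * n) * a * (s * n)⁻¹ ∈ A0 M A :=
    hcyc _ (Subgroup.mem_inf.mpr ⟨hb'S, hb'P⟩) hb'r
  have hb'1 : (s * n) * a * (s * n)⁻¹ ≠ 1 := fun h => ha1 (conj_eq_one_iff.mp h)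
  -- `A₀ = ⟨a⟩ = ⟨b'⟩`
  have hgen : ∀ x ∈ A0 M A, x ≠ 1 → A0 M A = Subgroup.zpowers x := by
    intro x hx hx1
    symm
    apply Subgroup.eq_of_le_of_card_ge
    · rw [Subgroup.zpowers_le]
      exact hx
    · rw [Nat.card_zpowers, hA0card]
      have hdvd : orderOf x ∣ r := by
        have h1 := Subgroup.orderOf_dvd_natCard _ hx
        rwa [hA0card] at h1
      rcases (Nat.dvd_prime hr).mp hdvd with h | h
      · exact absurd (orderOf_eq_one_iff.mp h) hx1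
      · exact h.ge
  have hza := hgen a ha ha1
  have hzb := hgen _ hb'A0 hb'1
  have htN : s * n ∈ normalizer ((A0 M A : Subgroup G) : Set G) := by
    apply Cfsg.Agent.H63.Sig.mem_normalizer_of_cj_eq
    rw [← Cfsg.Agent.H63.Sig.map_conj_eq_smul]
    conv_lhs => rw [hza]
    rw [MonoidHom.map_zpowers, hzb]
    rfl
  rw [hNA0] at htN
  have hcen := hNC.Z htN
  have hcomm2 : a * (s * n) = (s * n) * a := Subgroup.mem_centralizer_iff.mp hcen a ha
  refine ⟨s⁻¹, inv_mem hs, ?_⟩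
  have h4 : n * a * n⁻¹ = s⁻¹ * ((s * n) * a) * (s * n)⁻¹ * s := by group
  rw [h4, ← hcomm2]
  group

example [Finite G] : Cfsg.Agent.H76.NCKill.StFus G := fus

end Cfsg.Agent.Lib.Helper30.NCK
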