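import Mathlib
import Cfsg.Agent.H76.NCKillDefs
import Cfsg.Agent.H58.BG10All2
import Cfsg.Agent.Lib.Helper30.CoprimeAb

set_option autoImplicit false

/-!
# NCK-NORM (helper30, for helper76's kill of configuration (NC))

An element `a` of a Sylow subgroup `S` of a minimal simple group of odd order all of whose
`N_G(S)`-conjugates are `S`-conjugates lies in `S'`: with `V` a complement of `S` in `N_G(S)`,
`S = [S, V]` (S1411) and `V` centralizes `a` modulo `S'`, so coprime action on the abelian group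
`S / S'` gives `a ∈ S'`.
-/

namespace Cfsg.Agent.Lib.Helper30.NCK

open Cfsg Subgroup

open scoped commutatorElement

universe u

variable {G : Type u} [Group G]

/-- The normalizer of `S` normalizes the derived subgroup of `S`. -/
theorem normalizer_le_normalizer_commutator (S : Subgroup G) :
    normalizer (S : Set G) ≤ normalizer ((⁅S, S⁆ : Subgroup G) : Set G) := by
  intro n hn
  apply Cfsg.Agent.H63.Sig.mem_normalizer_of_cj_eq
  rw [← Cfsg.Agent.H63.Sig.map_conj_eq_smul, Subgroup.map_commutator,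
    Cfsg.Agent.H63.Sig.map_conj_eq_smul, Cfsg.Agent.H63.Sig.cj_eq_self_of_mem_normalizer hn]

/-- `S' ≤ S`. -/
theorem commutator_self_le (S : Subgroup G) : ⁅S, S⁆ ≤ S := by
  rw [Subgroup.commutator_le]
  intro g₁ h₁ g₂ h₂
  rw [commutatorElement_def]
  exact mul_mem (mul_mem (mul_mem h₁ h₂) (inv_mem h₁)) (inv_mem h₂)

theorem norm [Finite G] : Cfsg.Agent.H76.NCKill.StNorm G := by
  intro hG r _ S a haS hfus
  obtain ⟨V, hV, hVcop⟩ := Cfsg.Agent.H71.BG10.exists_compl_sylow_normalizer S
  have h1 : (S : Subgroup G) = ⁅(S : Subgroup G), V⁆ :=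
    ((Cfsg.Agent.H58.BG10.st1411 hG) r S V hV).1
  have hVN : V ≤ normalizer ((S : Subgroup G) : Set G) := hV.2.1
  have hcop : (Nat.card V).Coprime (Nat.card (S : Subgroup G)) := by
    obtain ⟨k, hk⟩ := IsPGroup.iff_card.mp S.isPGroup'
    rw [hk]
    exact Nat.Coprime.pow_right k hVcop
  have hNN := normalizer_le_normalizer_commutator (S : Subgroup G)
  refine Cfsg.Agent.Lib.Helper30.mem_of_fixed_of_abelian_section (A := V) (D := (S : Subgroup G))
    (M := ⁅(S : Subgroup G), (S : Subgroup G)⁆) hVN (hVN.trans hNN)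
    (Subgroup.le_normalizer.trans hNN) (commutator_self_le _) le_rfl hcop ?_ haS ?_
  · intro x hx
    rw [h1] at hx
    rw [← h1] at hx
    have : (S : Subgroup G) ≤ ⁅(S : Subgroup G), V⁆ ⊔ ⁅(S : Subgroup G), (S : Subgroup G)⁆ := by
      calc (S : Subgroup G) = ⁅(S : Subgroup G), V⁆ := h1
        _ ≤ _ := le_sup_left
    exact this hx
  · intro v hv
    obtain ⟨s, hs, hsa⟩ := hfus v (hVN hv)
    rw [hsa]
    have : s * a * s⁻¹ * a⁻¹ = ⁅s, a⁆ := by rw [commutatorElement_def]
    rw [this]
    exact Subgroup.commutator_mem_commutator hs haS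

example [Finite G] : Cfsg.Agent.H76.NCKill.StNorm G := norm

end Cfsg.Agent.Lib.Helper30.NCK
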