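import Mathlib
import Cfsg.Agent.Lib.Helper30.BG144
import Cfsg.Agent.Lib.Helper30.BGNarrow
import Cfsg.Agent.H40.BG134B2B
import Cfsg.Agent.H57.BG129Defs

set_option autoImplicit false

/-!
# Bender–Glauberman Theorem 14.4(b) (S1375): centralizers of elements of `M_σ` not inside `M`
(helper30)

For `x ∈ M_σ`, `x ≠ 1`, `C_G(x) ⊄ M`: a unique maximal subgroup `N` contains `C_G(x)`,
`N_σ = N_F`, `M ∩ N` complements `N_σ`, and `x ∈ A(N) \ N_σ`.
-/

namespace Cfsg.Agent.Lib.Helper30.BG144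

open Cfsg Subgroup Cfsg.Agent.H58.BG10 Cfsg.Agent.H57.BG12 Cfsg.Agent.H76.BG12
  Cfsg.Agent.H47.BG12 Cfsg.Agent.Lib.Helper30.BG134
open scoped Pointwise

universe u

variable {G : Type u} [Group G]

/-- The structure of a maximal subgroup `N ≠ M` over `N_G(Y)`, `Y ≤ ⟨x⟩` of prime order `q`. -/
theorem structN [Finite G] (hG : IsMinSimpleOddOrder G) (h50 : St1350 G)
    (h24 : St1424 G) (hE1 : StEmbE1 G) (hPart : StPart G) (M : Subgroup G) (hM : IsCoatom M)
    (x : G) (hx : x ∈ sigmaCore M) (q : ℕ) (hq : q.Prime) (hqd : q ∣ orderOf x)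
    (N : Subgroup G) (hN : IsCoatom N) (hNneM : N ≠ M)
    (hNYN : normalizer ((zpowers (x ^ (orderOf x / q)) : Subgroup G) : Set G) ≤ N) :
    (∀ g : G, N ≠ M.map (MulAut.conj g).toMonoidHom) ∧ q ∈ sigma M ∧ q ∉ sigma N ∧
      Group.IsNilpotent (sigmaCore N) ∧ sigmaCore N ⊓ M = ⊥ ∧
      IsComplIn (M ⊓ N) (sigmaCore N) N ∧ centralizer ({x} : Set G) ≤ N ∧
      IsComplIn (M ⊓ centralizer ({x} : Set G)) (sigmaCore N ⊓ centralizer ({x} : Set G))
        (centralizer ({x} : Set G)) ∧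
      centralizer ({x} : Set G) ≤
        normalizer ((sigmaCore N ⊓ centralizer ({x} : Set G) : Subgroup G) : Set G) ∧
      Nat.card (zpowers (x ^ (orderOf x / q))) = q := by
  have hσM : sigmaCore M ≤ M := (h50 M hM).1.1
  have hxM : x ∈ M := hσM hx
  have hxC : x ∈ centralizer ({x} : Set G) := by
    rw [mem_centralizer_iff]
    intro h hh
    rw [Set.mem_singleton_iff.mp hh]
  haveI : Fact q.Prime := ⟨hq⟩
  have hord0 : orderOf x ≠ 0 := (orderOf_pos x).ne'
  have hyq : orderOf (x ^ (orderOf x / q)) = q := orderOf_pow_orderOf_div hord0 hqd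
  have hYc : Nat.card (zpowers (x ^ (orderOf x / q))) = q := by
    rw [Nat.card_zpowers, hyq]
  have hYq : IsPGroup q (zpowers (x ^ (orderOf x / q))) :=
    IsPGroup.of_card (n := 1) (by rw [hYc, pow_one])
  have hY1 : zpowers (x ^ (orderOf x / q)) ≠ ⊥ := ne_bot_of_card_prime hq hYc
  have hYσ : zpowers (x ^ (orderOf x / q)) ≤ sigmaCore M := by
    rw [zpowers_le]
    exact pow_mem hx _
  have hYM : zpowers (x ^ (orderOf x / q)) ≤ M := hYσ.trans hσM
  have hqσ : q ∈ sigma M := by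
    refine (h50 M hM).1.2.1 q hq ?_
    rw [← hYc]
    exact Subgroup.card_dvd_of_le hYσ
  have hCY : centralizer ({x} : Set G) ≤
      centralizer ((zpowers (x ^ (orderOf x / q)) : Subgroup G) : Set G) := by
    intro c hc
    rw [mem_centralizer_iff]
    intro z hz
    obtain ⟨k, rfl⟩ := mem_zpowers_iff.mp hz
    have h1 : Commute x c := (mem_centralizer_iff.mp hc) x rfl
    exact ((h1.pow_left _).zpow_left k).eq
  obtain ⟨S, hYS⟩ := exists_sylow_ge hYq (le_inf hYM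
    ((Subgroup.le_normalizer).trans hNYN))
  obtain ⟨hnc, -, hSyl⟩ := h24 M hM q hqσ _ hYq hY1 hYM N hN hNneM hNYN S hYS
  have hqN : q ∉ sigma N := by
    intro h
    obtain ⟨g, hg⟩ := hPart M N hM hN ⟨q, hqσ, h⟩
    exact hnc g hg
  obtain ⟨hnil, hdisj, hcompl⟩ := hE1 M N hM hN hNneM q hqσ hqN _ hY1 hNYN _ (S.2.map _) hYS
    ((Subgroup.map_subtype_le _).trans inf_le_left)
    ((Subgroup.map_subtype_le _).trans inf_le_right) hSyl
  have hCN : centralizer ({x} : Set G) ≤ N :=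
    hCY.trans ((Cfsg.Agent.Lib.Helper30.centralizer_le_normalizer' _).trans hNYN)
  have hxN : x ∈ N := hCN hxC
  -- key: `b ∈ N_σ` with `b x b⁻¹ ∈ M` centralizes `x`
  have hkey : ∀ b ∈ sigmaCore N, b * x * b⁻¹ ∈ M → b ∈ centralizer ({x} : Set G) := by
    intro b hb hbM
    have h1 : x⁻¹ * (b * x * b⁻¹) ∈ sigmaCore N ⊓ M := by
      have h2 : x⁻¹ * b * x⁻¹⁻¹ ∈ sigmaCore N := conj_mem_sigmaCore (inv_mem hxN) hb
      have h3 : x⁻¹ * (b * x * b⁻¹) = (x⁻¹ * b * x⁻¹⁻¹) * b⁻¹ := by group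
      have h4 : x⁻¹ * (b * x * b⁻¹) ∈ sigmaCore N := by
        rw [h3]
        exact mul_mem h2 (inv_mem hb)
      have h5 : x⁻¹ * (b * x * b⁻¹) ∈ M := mul_mem (inv_mem hxM) hbM
      exact Subgroup.mem_inf.mpr ⟨h4, h5⟩
    rw [hdisj, Subgroup.mem_bot] at h1
    rw [mem_centralizer_iff]
    intro h hh
    rw [Set.mem_singleton_iff.mp hh]
    have h4 : b * x * b⁻¹ = x := by
      have := congrArg (fun t => x * t) h1
      simpa [mul_assoc] using this
    have h5 : b * x = x * b := by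
      have := congrArg (fun t => t * b) h4
      simpa [mul_assoc] using this
    exact h5.symm
  -- decomposition of `C_G(x)`
  have hdec : ∀ c ∈ centralizer ({x} : Set G), ∃ a ∈ M ⊓ centralizer ({x} : Set G),
      ∃ b ∈ sigmaCore N ⊓ centralizer ({x} : Set G), c = a * b := by
    intro c hc
    obtain ⟨a, ha, b, hb, rfl⟩ := hcompl.2.2.2 c (hCN hc)
    have hcx : (a * b) * x = x * (a * b) := ((mem_centralizer_iff.mp hc) x rfl).symm
    have hbM : b * x * b⁻¹ ∈ M := by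
      have h1 : b * x * b⁻¹ = a⁻¹ * x * a := by
        have h2 : a * b * x * b⁻¹ = x * a := by
          rw [hcx]
          group
        have h3 : b * x * b⁻¹ = a⁻¹ * (a * b * x * b⁻¹) := by group
        rw [h3, h2]
        group
      rw [h1]
      exact mul_mem (mul_mem (inv_mem ha.1) hxM) ha.1
    have hbC : b ∈ centralizer ({x} : Set G) := hkey b hb hbM
    have haC : a ∈ centralizer ({x} : Set G) := by
      have h1 : a = (a * b) * b⁻¹ := by group
      rw [h1]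
      exact mul_mem hc (inv_mem hbC)
    exact ⟨a, ⟨ha.1, haC⟩, b, ⟨hb, hbC⟩, rfl⟩
  have hcomplC : IsComplIn (M ⊓ centralizer ({x} : Set G))
      (sigmaCore N ⊓ centralizer ({x} : Set G)) (centralizer ({x} : Set G)) := by
    refine ⟨inf_le_right, inf_le_right, ?_, hdec⟩
    rw [eq_bot_iff, ← hdisj]
    intro z hz
    exact ⟨hz.2.1, hz.1.1⟩
  refine ⟨hnc, hqσ, hqN, hnil, hdisj, hcompl, hCN, hcomplC, ?_, hYc⟩
  rw [Subgroup.le_normalizer_iff]
  intro c hc z hz
  have hz' := Subgroup.mem_inf.mp hz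
  have h1 : c * z * c⁻¹ ∈ sigmaCore N := conj_mem_sigmaCore (hCN hc) hz'.1
  have h2 : c * z * c⁻¹ ∈ centralizer ({x} : Set G) :=
    mul_mem (mul_mem hc hz'.2) (inv_mem hc)
  exact Subgroup.mem_inf.mpr ⟨h1, h2⟩

/-- `p`-rank bounds are invariant under conjugation. -/
theorem pRankLE_conj_iff {N N' : Subgroup G} {g : G}
    (hg : N' = N.map (MulAut.conj g).toMonoidHom) (p k : ℕ) :
    PRankLE p k ↥N' ↔ PRankLE p k ↥N := by
  subst hg
  have e : ↥N ≃* ↥(N.map (MulAut.conj g).toMonoidHom) :=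
    N.equivMapOfInjective (MulAut.conj g).toMonoidHom (MulAut.conj g).injective
  exact ⟨Cfsg.Agent.Lib.Helper30.BGN.pRankLE_of_mulEquiv e.symm,
    Cfsg.Agent.Lib.Helper30.BGN.pRankLE_of_mulEquiv e⟩

/-- A maximal subgroup `≠ M` over `N_G(Y)`, given `C_G(x) ⊄ M`. -/
theorem exists_coatom_over [Finite G] (hG : IsMinSimpleOddOrder G) (M : Subgroup G)
    (hM : IsCoatom M) (x : G) (hxM' : x ∈ M) (hxM : ¬ centralizer ({x} : Set G) ≤ M)
    (q : ℕ) (hq : q.Prime) (hqd : q ∣ orderOf x) :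
    ∃ N : Subgroup G, IsCoatom N ∧ N ≠ M ∧
      normalizer ((zpowers (x ^ (orderOf x / q)) : Subgroup G) : Set G) ≤ N := by
  have hord0 : orderOf x ≠ 0 := (orderOf_pos x).ne'
  have hyq : orderOf (x ^ (orderOf x / q)) = q := orderOf_pow_orderOf_div hord0 hqd
  have hYc : Nat.card (zpowers (x ^ (orderOf x / q))) = q := by
    rw [Nat.card_zpowers, hyq]
  have hY1 : zpowers (x ^ (orderOf x / q)) ≠ ⊥ := ne_bot_of_card_prime hq hYc
  have hYM : zpowers (x ^ (orderOf x / q)) ≤ M := by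
    rw [zpowers_le]
    exact pow_mem hxM' _
  have hYtop : zpowers (x ^ (orderOf x / q)) ≠ ⊤ := fun h => hM.1 (top_le_iff.mp (h ▸ hYM))
  have hNtop : normalizer ((zpowers (x ^ (orderOf x / q)) : Subgroup G) : Set G) ≠ ⊤ :=
    Cfsg.Agent.H51.BG10.normalizer_ne_top_of_ne hG hY1 hYtop
  have hCY : centralizer ({x} : Set G) ≤
      centralizer ((zpowers (x ^ (orderOf x / q)) : Subgroup G) : Set G) := by
    intro c hc
    rw [mem_centralizer_iff]
    intro z hz
    obtain ⟨k, rfl⟩ := mem_zpowers_iff.mp hz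
    have h1 : Commute x c := (mem_centralizer_iff.mp hc) x rfl
    exact ((h1.pow_left _).zpow_left k).eq
  obtain ⟨N, hN, hNYN⟩ := (eq_top_or_exists_le_coatom _).resolve_left hNtop
  refine ⟨N, hN, ?_, hNYN⟩
  intro h
  apply hxM
  rw [← h]
  exact hCY.trans ((Cfsg.Agent.Lib.Helper30.centralizer_le_normalizer' _).trans hNYN)

/-- Every prime divisor of the order of `x` lies in `τ₂(N)`. -/
theorem tau2_of_dvd [Finite G] (hG : IsMinSimpleOddOrder G) (h50 : St1350 G) (h09 : St1409 G)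
    (h24 : St1424 G) (hE1 : StEmbE1 G) (hPart : StPart G) (M : Subgroup G) (hM : IsCoatom M)
    (x : G) (hx : x ∈ sigmaCore M) (hxM : ¬ centralizer ({x} : Set G) ≤ M)
    (N : Subgroup G) (hN : IsCoatom N)
    (hnc : ∀ g : G, N ≠ M.map (MulAut.conj g).toMonoidHom)
    (hcomplC : IsComplIn (M ⊓ centralizer ({x} : Set G))
      (sigmaCore N ⊓ centralizer ({x} : Set G)) (centralizer ({x} : Set G)))
    (q' : ℕ) (hq' : q'.Prime) (hq'd : q' ∣ orderOf x) : q' ∈ tau2 N := by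
  haveI : Fact q'.Prime := ⟨hq'⟩
  have hσM : sigmaCore M ≤ M := (h50 M hM).1.1
  obtain ⟨N', hN', hN'neM, hNYN'⟩ := exists_coatom_over hG M hM x (hσM hx) hxM q' hq' hq'd
  obtain ⟨-, hq'σ, hq'N', -, -, -, -, hcomplC', -, hYc⟩ :=
    structN hG h50 h24 hE1 hPart M hM x hx q' hq' hq'd N' hN' hN'neM hNYN'
  have hcard : Nat.card ↥(sigmaCore N ⊓ centralizer ({x} : Set G)) =
      Nat.card ↥(sigmaCore N' ⊓ centralizer ({x} : Set G)) := by
    rw [← relIndex_of_isComplIn hcomplC, ← relIndex_of_isComplIn hcomplC']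
  have hne1 : Nat.card ↥(sigmaCore N ⊓ centralizer ({x} : Set G)) ≠ 1 := by
    intro h1
    apply hxM
    have hbot : sigmaCore N ⊓ centralizer ({x} : Set G) = ⊥ := Subgroup.card_eq_one.mp h1
    intro c hc
    obtain ⟨a, ha, b, hb, rfl⟩ := hcomplC.2.2.2 c hc
    rw [hbot, Subgroup.mem_bot] at hb
    rw [hb, mul_one]
    exact (Subgroup.mem_inf.mp ha).1
  obtain ⟨s, hs, hsd⟩ := Nat.exists_prime_and_dvd hne1
  have hsN : s ∈ sigma N :=
    (h50 N hN).1.2.1 s hs (hsd.trans (Subgroup.card_dvd_of_le inf_le_left))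
  have hsN' : s ∈ sigma N' :=
    (h50 N' hN').1.2.1 s hs ((hcard ▸ hsd).trans (Subgroup.card_dvd_of_le inf_le_left))
  obtain ⟨g, hg⟩ := hPart N N' hN hN' ⟨s, hsN, hsN'⟩
  have hq'N : q' ∉ sigma N := by
    intro h
    obtain ⟨g', hg'⟩ := hPart M N hM hN ⟨q', hq'σ, h⟩
    exact hnc g' hg'
  have h9 := (h09 N' hN' q' hq'N' _ hYc hNYN').1
  exact ⟨hq', hq'N, (pRankLE_conj_iff hg q' 2).mp h9.1,
    fun hr => h9.2 ((pRankLE_conj_iff hg q' 1).mpr hr)⟩

/-- `κ(N)` and `τ₂(N)` are disjoint. -/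
theorem kappa_not_tau2 [Finite G] {N : Subgroup G} {s : ℕ} (hκ : s ∈ kappa N)
    (hτ : s ∈ tau2 N) : False := by
  obtain ⟨hs, -, -, hcyc⟩ := hκ
  haveI : Fact s.Prime := ⟨hs⟩
  apply hτ.2.2.2
  intro A _ hAs
  have hAp : IsPGroup s A := by
    intro a
    refine ⟨1, ?_⟩
    rw [pow_one]
    exact Subtype.ext ((Subgroup.coe_pow A a s).trans (hAs a a.2))
  obtain ⟨Q, hAQ⟩ := hAp.exists_le_sylow
  haveI hQc : IsCyclic (Q : Subgroup ↥N) := (hcyc Q).1
  haveI hAcyc : IsCyclic A :=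
    (Subgroup.subgroupOfEquivOfLe hAQ).isCyclic.mp inferInstance
  rw [pow_one]
  have h1 : Monoid.exponent A = Nat.card A := IsCyclic.exponent_eq_card
  have h2 : Monoid.exponent A ∣ s := Monoid.exponent_dvd_of_forall_pow_eq_one
    (fun a => Subtype.ext ((Subgroup.coe_pow A a s).trans (hAs a a.2)))
  rw [h1] at h2
  exact Nat.le_of_dvd hs.pos h2

/-- An element of `N` whose order involves only `τ₂(N)`-primes lies in `U N_σ`. -/
theorem mem_U_sup [Finite G] {N K' U' : Subgroup G} (hKU : IsSigmaDecomposition N K' U')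
    {x : G} (hxN : x ∈ N) (hτ : ∀ p : ℕ, p.Prime → p ∣ orderOf x → p ∈ tau2 N) :
    x ∈ U' ⊔ sigmaCore N := by
  have hσN : sigmaCore N ≤ N := Subgroup.map_subtype_le _
  have hUN : U' ≤ N := hKU.compl.1
  have hKN : K' ≤ N := hKU.hall.1
  have hVN : U' ⊔ sigmaCore N ≤ N := sup_le hUN hσN
  have hσnorm : N ≤ normalizer ((sigmaCore N : Subgroup G) : Set G) :=
    Cfsg.Agent.H40.BG134.le_normalizer_map_subtype N (piCore (sigma N) ↥N)
  have hle : K' ⊔ sigmaCore N ≤ normalizer ((U' ⊔ sigmaCore N : Subgroup G) : Set G) := by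
    refine sup_le ?_ ((le_sup_right).trans Subgroup.le_normalizer)
    intro k hk
    apply Cfsg.Agent.H63.Sig.mem_normalizer_of_cj_eq
    rw [Subgroup.smul_sup, Cfsg.Agent.H63.Sig.cj_eq_self_of_mem_normalizer (hKU.normal hk),
      Cfsg.Agent.H63.Sig.cj_eq_self_of_mem_normalizer (hσnorm (hKN hk))]
  have hnorm : N ≤ normalizer ((U' ⊔ sigmaCore N : Subgroup G) : Set G) := by
    intro n hn
    obtain ⟨a, ha, b, hb, rfl⟩ := hKU.compl.2.2.2 n hn
    exact mul_mem ((le_sup_left.trans Subgroup.le_normalizer) ha) (hle hb)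
  haveI hWn : ((U' ⊔ sigmaCore N).subgroupOf N).Normal :=
    (Subgroup.normal_subgroupOf_iff_le_normalizer hVN).mpr hnorm
  have htop : (U' ⊔ sigmaCore N).subgroupOf N ⊔ K'.subgroupOf N = ⊤ := by
    rw [← Subgroup.subgroupOf_sup hVN hKN, Subgroup.subgroupOf_eq_top]
    intro n hn
    obtain ⟨a, ha, b, hb, rfl⟩ := hKU.compl.2.2.2 n hn
    have h1 : U' ≤ U' ⊔ sigmaCore N ⊔ K' := le_sup_left.trans le_sup_left
    have h2 : K' ⊔ sigmaCore N ≤ U' ⊔ sigmaCore N ⊔ K' :=
      sup_le le_sup_right (le_sup_right.trans le_sup_left)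
    exact mul_mem (h1 ha) (h2 hb)
  have hidx : ((U' ⊔ sigmaCore N).subgroupOf N).index ∣ Nat.card K' := by
    have h1 : ((U' ⊔ sigmaCore N).subgroupOf N).relIndex
        ((U' ⊔ sigmaCore N).subgroupOf N ⊔ K'.subgroupOf N) =
        ((U' ⊔ sigmaCore N).subgroupOf N).relIndex (K'.subgroupOf N) :=
      Subgroup.relIndex_sup_left _ _
    rw [htop, Subgroup.relIndex_top_right] at h1
    rw [h1]
    have h2 := Subgroup.relIndex_dvd_card ((U' ⊔ sigmaCore N).subgroupOf N) (K'.subgroupOf N)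
    have h3 : Nat.card (K'.subgroupOf N) = Nat.card K' :=
      Nat.card_congr (Subgroup.subgroupOfEquivOfLe hKN).toEquiv
    rwa [h3] at h2
  have hord : orderOf (⟨x, hxN⟩ : ↥N) = orderOf x := Subgroup.orderOf_mk x hxN
  have hcop : (((U' ⊔ sigmaCore N).subgroupOf N).index).Coprime (orderOf (⟨x, hxN⟩ : ↥N)) := by
    rw [hord]
    apply Nat.coprime_of_dvd
    intro p hp hp1 hp2
    exact kappa_not_tau2 (hKU.hall.2.1 p hp (hp1.trans hidx)) (hτ p hp hp2)
  have hpow : (⟨x, hxN⟩ : ↥N) ^ ((U' ⊔ sigmaCore N).subgroupOf N).index ∈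
      (U' ⊔ sigmaCore N).subgroupOf N := Subgroup.pow_index_mem _ _
  obtain ⟨m, hm⟩ := exists_pow_eq_self_of_coprime hcop
  have hmem : (⟨x, hxN⟩ : ↥N) ∈ (U' ⊔ sigmaCore N).subgroupOf N := by
    rw [← hm]
    exact pow_mem hpow m
  exact Subgroup.mem_subgroupOf.mp hmem

/-- If `N_σ` is nilpotent then `N_σ = N_F`. -/
theorem sigmaCore_eq_fittingHallOf [Finite G] (hG : IsMinSimpleOddOrder G) (h50 : St1350 G)
    {N : Subgroup G} (hN : IsCoatom N) (hnil : Group.IsNilpotent (sigmaCore N)) :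
    sigmaCore N = fittingHallOf N := by
  obtain ⟨⟨-, hpi, hidx⟩, -, -⟩ := h50 N hN
  show (piCore (sigma N) ↥N).map N.subtype = (fittingHall ↥N).map N.subtype
  congr 1
  apply le_antisymm
  · apply le_sSup
    refine ⟨piCore_normal _ _, ?_, ?_⟩
    · haveI : Group.IsNilpotent ↥((piCore (sigma N) ↥N).map N.subtype) := hnil
      exact Group.nilpotent_of_mulEquiv
        ((piCore (sigma N) ↥N).equivMapOfInjective N.subtype N.subtype_injective).symm
    · apply Nat.coprime_of_dvd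
      intro p hp hp1 hp2
      have h1 : p ∣ Nat.card (sigmaCore N) := by
        rw [show sigmaCore N = (piCore (sigma N) ↥N).map N.subtype from rfl,
          Subgroup.card_subtype]
        exact hp1
      have h2 := hidx p hp (hpi p hp h1)
      rw [show sigmaCore N = (piCore (sigma N) ↥N).map N.subtype from rfl,
        Cfsg.Agent.H76.BG10.relIndex_map_subtype'] at h2
      exact h2 hp2
  · apply sSup_le
    rintro H ⟨hHn, hHnil, hHcop⟩
    apply le_sSup
    refine ⟨hHn, ?_⟩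
    intro p hp hpd
    haveI : Fact p.Prime := ⟨hp⟩
    haveI := hHnil
    haveI := hHn
    obtain ⟨Q⟩ : Nonempty (Sylow p ↥H) := inferInstance
    haveI hQn : (Q : Subgroup ↥H).Normal :=
      Sylow.normal_of_normalizerCondition normalizerCondition_of_isNilpotent Q
    haveI hQchar : (Q : Subgroup ↥H).Characteristic := Q.characteristic_of_normal hQn
    haveI hQN : ((Q : Subgroup ↥H).map H.subtype).Normal := inferInstance
    have hPp : IsPGroup p ((Q : Subgroup ↥H).map H.subtype) := Q.2.map _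
    have hPidx : ¬ p ∣ ((Q : Subgroup ↥H).map H.subtype).index := by
      rw [Subgroup.index_map_subtype]
      intro hdvd
      rcases (Nat.Prime.dvd_mul hp).mp hdvd with h | h
      · exact Q.not_dvd_index h
      · exact Nat.Prime.not_coprime_iff_dvd.mpr ⟨p, hp, hpd, h⟩ hHcop
    have hP0 : (((Q : Subgroup ↥H).map H.subtype).map N.subtype : Subgroup G) ≠ ⊥ := by
      intro h0
      rw [Subgroup.map_eq_bot_iff_of_injective _ N.subtype_injective,
        Subgroup.map_eq_bot_iff_of_injective _ H.subtype_injective] at h0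
      exact Sylow.ne_bot_of_dvd_card Q hpd h0
    have hPtop : (((Q : Subgroup ↥H).map H.subtype).map N.subtype : Subgroup G) ≠ ⊤ :=
      fun h => hN.1 (top_le_iff.mp (h ▸ Subgroup.map_subtype_le _))
    have hNle : N ≤ normalizer
        ((((Q : Subgroup ↥H).map H.subtype).map N.subtype : Subgroup G) : Set G) :=
      Cfsg.Agent.H40.BG134.le_normalizer_map_subtype N ((Q : Subgroup ↥H).map H.subtype)
    exact ⟨hp, hpd.trans (Subgroup.card_subgroup_dvd_card H), hPp.toSylow hPidx,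
      le_of_eq (Cfsg.Agent.H31.BG8.normalizer_eq_of_coatom' hG hN hP0 hPtop hNle)⟩

/-- S1375 from the landed Props. -/
theorem centUniq [Finite G] (hG : IsMinSimpleOddOrder G) (h50 : St1350 G) (h09 : St1409 G)
    (h20 : St1420 G) (h24 : St1424 G) (hE1 : StEmbE1 G) (hPart : StPart G) (M : Subgroup G)
    (hM : IsCoatom M) (x : G) (hx : x ∈ sigmaCore M) (hx1 : x ≠ 1)
    (hxM : ¬ centralizer ({x} : Set G) ≤ M) :
    ∃ N : Subgroup G, (IsCoatom N ∧ centralizer ({x} : Set G) ≤ N) ∧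
      (∀ L : Subgroup G, IsCoatom L → centralizer ({x} : Set G) ≤ L → L = N) ∧
      sigmaCore N = fittingHallOf N ∧
      centralizer ({x} : Set G) ≤
        normalizer ((sigmaCore N ⊓ centralizer ({x} : Set G) : Subgroup G) : Set G) ∧
      IsComplIn (M ⊓ centralizer ({x} : Set G)) (sigmaCore N ⊓ centralizer ({x} : Set G))
        (centralizer ({x} : Set G)) ∧
      IsComplIn (M ⊓ N) (sigmaCore N) N ∧
      ∀ K' U' : Subgroup G, IsSigmaDecomposition N K' U' →
        U' ≠ ⊥ ∧ x ∈ sigmaA N U' ∧ x ∉ sigmaCore N := by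
  have hσM : sigmaCore M ≤ M := (h50 M hM).1.1
  have hxM' : x ∈ M := hσM hx
  have hxC : x ∈ centralizer ({x} : Set G) := by
    rw [mem_centralizer_iff]
    intro h hh
    rw [Set.mem_singleton_iff.mp hh]
  have hord : orderOf x ≠ 1 := fun h => hx1 (orderOf_eq_one_iff.mp h)
  obtain ⟨q, hq, hqd⟩ := Nat.exists_prime_and_dvd hord
  obtain ⟨N, hN, hNneM, hNYN⟩ := exists_coatom_over hG M hM x hxM' hxM q hq hqd
  obtain ⟨hnc, -, -, hnil, hdisj, hcompl, hCN, hcomplC, hnormC, -⟩ :=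
    structN hG h50 h24 hE1 hPart M hM x hx q hq hqd N hN hNneM hNYN
  have hτ : ∀ p : ℕ, p.Prime → p ∣ orderOf x → p ∈ tau2 N := fun p hp hpd =>
    tau2_of_dvd hG h50 h09 h24 hE1 hPart M hM x hx hxM N hN hnc hcomplC p hp hpd
  have hxN : x ∈ N := hCN hxC
  have hxHat : x ∈ sigmaHat N := by
    refine ⟨hxN, ?_⟩
    by_contra hno
    apply hxM
    intro c hc
    obtain ⟨a, ha, b, hb, rfl⟩ := hcomplC.2.2.2 c hc
    have hb' := Subgroup.mem_inf.mp hb
    have hb1 : b = 1 := by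
      by_contra hb1
      exact hno ⟨b, hb'.1, hb1, (mem_centralizer_iff.mp hb'.2) x rfl⟩
    rw [hb1, mul_one]
    exact (Subgroup.mem_inf.mp ha).1
  have huniq := (h20 N hN (M ⊓ N) hcompl).2.2.2 x hxN hx1 hτ hxHat
  have hxσ : x ∉ sigmaCore N := by
    intro h
    have h1 : x ∈ sigmaCore N ⊓ M := Subgroup.mem_inf.mpr ⟨h, hxM'⟩
    rw [hdisj, Subgroup.mem_bot] at h1
    exact hx1 h1
  refine ⟨N, ⟨hN, hCN⟩, huniq.2, sigmaCore_eq_fittingHallOf hG h50 hN hnil, hnormC, hcomplC,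
    hcompl, ?_⟩
  intro K' U' hKU
  have hxV : x ∈ U' ⊔ sigmaCore N := mem_U_sup hKU hxN hτ
  refine ⟨?_, ⟨hxHat, hxV⟩, hxσ⟩
  intro hU
  rw [hU, bot_sup_eq] at hxV
  exact hxσ hxV

end Cfsg.Agent.Lib.Helper30.BG144
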