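import Mathlib
import Cfsg.Agent.Lib.Helper30.BG144b

set_option autoImplicit false

/-!
# Bender–Glauberman Theorem 14.4, the count (S1377) (helper30)

`|M̃_σ| = (|M_σ| − 1) · |G : M|`, where `M̃_σ` is the union of the conjugates of the cosets
`x R(x)`, `x ∈ M_σ`, `x ≠ 1`.
-/

namespace Cfsg.Agent.Lib.Helper30.BG144

open Cfsg Subgroup Cfsg.Agent.H58.BG10 Cfsg.Agent.H57.BG12 Cfsg.Agent.H76.BG12
  Cfsg.Agent.H47.BG12 Cfsg.Agent.Lib.Helper30.BG134
open scoped Pointwise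

universe u

variable {G : Type u} [Group G]

/-- Uniqueness of the `π`-part of an element. -/
theorem part_unique {a r a' r' : G} (hc : Commute a r) (hc' : Commute a' r') {s : ℕ}
    (hs : s ≠ 0) (ha : orderOf a ∣ s) (ha' : orderOf a' ∣ s) (hr : (orderOf r).Coprime s)
    (hr' : (orderOf r').Coprime s) (h : a * r = a' * r') : a = a' := by
  have hcop : (orderOf r * orderOf r').Coprime s := Nat.Coprime.mul_left hr hr'
  have hr1 : r ^ (orderOf r * orderOf r') = 1 := by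
    rw [pow_mul, pow_orderOf_eq_one, one_pow]
  have hr2 : r' ^ (orderOf r * orderOf r') = 1 := by
    rw [mul_comm, pow_mul, pow_orderOf_eq_one, one_pow]
  have h1 : a ^ (orderOf r * orderOf r') = a' ^ (orderOf r * orderOf r') := by
    have e1 : (a * r) ^ (orderOf r * orderOf r') = a ^ (orderOf r * orderOf r') := by
      rw [hc.mul_pow, hr1, mul_one]
    have e2 : (a' * r') ^ (orderOf r * orderOf r') = a' ^ (orderOf r * orderOf r') := by
      rw [hc'.mul_pow, hr2, mul_one]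
    rw [← e1, ← e2, h]
  obtain ⟨m, -, hm⟩ := Nat.exists_mul_mod_eq_of_coprime 1 hcop hs
  have hmod : (orderOf r * orderOf r') * m ≡ 1 [MOD s] := hm
  have e3 : a ^ ((orderOf r * orderOf r') * m) = a ^ 1 :=
    pow_eq_pow_iff_modEq.mpr (Nat.ModEq.of_dvd ha hmod)
  have e4 : a' ^ ((orderOf r * orderOf r') * m) = a' ^ 1 :=
    pow_eq_pow_iff_modEq.mpr (Nat.ModEq.of_dvd ha' hmod)
  rw [pow_one, pow_mul] at e3 e4
  rw [← e3, ← e4, h1]

/-- A normal complement of coprime order contains every element of coprime order. -/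
theorem mem_of_coprime_compl [Finite G] {H R C : Subgroup G} (hcompl : IsComplIn H R C)
    (hnorm : C ≤ normalizer (R : Set G)) {c : G} (hc : c ∈ C)
    (hcop : (orderOf c).Coprime (Nat.card H)) : c ∈ R := by
  have hRC : R ≤ C := hcompl.2.1
  haveI hWn : (R.subgroupOf C).Normal :=
    (Subgroup.normal_subgroupOf_iff_le_normalizer hRC).mpr hnorm
  have hidx : (R.subgroupOf C).index = Nat.card H := by
    have h1 := Cfsg.Agent.H73.BG12.card_mul_card_of_isComplIn hcompl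
    have h2 := (R.subgroupOf C).card_mul_index
    have h3 : Nat.card (R.subgroupOf C) = Nat.card R :=
      Nat.card_congr (Subgroup.subgroupOfEquivOfLe hRC).toEquiv
    rw [h3, h1, mul_comm] at h2
    exact Nat.eq_of_mul_eq_mul_right Nat.card_pos h2
  have hord : orderOf (⟨c, hc⟩ : ↥C) = orderOf c := Subgroup.orderOf_mk c hc
  have hcop' : ((R.subgroupOf C).index).Coprime (orderOf (⟨c, hc⟩ : ↥C)) := by
    rw [hord, hidx]
    exact hcop.symm
  have hpow : (⟨c, hc⟩ : ↥C) ^ (R.subgroupOf C).index ∈ R.subgroupOf C :=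
    Subgroup.pow_index_mem _ _
  obtain ⟨m, hm⟩ := exists_pow_eq_self_of_coprime hcop'
  have hmem : (⟨c, hc⟩ : ↥C) ∈ R.subgroupOf C := by
    rw [← hm]
    exact pow_mem hpow m
  exact Subgroup.mem_subgroupOf.mp hmem

/-- A conjugate of a non-identity element is not the identity. -/
theorem conj_ne_one_left {b z : G} (hz : z ≠ 1) : b⁻¹ * z * b ≠ 1 := by
  intro h
  apply hz
  have e : z = b * (b⁻¹ * z * b) * b⁻¹ := by group
  rw [e, h]
  group

/-- The abstract count: a family of subgroups `R a` acting regularly on the conjugates of `M`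
through `a`. -/
theorem tilde_count [Finite G] (M S : Subgroup G) (R : G → Subgroup G)
    (hS : ∀ m ∈ M, ∀ a ∈ S, m * a * m⁻¹ ∈ S)
    (h1 : ∀ a ∈ S, a ≠ 1 → ∀ r ∈ R a, a * r = r * a)
    (h2 : ∀ a ∈ S, a ≠ 1 → ∀ r ∈ R a, r ∈ M → r = 1)
    (h3 : ∀ a ∈ S, a ≠ 1 → ∀ u : G, u * a * u⁻¹ ∈ S → ∃ ρ ∈ R a, u * ρ ∈ M)
    (h4 : ∀ a ∈ S, a ≠ 1 → ∀ m ∈ M, ∀ r ∈ R a, m * r * m⁻¹ ∈ R (m * a * m⁻¹))
    (h5 : ∀ a ∈ S, a ≠ 1 → ∀ r ∈ R a, (orderOf r).Coprime (Nat.card S)) :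
    Set.ncard {g : G | ∃ a ∈ ((S : Set G) \ {1}), ∃ r ∈ R a, ∃ y : G,
      g = y * (a * r) * y⁻¹} = (Nat.card S - 1) * M.index := by
  classical
  -- separation of the parts
  have hK : ∀ a ∈ S, a ≠ 1 → ∀ r ∈ R a, ∀ a' ∈ S, a' ≠ 1 → ∀ r' ∈ R a', ∀ v : G,
      v * (a * r) * v⁻¹ = a' * r' → v * a * v⁻¹ = a' := by
    intro a ha ha1 r hr a' ha' ha'1 r' hr' v hv
    have hc0 : Commute a r := h1 a ha ha1 r hr
    have hc : Commute (v * a * v⁻¹) (v * r * v⁻¹) := (Commute.conj_iff v).mpr hc0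
    have hc' : Commute a' r' := h1 a' ha' ha'1 r' hr'
    have ho1 : orderOf (v * a * v⁻¹) = orderOf a :=
      orderOf_injective (MulAut.conj v).toMonoidHom (MulAut.conj v).injective a
    have ho2 : orderOf (v * r * v⁻¹) = orderOf r :=
      orderOf_injective (MulAut.conj v).toMonoidHom (MulAut.conj v).injective r
    refine part_unique hc hc' (Nat.card_pos (α := ↥S)).ne' ?_
      (Subgroup.orderOf_dvd_natCard S ha') ?_ (h5 a' ha' ha'1 r' hr') ?_
    · rw [ho1]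
      exact Subgroup.orderOf_dvd_natCard S ha
    · rw [ho2]
      exact h5 a ha ha1 r hr
    · rw [← hv]
      group
  -- base points
  have hbase : ∀ z : G, (∃ y : G, y⁻¹ * z * y ∈ S) → ∃ y : G, y⁻¹ * z * y ∈ S := fun z h => h
  choose! base hbase' using hbase
  obtain ⟨P, hP⟩ : ∃ P : Set (G × (G ⧸ M)), ∀ z c, (z, c) ∈ P ↔
      ∃ y : G, (y : G ⧸ M) = c ∧ y⁻¹ * z * y ∈ S ∧ z ≠ 1 :=
    ⟨{p | ∃ y : G, (y : G ⧸ M) = p.2 ∧ y⁻¹ * p.1 * y ∈ S ∧ p.1 ≠ 1}, fun z c => Iff.rfl⟩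
  have hrho : ∀ z : G, ∀ c : G ⧸ M, (z, c) ∈ P →
      ∃ ρ : G, ρ ∈ R ((base z)⁻¹ * z * base z) ∧ ((base z * ρ : G) : G ⧸ M) = c := by
    intro z c hp
    obtain ⟨y, hyc, hyS, hz1⟩ := (hP z c).mp hp
    have hb : (base z)⁻¹ * z * base z ∈ S := hbase' z ⟨y, hyS⟩
    have hu : (y⁻¹ * base z) * ((base z)⁻¹ * z * base z) * (y⁻¹ * base z)⁻¹ ∈ S := by
      have e : (y⁻¹ * base z) * ((base z)⁻¹ * z * base z) * (y⁻¹ * base z)⁻¹ = y⁻¹ * z * y := by
        group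
      rw [e]
      exact hyS
    obtain ⟨ρ, hρ, hρM⟩ := h3 _ hb (conj_ne_one_left hz1) _ hu
    refine ⟨ρ, hρ, ?_⟩
    rw [← hyc]
    symm
    rw [QuotientGroup.eq]
    have e : y⁻¹ * (base z * ρ) = y⁻¹ * base z * ρ := by group
    rw [e]
    exact hρM
  choose! rho hrho' using hrho
  obtain ⟨f, hf⟩ : ∃ f : G × (G ⧸ M) → G, ∀ z c, f (z, c) =
      base z * (((base z)⁻¹ * z * base z) * rho z c) * (base z)⁻¹ :=
    ⟨fun p => base p.1 * (((base p.1)⁻¹ * p.1 * base p.1) * rho p.1 p.2) * (base p.1)⁻¹,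
      fun z c => rfl⟩
  -- the set is the image of `P`
  have himg : {g : G | ∃ a ∈ ((S : Set G) \ {1}), ∃ r ∈ R a, ∃ y : G,
      g = y * (a * r) * y⁻¹} = f '' P := by
    ext g
    constructor
    · rintro ⟨a, ⟨haS, ha1⟩, r, hr, y, rfl⟩
      have ha1' : a ≠ 1 := ha1
      have haS' : a ∈ S := haS
      have hz1 : y * a * y⁻¹ ≠ 1 := fun h => ha1' (conj_eq_one_iff.mp h)
      have hex : ∃ y' : G, y'⁻¹ * (y * a * y⁻¹) * y' ∈ S := ⟨y, by
        have e : y⁻¹ * (y * a * y⁻¹) * y = a := by group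
        rw [e]
        exact haS'⟩
      have hb := hbase' (y * a * y⁻¹) hex
      obtain ⟨b, hbdef⟩ : ∃ b : G, b = base (y * a * y⁻¹) := ⟨_, rfl⟩
      rw [← hbdef] at hb
      have hv : (b⁻¹ * y) * a * (b⁻¹ * y)⁻¹ ∈ S := by
        have e : (b⁻¹ * y) * a * (b⁻¹ * y)⁻¹ = b⁻¹ * (y * a * y⁻¹) * b := by group
        rw [e]
        exact hb
      obtain ⟨ρ₀, hρ₀, hρ₀M⟩ := h3 a haS' ha1' _ hv
      have hcomm : ρ₀ * a * ρ₀⁻¹ = a := by
        have h := h1 a haS' ha1' ρ₀ hρ₀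
        rw [← h]
        group
      have hmam : (b⁻¹ * y * ρ₀) * a * (b⁻¹ * y * ρ₀)⁻¹ = b⁻¹ * (y * a * y⁻¹) * b := by
        have e : (b⁻¹ * y * ρ₀) * a * (b⁻¹ * y * ρ₀)⁻¹ =
            b⁻¹ * y * (ρ₀ * a * ρ₀⁻¹) * y⁻¹ * b := by group
        rw [e, hcomm]
        group
      have hρ1 : (b⁻¹ * y * ρ₀) * (ρ₀⁻¹ * r * ρ₀) * (b⁻¹ * y * ρ₀)⁻¹ ∈
          R ((b⁻¹ * y * ρ₀) * a * (b⁻¹ * y * ρ₀)⁻¹) :=
        h4 a haS' ha1' _ hρ₀M _ (mul_mem (mul_mem (inv_mem hρ₀) hr) hρ₀)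
      rw [hmam] at hρ1
      have hρeq : (b⁻¹ * y * ρ₀) * (ρ₀⁻¹ * r * ρ₀) * (b⁻¹ * y * ρ₀)⁻¹ =
          b⁻¹ * y * r * y⁻¹ * b := by group
      rw [hρeq] at hρ1
      have hb1 : b⁻¹ * (y * a * y⁻¹) * b ≠ 1 := conj_ne_one_left hz1
      have hρcomm := h1 _ hb hb1 _ hρ1
      have hpP : ((y * a * y⁻¹, ((b * (b⁻¹ * y * r * y⁻¹ * b) : G) : G ⧸ M)) :
          G × (G ⧸ M)) ∈ P := by
        rw [hP]
        refine ⟨b * (b⁻¹ * y * r * y⁻¹ * b), rfl, ?_, hz1⟩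
        have e : (b * (b⁻¹ * y * r * y⁻¹ * b))⁻¹ * (y * a * y⁻¹) *
            (b * (b⁻¹ * y * r * y⁻¹ * b)) = (b⁻¹ * y * r * y⁻¹ * b)⁻¹ *
            ((b⁻¹ * (y * a * y⁻¹) * b) * (b⁻¹ * y * r * y⁻¹ * b)) := by group
        rw [e, hρcomm]
        have e2 : (b⁻¹ * y * r * y⁻¹ * b)⁻¹ * ((b⁻¹ * y * r * y⁻¹ * b) *
            (b⁻¹ * (y * a * y⁻¹) * b)) = b⁻¹ * (y * a * y⁻¹) * b := by group
        rw [e2]
        exact hb
      refine ⟨_, hpP, ?_⟩
      obtain ⟨hρ', hρ'c⟩ := hrho' _ _ hpP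
      rw [← hbdef] at hρ' hρ'c
      have hρρ : rho (y * a * y⁻¹) ((b * (b⁻¹ * y * r * y⁻¹ * b) : G) : G ⧸ M) =
          b⁻¹ * y * r * y⁻¹ * b := by
        have hmem : (b⁻¹ * y * r * y⁻¹ * b)⁻¹ *
            rho (y * a * y⁻¹) ((b * (b⁻¹ * y * r * y⁻¹ * b) : G) : G ⧸ M) ∈ M := by
          have h := QuotientGroup.eq.mp hρ'c.symm
          have e : (b * (b⁻¹ * y * r * y⁻¹ * b))⁻¹ *
              (b * rho (y * a * y⁻¹) ((b * (b⁻¹ * y * r * y⁻¹ * b) : G) : G ⧸ M)) =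
              (b⁻¹ * y * r * y⁻¹ * b)⁻¹ *
              rho (y * a * y⁻¹) ((b * (b⁻¹ * y * r * y⁻¹ * b) : G) : G ⧸ M) := by group
          rwa [e] at h
        have h := h2 _ hb hb1 _ (mul_mem (inv_mem hρ1) hρ') hmem
        exact (inv_mul_eq_one.mp h).symm
      rw [hf, ← hbdef, hρρ]
      group
    · rintro ⟨⟨z, c⟩, hp, rfl⟩
      obtain ⟨y, hyc, hyS, hz1⟩ := (hP z c).mp hp
      have hb : (base z)⁻¹ * z * base z ∈ S := hbase' z ⟨y, hyS⟩
      rw [hf]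
      exact ⟨_, ⟨hb, conj_ne_one_left hz1⟩, rho z c, (hrho' z c hp).1, base z, rfl⟩
  have hinj : Set.InjOn f P := by
    rintro ⟨z, c⟩ hp ⟨z', c'⟩ hp' hff
    rw [hf, hf] at hff
    obtain ⟨y, hyc, hyS, hz1⟩ := (hP z c).mp hp
    obtain ⟨y', hyc', hyS', hz1'⟩ := (hP z' c').mp hp'
    have hb := hbase' z ⟨y, hyS⟩
    have hb' := hbase' z' ⟨y', hyS'⟩
    obtain ⟨hρ, hρc⟩ := hrho' z c hp
    obtain ⟨hρ', hρc'⟩ := hrho' z' c' hp'
    have hv : ((base z')⁻¹ * base z) * (((base z)⁻¹ * z * base z) * rho z c) *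
        ((base z')⁻¹ * base z)⁻¹ = ((base z')⁻¹ * z' * base z') * rho z' c' := by
      have e : ((base z')⁻¹ * base z) * (((base z)⁻¹ * z * base z) * rho z c) *
          ((base z')⁻¹ * base z)⁻¹ = (base z')⁻¹ *
          (base z * (((base z)⁻¹ * z * base z) * rho z c) * (base z)⁻¹) * base z' := by group
      rw [e, hff]
      group
    have hKK := hK _ hb (conj_ne_one_left hz1) _ hρ _ hb' (conj_ne_one_left hz1') _ hρ' _ hv
    have hzz : z = z' := by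
      have e : ((base z')⁻¹ * base z) * ((base z)⁻¹ * z * base z) * ((base z')⁻¹ * base z)⁻¹ =
          (base z')⁻¹ * z * base z' := by group
      rw [e] at hKK
      exact mul_left_cancel (mul_right_cancel hKK)
    subst hzz
    have hρρ : rho z c = rho z c' := mul_left_cancel (mul_left_cancel (mul_right_cancel hff))
    have hcc : c = c' := by rw [← hρc, ← hρc', hρρ]
    rw [hcc]
  rw [himg, hinj.ncard_image]
  -- count `P`
  obtain ⟨h, hh⟩ : ∃ h : (G ⧸ M) × G → G × (G ⧸ M), ∀ c a, h (c, a) =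
      (Quotient.out c * a * (Quotient.out c)⁻¹, c) :=
    ⟨fun p => (Quotient.out p.1 * p.2 * (Quotient.out p.1)⁻¹, p.1), fun c a => rfl⟩
  have hhinj : Function.Injective h := by
    rintro ⟨c, a⟩ ⟨c', a'⟩ heq
    rw [hh, hh] at heq
    obtain ⟨e1, e2⟩ := Prod.mk.inj heq
    subst e2
    have e3 : a = a' := mul_left_cancel (mul_right_cancel e1)
    rw [e3]
  have hPimg : P = h '' ((Set.univ : Set (G ⧸ M)) ×ˢ ((S : Set G) \ {1})) := by
    ext ⟨z, c⟩
    rw [hP]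
    constructor
    · rintro ⟨y, hyc, hyS, hz1⟩
      refine ⟨(c, (Quotient.out c)⁻¹ * z * Quotient.out c), ⟨Set.mem_univ _, ?_, ?_⟩, ?_⟩
      · obtain ⟨m, hm⟩ := QuotientGroup.mk_out_eq_mul M y
        rw [hyc] at hm
        show (Quotient.out c)⁻¹ * z * Quotient.out c ∈ S
        rw [hm]
        have e : (y * (m : G))⁻¹ * z * (y * (m : G)) =
            (m : G)⁻¹ * (y⁻¹ * z * y) * ((m : G)⁻¹)⁻¹ := by group
        rw [e]
        exact hS _ (inv_mem m.2) _ hyS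
      · exact conj_ne_one_left hz1
      · rw [hh]
        have e : Quotient.out c * ((Quotient.out c)⁻¹ * z * Quotient.out c) *
            (Quotient.out c)⁻¹ = z := by group
        rw [e]
    · rintro ⟨⟨c', a⟩, ⟨-, haS, ha1⟩, heq⟩
      rw [hh] at heq
      obtain ⟨e1, e2⟩ := Prod.mk.inj heq
      subst e2
      have ha1' : a ≠ 1 := ha1
      refine ⟨Quotient.out c', QuotientGroup.out_eq' c', ?_, ?_⟩
      · rw [← e1]
        have e : (Quotient.out c')⁻¹ * (Quotient.out c' * a * (Quotient.out c')⁻¹) *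
            Quotient.out c' = a := by group
        rw [e]
        exact haS
      · rw [← e1]
        exact fun h0 => ha1' (conj_eq_one_iff.mp h0)
  rw [hPimg, Set.ncard_image_of_injective _ hhinj, Set.ncard_prod, Set.ncard_univ,
    Set.ncard_sdiff_singleton_of_mem (SetLike.mem_coe.mpr (one_mem S)),
    ← Subgroup.index_eq_card, mul_comm]
  congr 2

/-- `x ∈ C_G(a)` iff `a` and `x` commute. -/
theorem mem_cent_single {a x : G} : x ∈ centralizer ({a} : Set G) ↔ a * x = x * a := by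
  rw [mem_centralizer_iff]
  constructor
  · intro h
    exact h a rfl
  · intro h y hy
    rw [Set.mem_singleton_iff.mp hy]
    exact h

/-- Description of `supportR M a` for `a ∈ M_σ`, `a ≠ 1`. -/
theorem supportR_spec [Finite G] (hG : IsMinSimpleOddOrder G) (h50 : St1350 G) (h09 : St1409 G)
    (h20 : St1420 G) (h24 : St1424 G) (hE1 : StEmbE1 G) (hPart : StPart G) (M : Subgroup G)
    (hM : IsCoatom M) (a : G) (ha : a ∈ sigmaCore M) (ha1 : a ≠ 1) :
    supportR M a ≤ centralizer ({a} : Set G) ∧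
      IsComplIn (M ⊓ centralizer ({a} : Set G)) (supportR M a) (centralizer ({a} : Set G)) ∧
      centralizer ({a} : Set G) ≤ normalizer ((supportR M a : Subgroup G) : Set G) ∧
      ∀ r ∈ supportR M a, (orderOf r).Coprime (Nat.card (sigmaCore M)) := by
  by_cases hC : centralizer ({a} : Set G) ≤ M
  · have hR : supportR M a = ⊥ := by
      unfold supportR
      rw [dif_neg (show ¬ (¬ centralizer ({a} : Set G) ≤ M ∧
        ∃! L : Subgroup G, IsCoatom L ∧ centralizer ({a} : Set G) ≤ L) from fun h => h.1 hC)]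
    rw [hR]
    refine ⟨bot_le, ⟨inf_le_right, bot_le, inf_bot_eq _, fun m hm =>
      ⟨m, ⟨hC hm, hm⟩, 1, Subgroup.mem_bot.mpr rfl, (mul_one m).symm⟩⟩, ?_, ?_⟩
    · rw [Subgroup.le_normalizer_iff]
      intro h _ k hk
      rw [Subgroup.mem_bot] at hk
      rw [hk, mul_one, mul_inv_cancel]
      exact Subgroup.mem_bot.mpr rfl
    · intro r hr
      rw [Subgroup.mem_bot.mp hr, orderOf_one]
      exact Nat.coprime_one_left _
  · obtain ⟨N, ⟨hN, hCN⟩, huniq, hFH, hnormC, hcomplC, -, -⟩ :=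
      centUniq hG h50 h09 h20 h24 hE1 hPart M hM a ha ha1 hC
    have hcond : ¬ centralizer ({a} : Set G) ≤ M ∧
        ∃! L : Subgroup G, IsCoatom L ∧ centralizer ({a} : Set G) ≤ L :=
      ⟨hC, N, ⟨hN, hCN⟩, fun L hL => huniq L hL.1 hL.2⟩
    have hR : supportR M a = sigmaCore N ⊓ centralizer ({a} : Set G) := by
      unfold supportR
      rw [dif_pos hcond]
      have hch := Classical.choose_spec hcond.2.exists
      rw [huniq _ hch.1 hch.2, hFH]
    rw [hR]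
    refine ⟨inf_le_right, hcomplC, hnormC, ?_⟩
    -- `N` is not conjugate to `M`
    have hσM : sigmaCore M ≤ M := (h50 M hM).1.1
    have hord : orderOf a ≠ 1 := fun h => ha1 (orderOf_eq_one_iff.mp h)
    obtain ⟨q, hq, hqd⟩ := Nat.exists_prime_and_dvd hord
    obtain ⟨N₂, hN₂, hN₂neM, hNYN₂⟩ := exists_coatom_over hG M hM a (hσM ha) hC q hq hqd
    obtain ⟨hnc, -, -, -, -, -, hCN₂, -, -, -⟩ :=
      structN hG h50 h24 hE1 hPart M hM a ha q hq hqd N₂ hN₂ hN₂neM hNYN₂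
    have hNN : N₂ = N := huniq N₂ hN₂ hCN₂
    rw [hNN] at hnc
    intro r hr
    apply Nat.coprime_of_dvd
    intro p hp hp1 hp2
    have hpN : p ∈ sigma N := (h50 N hN).1.2.1 p hp
      (hp1.trans (Subgroup.orderOf_dvd_natCard _ (Subgroup.mem_inf.mp hr).1))
    have hpM : p ∈ sigma M := (h50 M hM).1.2.1 p hp hp2
    obtain ⟨g, hg⟩ := hPart M N hM hN ⟨p, hpM, hpN⟩
    exact hnc g hg

/-- Regularity: a conjugate of `a` inside `M_σ` is reached through `R(a)` and `M`. -/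
theorem supportR_reg [Finite G] (hG : IsMinSimpleOddOrder G) (h50 : St1350 G) (h04 : St1404 G)
    (h09 : St1409 G) (h20 : St1420 G) (h24 : St1424 G) (hE1 : StEmbE1 G) (hPart : StPart G)
    (M : Subgroup G) (hM : IsCoatom M) (a : G) (ha : a ∈ sigmaCore M) (ha1 : a ≠ 1) (u : G)
    (hu : u * a * u⁻¹ ∈ sigmaCore M) : ∃ ρ ∈ supportR M a, u * ρ ∈ M := by
  have hσM : sigmaCore M ≤ M := (h50 M hM).1.1
  have hM1 : M ≠ ⊥ := fun h => ha1 (by
    have := hσM ha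
    rw [h, Subgroup.mem_bot] at this
    exact this)
  have hNM : normalizer (M : Set G) = M :=
    Cfsg.Agent.H31.BG8.normalizer_eq_of_coatom' hG hM hM1 hM.1 Subgroup.le_normalizer
  obtain ⟨-, hcompl, -, -⟩ := supportR_spec hG h50 h09 h20 h24 hE1 hPart M hM a ha ha1
  obtain ⟨-, R₀, -, hc₀, hreg⟩ := centStruct hG h50 h04 h24 hE1 hPart M hM a ha ha1
  have haconj : a ∈ M.map (MulAut.conj u⁻¹).toMonoidHom := by
    refine ⟨u * a * u⁻¹, hσM hu, ?_⟩
    show u⁻¹ * (u * a * u⁻¹) * u⁻¹⁻¹ = a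
    group
  obtain ⟨ρ₀, ⟨hρ₀R, hρ₀conj⟩, -⟩ := hreg u⁻¹ haconj
  have hρ₀C : ρ₀ ∈ centralizer ({a} : Set G) := hc₀.2.1 hρ₀R
  obtain ⟨h, hh, ρ, hρ, hdec⟩ := hcompl.2.2.2 ρ₀⁻¹ (inv_mem hρ₀C)
  have h1 : MulAut.conj (u * ρ₀) • M = M := by
    have h2 : MulAut.conj ρ₀ • M = MulAut.conj u⁻¹ • M := by
      rw [← Cfsg.Agent.H63.Sig.map_conj_eq_smul, ← Cfsg.Agent.H63.Sig.map_conj_eq_smul,
        hρ₀conj]
    rw [Cfsg.Agent.H63.Sig.cj_mul, h2, Cfsg.Agent.H63.Sig.cj_cj_inv]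
  have h3 : u * ρ₀ ∈ M := by
    have := Cfsg.Agent.H63.Sig.mem_normalizer_of_cj_eq h1
    rw [hNM] at this
    exact this
  refine ⟨ρ⁻¹, inv_mem hρ, ?_⟩
  have e : u * ρ⁻¹ = (u * ρ₀) * h := by
    have e1 : ρ⁻¹ = ρ₀ * h := by
      have e2 : ρ = h⁻¹ * ρ₀⁻¹ := by
        rw [hdec]
        group
      rw [e2]
      group
    rw [e1]
    group
  rw [e]
  exact mul_mem h3 (Subgroup.mem_inf.mp hh).1

/-- `M`-equivariance of `R`. -/
theorem supportR_equiv [Finite G] (hG : IsMinSimpleOddOrder G) (h50 : St1350 G) (h04 : St1404 G)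
    (h09 : St1409 G) (h20 : St1420 G) (h24 : St1424 G) (hE1 : StEmbE1 G) (hPart : StPart G)
    (M : Subgroup G) (hM : IsCoatom M) (a : G) (ha : a ∈ sigmaCore M) (ha1 : a ≠ 1) (m : G)
    (hm : m ∈ M) (r : G) (hr : r ∈ supportR M a) :
    m * r * m⁻¹ ∈ supportR M (m * a * m⁻¹) := by
  have ha' : m * a * m⁻¹ ∈ sigmaCore M := conj_mem_sigmaCore hm ha
  have ha'1 : m * a * m⁻¹ ≠ 1 := fun h => ha1 (conj_eq_one_iff.mp h)
  obtain ⟨hRC, hcompl, -, -⟩ := supportR_spec hG h50 h09 h20 h24 hE1 hPart M hM a ha ha1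
  obtain ⟨-, hcompl', hnorm', -⟩ :=
    supportR_spec hG h50 h09 h20 h24 hE1 hPart M hM (m * a * m⁻¹) ha' ha'1
  obtain ⟨hcop, -⟩ := centStruct hG h50 h04 h24 hE1 hPart M hM a ha ha1
  rw [relIndex_of_isComplIn hcompl] at hcop
  have hcard : Nat.card ↥(M ⊓ centralizer ({m * a * m⁻¹} : Set G)) =
      Nat.card ↥(M ⊓ centralizer ({a} : Set G)) := by
    refine (Nat.card_congr (Equiv.subtypeEquiv (MulAut.conj m).toEquiv ?_)).symm
    intro x
    show x ∈ M ⊓ centralizer ({a} : Set G) ↔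
      m * x * m⁻¹ ∈ M ⊓ centralizer ({m * a * m⁻¹} : Set G)
    rw [Subgroup.mem_inf, Subgroup.mem_inf, mem_cent_single, mem_cent_single]
    constructor
    · rintro ⟨hx, hxa⟩
      exact ⟨mul_mem (mul_mem hm hx) (inv_mem hm), ((Commute.conj_iff m).mpr hxa : _)⟩
    · rintro ⟨hx, hxa⟩
      refine ⟨?_, ((Commute.conj_iff m).mp hxa : _)⟩
      have e : x = m⁻¹ * (m * x * m⁻¹) * m := by group
      rw [e]
      exact mul_mem (mul_mem (inv_mem hm) hx) hm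
  have hc : m * r * m⁻¹ ∈ centralizer ({m * a * m⁻¹} : Set G) := by
    rw [mem_cent_single]
    exact ((Commute.conj_iff m).mpr (mem_cent_single.mp (hRC hr)) : _)
  have ho : orderOf (m * r * m⁻¹) = orderOf r :=
    orderOf_injective (MulAut.conj m).toMonoidHom (MulAut.conj m).injective r
  refine mem_of_coprime_compl hcompl' hnorm' hc ?_
  rw [ho, hcard]
  exact (hcop.coprime_dvd_right (Subgroup.orderOf_dvd_natCard _ hr)).symm

/-- S1377 from the landed Props. -/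
theorem tildeCount [Finite G] (hG : IsMinSimpleOddOrder G) (h50 : St1350 G) (h04 : St1404 G)
    (h09 : St1409 G) (h20 : St1420 G) (h24 : St1424 G) (hE1 : StEmbE1 G) (hPart : StPart G)
    (M : Subgroup G) (hM : IsCoatom M) :
    Set.ncard (tildeOf M ((sigmaCore M : Set G) \ {1})) =
      (Nat.card (sigmaCore M) - 1) * M.index := by
  refine tilde_count M (sigmaCore M) (supportR M)
    (fun m hm a ha => conj_mem_sigmaCore hm ha) ?_ ?_ ?_ ?_ ?_
  · intro a ha ha1 r hr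
    exact mem_cent_single.mp
      ((supportR_spec hG h50 h09 h20 h24 hE1 hPart M hM a ha ha1).1 hr)
  · intro a ha ha1 r hr hrM
    obtain ⟨hRC, hcompl, -, -⟩ := supportR_spec hG h50 h09 h20 h24 hE1 hPart M hM a ha ha1
    have h1 : r ∈ (M ⊓ centralizer ({a} : Set G)) ⊓ supportR M a :=
      Subgroup.mem_inf.mpr ⟨Subgroup.mem_inf.mpr ⟨hrM, hRC hr⟩, hr⟩
    rw [hcompl.2.2.1, Subgroup.mem_bot] at h1
    exact h1
  · intro a ha ha1 u hu
    exact supportR_reg hG h50 h04 h09 h20 h24 hE1 hPart M hM a ha ha1 u hu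
  · intro a ha ha1 m hm r hr
    exact supportR_equiv hG h50 h04 h09 h20 h24 hE1 hPart M hM a ha ha1 m hm r hr
  · intro a ha ha1 r hr
    exact (supportR_spec hG h50 h09 h20 h24 hE1 hPart M hM a ha ha1).2.2.2 r hr

end Cfsg.Agent.Lib.Helper30.BG144
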