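import Mathlib
import Cfsg.Agent.H77.UfDefs

set_option autoImplicit false

/-!
# UF-SIMPLEDEG (helper30, for helper77's S2149)

A finite simple group embeds in the symmetric group on the cosets of a proper subgroup, so its
order divides the factorial of the index.
-/

universe u

namespace Cfsg.Agent.Lib.Helper30.Uf

theorem simpleDeg : Cfsg.Agent.H77.Uf.StSimpleDeg.{u} := by
  intro G _ _ hG H hH
  haveI := hG
  have hcore : H.normalCore = ⊥ := by
    rcases (Subgroup.normalCore_normal H).eq_bot_or_eq_top with h | h
    · exact h
    · exfalso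
      apply hH
      rw [eq_top_iff, ← h]
      exact Subgroup.normalCore_le H
  have hinj : Function.Injective (MulAction.toPermHom G (G ⧸ H)) := by
    rw [← MonoidHom.ker_eq_bot_iff, ← Subgroup.normalCore_eq_ker]
    exact hcore
  have h1 := Subgroup.card_dvd_of_injective (MulAction.toPermHom G (G ⧸ H)) hinj
  rw [Nat.card_perm] at h1
  exact h1

example : Cfsg.Agent.H77.Uf.StSimpleDeg.{u} := simpleDeg

end Cfsg.Agent.Lib.Helper30.Uf
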