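import Mathlib
import Cfsg.Agent.H58.KUDefs
import Cfsg.Agent.S1419
import Cfsg.Agent.S1428

set_option autoImplicit false

/-!
# Z-FAITH (helper30, for helper58's step (Z) towards S1353 / S1354)

`E₁` acts faithfully on every line `⟨b⟩ ≠ A₀` of `A`: an element `e ≠ 1` of `E₁` commuting with
`b` has a power `e'` of prime order `q ∈ τ₁(M)`; by S1428, `C_{M_σ}(e') ≤ C_{M_σ}(b) = 1` (S1419),
against `1 ≠ K* ≤ C_{M_σ}(E₁) ≤ C_{M_σ}(e')`.
-/

namespace Cfsg.Agent.Lib.Helper30.KU

open Cfsg Subgroup Cfsg.Agent.H76.NCKill Cfsg.Agent.H58.KU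

universe u

variable {G : Type u} [Group G]

/-- For a prime `q` dividing the order of `e`, some power of `e` has order `q`. -/
theorem exists_pow_orderOf_eq_prime [Finite G] {e : G} {q : ℕ} (hqd : q ∣ orderOf e) :
    ∃ m : ℕ, orderOf (e ^ m) = q :=
  ⟨orderOf e / q, orderOf_pow_orderOf_div (orderOf_pos e).ne' hqd⟩

/-- An element `e ≠ 1` of a finite group has a power of prime order. -/
theorem exists_pow_prime_order [Finite G] {e : G} (he : e ≠ 1) :
    ∃ (q m : ℕ), q.Prime ∧ q ∣ orderOf e ∧ orderOf (e ^ m) = q := by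
  have h1 : orderOf e ≠ 1 := fun h => he (orderOf_eq_one_iff.mp h)
  obtain ⟨q, hq, hqd⟩ := Nat.exists_prime_and_dvd h1
  obtain ⟨m, hm⟩ := exists_pow_orderOf_eq_prime hqd
  exact ⟨q, m, hq, hqd, hm⟩

/-- `b` centralizes `⟨x⟩` when it commutes with `x`. -/
theorem mem_centralizer_zpowers {x b : G} (h : x * b = b * x) :
    b ∈ centralizer ((zpowers x : Subgroup G) : Set G) := by
  rw [Subgroup.mem_centralizer_iff]
  intro y hy
  obtain ⟨k, rfl⟩ := Subgroup.mem_zpowers_iff.mp hy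
  exact (Commute.zpow_left (show Commute x b from h) k).eq

theorem zFaith [Finite G] : Cfsg.Agent.H58.KU.StZFaith G := by
  intro hG M E A P r p _ h E1 hE1 hPE1 hK b hbA hbr hbne e he heb
  by_contra he1
  have hr : r.Prime := Fact.out
  obtain ⟨q, m, hq, hqd, hqo⟩ := exists_pow_prime_order he1
  have hE1E : E1 ≤ E := hE1.1
  have hem : e ^ m ∈ E1 := pow_mem he m
  have hqτ : q ∈ tau1 M := hE1.2.1 q hq (hqd.trans (Subgroup.orderOf_dvd_natCard _ he))
  have hbE : b ∈ E := h.AE hbA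
  have hcardb : Nat.card (zpowers b) = r := by rw [Nat.card_zpowers, hbr]
  have hcarde : Nat.card (zpowers (e ^ m)) = q := by rw [Nat.card_zpowers, hqo]
  have hcomm : (e ^ m) * b = b * (e ^ m) := (Commute.pow_left (show Commute e b from heb) m).eq
  have hRE : zpowers b ≤ E ⊓ centralizer ((zpowers (e ^ m) : Subgroup G) : Set G) := by
    rw [Subgroup.zpowers_le]
    exact Subgroup.mem_inf.mpr ⟨hbE, mem_centralizer_zpowers hcomm⟩
  have h28 := Cfsg.Agent.S1428.result hG M h.coatom E h.compl q hqτ (zpowers (e ^ m))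
    ((Subgroup.zpowers_le).mpr (hE1E hem)) hcarde (zpowers b) hRE (by rw [hcardb]; exact hr)
  have h19 := (Cfsg.Agent.S1419.result hG M h.coatom E h.compl r h.tau2 h.nonab A
    ⟨h.AE, h.Ael, h.Acard⟩).2.2 (zpowers b) ((Subgroup.zpowers_le).mpr hbE) hcardb hbne
  apply h.Kstar
  rw [eq_bot_iff]
  intro x hx
  have hx1 : x ∈ sigmaCore M ⊓ centralizer ((zpowers (e ^ m) : Subgroup G) : Set G) := by
    refine Subgroup.mem_inf.mpr ⟨(Subgroup.mem_inf.mp hx).1, ?_⟩
    exact Subgroup.centralizer_le (fun y hy => ((Subgroup.zpowers_le).mpr hem) hy) (hK hx)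
  have h2 := h28 hx1
  rw [h19.1] at h2
  exact h2

example [Finite G] : Cfsg.Agent.H58.KU.StZFaith G := zFaith

end Cfsg.Agent.Lib.Helper30.KU
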