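import Cfsg.Agent.Lib.Helper30.ZGHyp

/-!
# The abelian case of the key configuration (helper30)
-/

set_option autoImplicit false
set_option linter.unusedSectionVars false
set_option linter.style.haveILetI false
set_option linter.unusedVariables false

namespace Cfsg.Agent.Lib.Helper30.ZG

open Subgroup
open scoped commutatorElement Pointwise
open Cfsg.Agent.H58.FrobAct (mem_normalizer_of_conj conj_mem_of_mem_normalizer
  normalizer_inf_centralizer normalizer_commutator abelian_le_normalizer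
  centralizer_inf_commutator_eq_bot conjAut conjAut_apply)
open Cfsg.Agent.H58.FrobWielandt (mem_centralizer_sup)

variable {G : Type*} [Group G] [Finite G]

theorem exists_ne_one_of_ne_bot {H : Subgroup G} (h : H ≠ ⊥) : ∃ x ∈ H, x ≠ 1 := by
  by_contra hcon
  exact h ((eq_bot_iff_forall H).mpr (fun x hx => by_contra fun hne => hcon ⟨x, hx, hne⟩))

theorem conj_mem_centralizer_map {B : Subgroup G} {g c : G}
    (hc : c ∈ centralizer (B : Set G)) :
    g * c * g⁻¹ ∈ centralizer ((B.map (MulAut.conj g).toMonoidHom : Subgroup G) : Set G) := by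
  rw [mem_centralizer_iff] at hc ⊢
  intro y hy
  have hy' : g⁻¹ * y * g ∈ B := (mem_map_conj_iff g B y).mp hy
  have h1 := hc _ hy'
  calc y * (g * c * g⁻¹) = g * ((g⁻¹ * y * g) * c) * g⁻¹ := by group
    _ = g * (c * (g⁻¹ * y * g)) * g⁻¹ := by rw [h1]
    _ = g * c * g⁻¹ * y := by group

theorem map_conj_le_of_mem_normalizer {B Q : Subgroup G} {g : G} (hB : B ≤ Q)
    (hg : g ∈ normalizer (Q : Set G)) : B.map (MulAut.conj g).toMonoidHom ≤ Q := by
  intro y hy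
  have hy' : g⁻¹ * y * g ∈ B := (mem_map_conj_iff g B y).mp hy
  have h1 := (mem_normalizer_iff.mp hg _).mp (hB hy')
  have e : g * (g⁻¹ * y * g) * g⁻¹ = y := by group
  rwa [e] at h1

theorem map_conj_eq_of_mem_normalizer {B : Subgroup G} {g : G}
    (hg : g ∈ normalizer (B : Set G)) : B.map (MulAut.conj g).toMonoidHom = B :=
  (mem_normalizer_iff_map_conj g B).mp hg

/-- `n` is a norm of `v` under `R₀`. -/
def IsNorm (V₁ R₀ : Subgroup G) (v n : G) : Prop :=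
  n ∈ V₁ ∧ n ∈ centralizer (R₀ : Set G) ∧
    ∀ S : Subgroup G, (∀ x ∈ R₀, x ≠ 1 → x * v * x⁻¹ ∈ S) → v⁻¹ * n ∈ S

theorem isNorm_one (V₁ R₀ : Subgroup G) : IsNorm V₁ R₀ 1 1 :=
  ⟨one_mem _, one_mem _, fun S _ => by simp⟩

theorem eq_one_of_isNorm_one {V₁ R₀ : Subgroup G} {n : G} (h : IsNorm V₁ R₀ 1 n) : n = 1 := by
  have h1 := h.2.2 ⊥ (fun x _ _ => by simp)
  simpa using h1

theorem conj_mem_commutator {q : ℕ} (hq : q.Prime) {V₁ Q B B' : Subgroup G}
    (hQc : ∀ a ∈ Q, ∀ b ∈ Q, a * b = b * a) (hQV₁ : Q ≤ normalizer (V₁ : Set G))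
    (hcop : (Nat.card Q).Coprime (Nat.card V₁)) (hfix : V₁ ⊓ centralizer (Q : Set G) = ⊥)
    (hB : B ≤ Q) (hBcard : Nat.card B * q = Nat.card Q) (hB' : B' ≤ Q) {x : G}
    (hxQ : x ∈ normalizer (Q : Set G)) (hxV : x ∈ normalizer (V₁ : Set G))
    (hne : ¬ B'.map (MulAut.conj x).toMonoidHom ≤ B) {v : G}
    (hv : v ∈ V₁ ⊓ centralizer (B' : Set G)) : x * v * x⁻¹ ∈ ⁅V₁, B⁆ := by
  have h1 : B'.map (MulAut.conj x).toMonoidHom ≤ Q := map_conj_le_of_mem_normalizer hB' hxQ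
  have hsup := sup_eq_of_hyperplane hq hB h1 hBcard hne
  apply centralizer_le_commutator_of_sup hQc hQV₁ hcop hfix hB h1 hsup
  obtain ⟨hv1, hv2⟩ := mem_inf.mp hv
  exact mem_inf.mpr ⟨(mem_normalizer_iff.mp hxV v).mp hv1, conj_mem_centralizer_map hv2⟩

theorem norm_inj {q : ℕ} (hq : q.Prime) {V₁ Q R₀ B : Subgroup G}
    (hV₁c : ∀ a ∈ V₁, ∀ b ∈ V₁, a * b = b * a)
    (hQc : ∀ a ∈ Q, ∀ b ∈ Q, a * b = b * a) (hQV₁ : Q ≤ normalizer (V₁ : Set G))
    (hcop : (Nat.card Q).Coprime (Nat.card V₁)) (hfix : V₁ ⊓ centralizer (Q : Set G) = ⊥)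
    (hRV₁ : R₀ ≤ normalizer (V₁ : Set G)) (hRQ : R₀ ≤ normalizer (Q : Set G))
    (hB : B ≤ Q) (hBcard : Nat.card B * q = Nat.card Q)
    (hfree : ∀ x ∈ R₀, x ≠ 1 → ¬ B.map (MulAut.conj x).toMonoidHom ≤ B)
    {v v' n : G} (hv : v ∈ V₁ ⊓ centralizer (B : Set G))
    (hv' : v' ∈ V₁ ⊓ centralizer (B : Set G))
    (hn : IsNorm V₁ R₀ v n) (hn' : IsNorm V₁ R₀ v' n) : v = v' := by
  have hS : ∀ w ∈ V₁ ⊓ centralizer (B : Set G), ∀ x ∈ R₀, x ≠ 1 →
      x * w * x⁻¹ ∈ ⁅V₁, B⁆ := fun w hw x hx hx1 =>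
    conj_mem_commutator hq hQc hQV₁ hcop hfix hB hBcard hB (hRQ hx) (hRV₁ hx)
      (hfree x hx hx1) hw
  have h1 := hn.2.2 ⁅V₁, B⁆ (hS v hv)
  have h2 := hn'.2.2 ⁅V₁, B⁆ (hS v' hv')
  have h3 : v⁻¹ * v' ∈ ⁅V₁, B⁆ := by
    have e : v⁻¹ * v' = (v⁻¹ * n) * (v'⁻¹ * n)⁻¹ := by group
    rw [e]; exact mul_mem h1 (inv_mem h2)
  have h4 : v⁻¹ * v' ∈ V₁ ⊓ centralizer (B : Set G) := mul_mem (inv_mem hv) hv'
  have hBV₁ : B ≤ normalizer (V₁ : Set G) := hB.trans hQV₁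
  have hcopB : (Nat.card B).Coprime (Nat.card V₁) :=
    Nat.Coprime.coprime_dvd_left (card_dvd_of_le hB) hcop
  have h5 := centralizer_inf_commutator_eq_bot V₁ B hV₁c hBV₁ hcopB
  have h6 : v⁻¹ * v' ∈ (V₁ ⊓ centralizer (B : Set G)) ⊓ ⁅V₁, B⁆ := mem_inf.mpr ⟨h4, h3⟩
  rw [h5, mem_bot] at h6
  exact inv_mul_eq_one.mp h6

theorem norm_card {p q : ℕ} [hp : Fact p.Prime] (hq : q.Prime) {V₁ Q R₀ B : Subgroup G}
    (hV₁c : ∀ a ∈ V₁, ∀ b ∈ V₁, a * b = b * a)
    (hQc : ∀ a ∈ Q, ∀ b ∈ Q, a * b = b * a) (hQV₁ : Q ≤ normalizer (V₁ : Set G))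
    (hcop : (Nat.card Q).Coprime (Nat.card V₁)) (hfix : V₁ ⊓ centralizer (Q : Set G) = ⊥)
    (hRV₁ : R₀ ≤ normalizer (V₁ : Set G)) (hRQ : R₀ ≤ normalizer (Q : Set G))
    (hB : B ≤ Q) (hBcard : Nat.card B * q = Nat.card Q)
    (hfree : ∀ x ∈ R₀, x ≠ 1 → ¬ B.map (MulAut.conj x).toMonoidHom ≤ B)
    (hV₁p : IsPGroup p V₁)
    (hVR : Nat.card ↥(V₁ ⊓ centralizer (R₀ : Set G)) ≤ p)
    (hD : V₁ ⊓ centralizer (B : Set G) ≠ ⊥) :
    Nat.card ↥(V₁ ⊓ centralizer (B : Set G)) = p ∧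
      ∀ c ∈ V₁ ⊓ centralizer (R₀ : Set G),
        ∃ v ∈ V₁ ⊓ centralizer (B : Set G), IsNorm V₁ R₀ v c := by
  classical
  choose f hf using fun v : ↥(V₁ ⊓ centralizer (B : Set G)) =>
    exists_norm hV₁c hRV₁ (v : G) (mem_inf.mp v.2).1
  have hf' : ∀ v : ↥(V₁ ⊓ centralizer (B : Set G)), IsNorm V₁ R₀ (v : G) (f v) := hf
  obtain ⟨φ, hφdef⟩ : ∃ φ : ↥(V₁ ⊓ centralizer (B : Set G)) →
      ↥(V₁ ⊓ centralizer (R₀ : Set G)), ∀ v, (φ v : G) = f v :=
    ⟨fun v => ⟨f v, mem_inf.mpr ⟨(hf v).1, (hf v).2.1⟩⟩, fun v => rfl⟩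
  have hφ : Function.Injective φ := by
    intro v v' h
    have h1 : f v = f v' := by rw [← hφdef, ← hφdef, h]
    apply Subtype.ext
    have h2 := hf' v'
    rw [← h1] at h2
    exact norm_inj hq hV₁c hQc hQV₁ hcop hfix hRV₁ hRQ hB hBcard hfree v.2 v'.2 (hf' v) h2
  have h1 : Nat.card ↥(V₁ ⊓ centralizer (B : Set G)) ≤
      Nat.card ↥(V₁ ⊓ centralizer (R₀ : Set G)) := Nat.card_le_card_of_injective φ hφ
  have h2 : p ≤ Nat.card ↥(V₁ ⊓ centralizer (B : Set G)) :=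
    le_card_of_ne_bot (hV₁p.to_le inf_le_left) hD
  have h3 : Nat.card ↥(V₁ ⊓ centralizer (B : Set G)) = p := by omega
  refine ⟨h3, ?_⟩
  have hbij : Function.Bijective φ :=
    (Nat.bijective_iff_injective_and_card φ).mpr ⟨hφ, by omega⟩
  intro c hc
  obtain ⟨v, hv⟩ := hbij.2 ⟨c, hc⟩
  refine ⟨v, v.2, ?_⟩
  have h4 : f v = c := by rw [← hφdef, hv]
  rw [← h4]; exact hf' v

theorem other_orbit_trivial {p q : ℕ} [hp : Fact p.Prime] (hq : q.Prime)
    {V₁ Q R₀ B B' : Subgroup G}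
    (hV₁c : ∀ a ∈ V₁, ∀ b ∈ V₁, a * b = b * a)
    (hQc : ∀ a ∈ Q, ∀ b ∈ Q, a * b = b * a) (hQV₁ : Q ≤ normalizer (V₁ : Set G))
    (hcop : (Nat.card Q).Coprime (Nat.card V₁)) (hfix : V₁ ⊓ centralizer (Q : Set G) = ⊥)
    (hRV₁ : R₀ ≤ normalizer (V₁ : Set G)) (hRQ : R₀ ≤ normalizer (Q : Set G))
    (hB : B ≤ Q) (hBcard : Nat.card B * q = Nat.card Q)
    (hfree : ∀ x ∈ R₀, x ≠ 1 → ¬ B.map (MulAut.conj x).toMonoidHom ≤ B)
    (hV₁p : IsPGroup p V₁)
    (hVR : Nat.card ↥(V₁ ⊓ centralizer (R₀ : Set G)) ≤ p)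
    (hD : V₁ ⊓ centralizer (B : Set G) ≠ ⊥)
    (hB' : B' ≤ Q) (hB'card : Nat.card B' * q = Nat.card Q)
    (hfree' : ∀ x ∈ R₀, x ≠ 1 → ¬ B'.map (MulAut.conj x).toMonoidHom ≤ B')
    (hother : ∀ x ∈ R₀, ¬ B'.map (MulAut.conj x).toMonoidHom ≤ B) :
    V₁ ⊓ centralizer (B' : Set G) = ⊥ := by
  by_contra hne
  obtain ⟨v', hv', hv'1⟩ := exists_ne_one_of_ne_bot hne
  obtain ⟨n', hn'⟩ := exists_norm hV₁c hRV₁ v' (mem_inf.mp hv').1
  have hn'' : IsNorm V₁ R₀ v' n' := hn'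
  have hS : ∀ x ∈ R₀, x * v' * x⁻¹ ∈ ⁅V₁, B⁆ := fun x hx =>
    conj_mem_commutator hq hQc hQV₁ hcop hfix hB hBcard hB' (hRQ hx) (hRV₁ hx)
      (hother x hx) hv'
  have h1 : v'⁻¹ * n' ∈ ⁅V₁, B⁆ := hn'.2.2 _ (fun x hx _ => hS x hx)
  have h2 : v' ∈ ⁅V₁, B⁆ := by
    have h := hS 1 (one_mem _)
    simpa using h
  have h3 : n' ∈ ⁅V₁, B⁆ := by
    have e : n' = v' * (v'⁻¹ * n') := by group
    rw [e]; exact mul_mem h2 h1
  obtain ⟨hcard, hsurj⟩ := norm_card hq hV₁c hQc hQV₁ hcop hfix hRV₁ hRQ hB hBcard hfree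
    hV₁p hVR hD
  obtain ⟨v, hv, hvn⟩ := hsurj n' (mem_inf.mpr ⟨hn'.1, hn'.2.1⟩)
  have hSv : ∀ x ∈ R₀, x ≠ 1 → x * v * x⁻¹ ∈ ⁅V₁, B⁆ := fun x hx hx1 =>
    conj_mem_commutator hq hQc hQV₁ hcop hfix hB hBcard hB (hRQ hx) (hRV₁ hx)
      (hfree x hx hx1) hv
  have h4 : v⁻¹ * n' ∈ ⁅V₁, B⁆ := hvn.2.2 _ hSv
  have h5 : v ∈ ⁅V₁, B⁆ := by
    have e : v = n' * (v⁻¹ * n')⁻¹ := by group
    rw [e]; exact mul_mem h3 (inv_mem h4)
  have hBV₁ : B ≤ normalizer (V₁ : Set G) := hB.trans hQV₁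
  have hcopB : (Nat.card B).Coprime (Nat.card V₁) :=
    Nat.Coprime.coprime_dvd_left (card_dvd_of_le hB) hcop
  have h6 := centralizer_inf_commutator_eq_bot V₁ B hV₁c hBV₁ hcopB
  have h7 : v ∈ (V₁ ⊓ centralizer (B : Set G)) ⊓ ⁅V₁, B⁆ := mem_inf.mpr ⟨hv, h5⟩
  rw [h6, mem_bot] at h7
  rw [h7] at hvn
  have h8 : n' = 1 := eq_one_of_isNorm_one hvn
  rw [h8] at hn''
  have h9 := norm_inj hq hV₁c hQc hQV₁ hcop hfix hRV₁ hRQ hB' hB'card hfree' hv' (one_mem _)
    hn'' (isNorm_one V₁ R₀)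
  exact hv'1 h9

/-- Hyperplanes of `Q` with nontrivial fixed points on `V₁`. -/
def Hyp (q : ℕ) (Q V₁ B : Subgroup G) : Prop :=
  B ≤ Q ∧ Nat.card B * q = Nat.card Q ∧ V₁ ⊓ centralizer (B : Set G) ≠ ⊥

theorem Hyp.conj {q : ℕ} {Q V₁ B : Subgroup G} (h : Hyp q Q V₁ B) {g : G}
    (hgQ : g ∈ normalizer (Q : Set G)) (hgV : g ∈ normalizer (V₁ : Set G)) :
    Hyp q Q V₁ (B.map (MulAut.conj g).toMonoidHom) := by
  obtain ⟨h1, h2, h3⟩ := h
  refine ⟨map_conj_le_of_mem_normalizer h1 hgQ, by rw [card_map_conj]; exact h2, ?_⟩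
  obtain ⟨v, hv, hv1⟩ := exists_ne_one_of_ne_bot h3
  intro hbot
  have h4 : g * v * g⁻¹ ∈
      V₁ ⊓ centralizer ((B.map (MulAut.conj g).toMonoidHom : Subgroup G) : Set G) :=
    mem_inf.mpr ⟨(mem_normalizer_iff.mp hgV v).mp (mem_inf.mp hv).1,
      conj_mem_centralizer_map (mem_inf.mp hv).2⟩
  rw [hbot, mem_bot] at h4
  apply hv1
  have e : v = g⁻¹ * (g * v * g⁻¹) * g := by group
  rw [e, h4]; group

/-- **Abelian case.** No configuration with `Q` elementary abelian and irreducible. -/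
theorem abelian_case (hodd : Odd (Nat.card G)) {p q : ℕ} [hp : Fact p.Prime]
    [hq : Fact q.Prime] (hpq : p ≠ q) {V Q P R₀ : Subgroup G}
    (hVc : ∀ a ∈ V, ∀ b ∈ V, a * b = b * a) (hVp : IsPGroup p V)
    (hQc : ∀ a ∈ Q, ∀ b ∈ Q, a * b = b * a) (hQe : ∀ a ∈ Q, a ^ q = 1)
    (hQV : Q ≤ normalizer (V : Set G))
    (hP : IsPGroup p P) (hPV : P ≤ normalizer (V : Set G)) (hPQ : P ≤ normalizer (Q : Set G))
    (hr : (Nat.card R₀).Prime) (hrp : Nat.card R₀ ≠ p)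
    (hRV : R₀ ≤ normalizer (V : Set G)) (hRQ : R₀ ≤ normalizer (Q : Set G))
    (hRP : R₀ ≤ normalizer (P : Set G))
    (hPR : P ⊓ centralizer (R₀ : Set G) = ⊥)
    (hVR : Nat.card ↥(V ⊓ centralizer (R₀ : Set G)) ≤ p)
    (hfaith : Q ⊓ centralizer (V : Set G) = ⊥)
    (hQP : ⁅Q, P⁆ = Q) (hQ1 : Q ≠ ⊥)
    (hirr : ∀ Q₁ : Subgroup G, Q₁ < Q → P ≤ normalizer (Q₁ : Set G) →
      R₀ ≤ normalizer (Q₁ : Set G) → Q₁ = ⊥) : False := by
  classical
  have hQq : IsPGroup q Q := fun g => ⟨1, by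
    apply Subtype.ext
    rw [pow_one]
    simpa using hQe g g.2⟩
  have hcopQV : (Nat.card Q).Coprime (Nat.card V) := coprime_of_isPGroup hpq.symm hQq hVp
  obtain ⟨V₁, hV₁⟩ : ∃ V₁ : Subgroup G, V₁ = ⁅V, Q⁆ := ⟨_, rfl⟩
  have hV₁V : V₁ ≤ V := by
    rw [hV₁]; exact Cfsg.Agent.H1.commutator_le_of_le_normalizer Q V hQV
  have hV₁c : ∀ a ∈ V₁, ∀ b ∈ V₁, a * b = b * a :=
    fun a ha b hb => hVc a (hV₁V ha) b (hV₁V hb)
  have hV₁p : IsPGroup p V₁ := hVp.to_le hV₁V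
  have hQV₁ : Q ≤ normalizer (V₁ : Set G) := by
    rw [hV₁]; exact Cfsg.Agent.H1.le_normalizer_commutator Q V Q hQV le_normalizer
  have hPV₁ : P ≤ normalizer (V₁ : Set G) := by
    rw [hV₁]; exact Cfsg.Agent.H1.le_normalizer_commutator P V Q hPV hPQ
  have hRV₁ : R₀ ≤ normalizer (V₁ : Set G) := by
    rw [hV₁]; exact Cfsg.Agent.H1.le_normalizer_commutator R₀ V Q hRV hRQ
  have hV₁ne : V₁ ≠ ⊥ := by
    intro h
    rw [hV₁, commutator_eq_bot_iff_le_centralizer] at h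
    have h1 : Q ≤ centralizer (V : Set G) := le_centralizer_iff.mp h
    apply hQ1
    rw [eq_bot_iff, ← hfaith]
    exact le_inf le_rfl h1
  have hcopQV₁ : (Nat.card Q).Coprime (Nat.card V₁) :=
    Nat.Coprime.coprime_dvd_right (card_dvd_of_le hV₁V) hcopQV
  have hfix : V₁ ⊓ centralizer (Q : Set G) = ⊥ := by
    have h1 := centralizer_inf_commutator_eq_bot V Q hVc hQV hcopQV
    rw [eq_bot_iff, ← h1, hV₁]
    exact le_inf (inf_le_inf_right _ (Cfsg.Agent.H1.commutator_le_of_le_normalizer Q V hQV))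
      inf_le_left
  have hcopRP : (Nat.card R₀).Coprime (Nat.card P) := coprime_of_prime_of_isPGroup hr hrp hP
  have hPsolv : Group.IsSolvable P := isSolvable_of_isPGroup' hP
  have hP_eq : ⁅P, R₀⁆ = P := by
    have h1 := Cfsg.Agent.H1.coprime_commutator_sup_centralizer R₀ P hRP hcopRP (Or.inr hPsolv)
    rwa [hPR, sup_bot_eq] at h1
  have hV₁R : Nat.card ↥(V₁ ⊓ centralizer (R₀ : Set G)) ≤ p :=
    (card_le_of_le (inf_le_inf_right _ hV₁V)).trans hVR
  obtain ⟨B₁, hB₁Q, hB₁card, hB₁ne⟩ := exists_hyperplane hQc hQe hQV₁ hcopQV₁ hV₁ne hfix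
  have hB₁ : Hyp q Q V₁ B₁ := ⟨hB₁Q, hB₁card, hB₁ne⟩
  by_cases hall : ∀ B, Hyp q Q V₁ B → R₀ ≤ normalizer (B : Set G)
  · -- every hyperplane is `R₀`-invariant
    have hPB : P ≤ normalizer (B₁ : Set G) := by
      rw [← hP_eq, commutator_le]
      intro g hg x hx
      have h1 : x ∈ normalizer (B₁ : Set G) := hall B₁ hB₁ hx
      have h2 := hall _ (hB₁.conj (hPQ (inv_mem hg)) (hPV₁ (inv_mem hg))) hx
      rw [mem_normalizer_map_conj_iff, inv_inv] at h2
      rw [commutatorElement_def]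
      exact mul_mem h2 (inv_mem h1)
    have hlt : B₁ < Q := lt_of_le_of_ne hB₁Q (by
      intro h
      rw [h] at hB₁card
      have h1 : Nat.card Q * q = Nat.card Q * 1 := by rw [hB₁card, mul_one]
      have h2 := Nat.eq_of_mul_eq_mul_left Nat.card_pos h1
      exact hq.out.one_lt.ne' h2)
    have hbot := hirr B₁ hlt hPB (hall B₁ hB₁)
    rw [hbot, card_bot, one_mul] at hB₁card
    have hcyc : IsCyclic Q := isCyclic_of_prime_card hB₁card.symm
    have hPC : P ≤ centralizer (Q : Set G) := by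
      rw [← hP_eq, commutator_le]
      intro g hg x hx
      rw [commutatorElement_def]
      exact comm_mem_centralizer_of_isCyclic hcyc (hPQ hg) (hRQ hx)
    apply hQ1
    rw [← hQP, commutator_eq_bot_iff_le_centralizer]
    exact le_centralizer_iff.mp hPC
  · -- a hyperplane `B` that is not `R₀`-invariant
    have hall' : ∃ B, Hyp q Q V₁ B ∧ ¬ R₀ ≤ normalizer (B : Set G) := by
      by_contra hcon
      exact hall (fun B hB => by_contra fun hBn => hcon ⟨B, hB, hBn⟩)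
    obtain ⟨B, hB', hBinv⟩ := hall'
    obtain ⟨hBQ, hBcard, hBne⟩ := hB'
    have hB' : Hyp q Q V₁ B := ⟨hBQ, hBcard, hBne⟩
    have hfreeOf : ∀ B' : Subgroup G, ¬ R₀ ≤ normalizer (B' : Set G) → ∀ x ∈ R₀, x ≠ 1 →
        ¬ B'.map (MulAut.conj x).toMonoidHom ≤ B' := by
      intro B' hinv x hx hx1 hle
      apply hinv
      have h1 : B'.map (MulAut.conj x).toMonoidHom = B' :=
        Subgroup.eq_of_le_of_card_ge hle (by rw [card_map_conj])
      exact le_normalizer_of_prime_card hr hx hx1 ((mem_normalizer_iff_map_conj x B').mpr h1)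
    have hfree := hfreeOf B hBinv
    obtain ⟨hDcard, hsurj⟩ := norm_card hq.out hV₁c hQc hQV₁ hcopQV₁ hfix hRV₁ hRQ hBQ hBcard
      hfree hV₁p hV₁R hBne
    have hother : ∀ B' : Subgroup G, Hyp q Q V₁ B' → ¬ R₀ ≤ normalizer (B' : Set G) →
        ∃ x ∈ R₀, B'.map (MulAut.conj x).toMonoidHom = B := by
      intro B' hB'h hinv
      by_contra hcon
      apply hB'h.2.2
      apply other_orbit_trivial hq.out hV₁c hQc hQV₁ hcopQV₁ hfix hRV₁ hRQ hBQ hBcard hfree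
        hV₁p hV₁R hBne hB'h.1 hB'h.2.1 (hfreeOf B' hinv)
      intro x hx hle
      apply hcon
      refine ⟨x, hx, Subgroup.eq_of_le_of_card_ge hle ?_⟩
      rw [card_map_conj]
      exact le_of_eq (Nat.eq_of_mul_eq_mul_right hq.out.pos (hBcard.trans hB'h.2.1.symm))
    -- `P` does not normalize `B`
    have hnotP : ¬ P ≤ normalizer (B : Set G) := by
      intro hPB
      obtain ⟨D, hD⟩ : ∃ D : Subgroup G, D = V₁ ⊓ centralizer (B : Set G) := ⟨_, rfl⟩
      rw [← hD] at hDcard hBne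
      have hcyc : IsCyclic D := isCyclic_of_prime_card hDcard
      have hQD : Q ≤ normalizer (D : Set G) := by
        intro a ha
        rw [hD]
        exact normalizer_inf_centralizer V₁ B a (hQV₁ ha)
          (abelian_le_normalizer Q Q B hQc le_rfl hBQ ha)
      have hPD : P ≤ normalizer (D : Set G) := by
        intro a ha
        rw [hD]
        exact normalizer_inf_centralizer V₁ B a (hPV₁ ha) (hPB ha)
      have hQC : Q ≤ centralizer (D : Set G) := by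
        rw [← hQP, commutator_le]
        intro a ha b hb
        rw [commutatorElement_def]
        exact comm_mem_centralizer_of_isCyclic hcyc (hQD ha) (hPD hb)
      apply hBne
      rw [eq_bot_iff, ← hfix]
      intro v hv
      have hv' := hv
      rw [hD] at hv'
      exact mem_inf.mpr ⟨(mem_inf.mp hv').1, (le_centralizer_iff.mp hQC) hv⟩
    -- some `P`-conjugate of `B` is `R₀`-invariant
    have hex : ∃ h ∈ P,
        R₀ ≤ normalizer ((B.map (MulAut.conj h).toMonoidHom : Subgroup G) : Set G) := by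
      obtain ⟨g, hg, hgB⟩ : ∃ g ∈ P, g ∉ normalizer (B : Set G) := by
        by_contra h
        exact hnotP (fun g hg => by_contra fun hgB => h ⟨g, hg, hgB⟩)
      by_cases hinv :
          R₀ ≤ normalizer ((B.map (MulAut.conj g).toMonoidHom : Subgroup G) : Set G)
      · exact ⟨g, hg, hinv⟩
      · obtain ⟨x, hx, hxe⟩ := hother _ (hB'.conj (hPQ hg) (hPV₁ hg)) hinv
        rw [map_conj_map_conj] at hxe
        have hxg : x * g ∈ normalizer (B : Set G) := (mem_normalizer_iff_map_conj _ B).mpr hxe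
        have hx1 : x ≠ 1 := by
          intro h
          rw [h, one_mul] at hxg
          exact hgB hxg
        have hxP : x ∈ normalizer (P : Set G) := hRP hx
        obtain ⟨φ, hφdef⟩ : ∃ φ : ↥P → ↥P, ∀ h : P, (φ h : G) = (h : G)⁻¹ * (x * h * x⁻¹) :=
          ⟨fun h => ⟨(h : G)⁻¹ * (x * h * x⁻¹),
            mul_mem (inv_mem h.2) ((mem_normalizer_iff.mp hxP h).mp h.2)⟩, fun h => rfl⟩
        have hφ : Function.Injective φ := by
          intro h k hhk
          have h1 : (h : G)⁻¹ * (x * h * x⁻¹) = (k : G)⁻¹ * (x * k * x⁻¹) := by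
            rw [← hφdef, ← hφdef, hhk]
          have h2 : (k : G) * (h : G)⁻¹ ∈ P ⊓ centralizer ({x} : Set G) := by
            refine mem_inf.mpr ⟨mul_mem k.2 (inv_mem h.2), ?_⟩
            rw [mem_centralizer_iff]
            intro y hy
            rw [Set.mem_singleton_iff] at hy
            rw [hy]
            have e1 : x * ((k : G) * (h : G)⁻¹) =
                (k : G) * ((k : G)⁻¹ * (x * k * x⁻¹)) * x * (h : G)⁻¹ := by group
            rw [e1, ← h1]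
            group
          rw [centralizer_singleton_eq hr hx hx1, hPR, mem_bot] at h2
          apply Subtype.ext
          exact (mul_inv_eq_one.mp h2).symm
        obtain ⟨h, hh⟩ := Finite.surjective_of_injective hφ
          ⟨x * g * x⁻¹, (mem_normalizer_iff.mp hxP g).mp hg⟩
        have h1 : (h : G)⁻¹ * (x * h * x⁻¹) = x * g * x⁻¹ := by
          rw [← hφdef, hh]
        refine ⟨h, h.2, ?_⟩
        apply le_normalizer_of_prime_card hr hx hx1
        rw [mem_normalizer_map_conj_iff]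
        have e : (h : G)⁻¹ * x * h = ((h : G)⁻¹ * (x * h * x⁻¹)) * x := by group
        rw [e, h1]
        have e2 : x * g * x⁻¹ * x = x * g := by group
        rw [e2]
        exact hxg
    obtain ⟨h, hhP, hB₀inv⟩ := hex
    obtain ⟨B₀, hB₀⟩ : ∃ B₀ : Subgroup G, B₀ = B.map (MulAut.conj h).toMonoidHom := ⟨_, rfl⟩
    rw [← hB₀] at hB₀inv
    have hB₀h : Hyp q Q V₁ B₀ := by
      rw [hB₀]; exact hB'.conj (hPQ hhP) (hPV₁ hhP)
    have hBB₀ : B = B₀.map (MulAut.conj h⁻¹).toMonoidHom := by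
      rw [hB₀, map_conj_map_conj, inv_mul_cancel, map_conj_one]
    obtain ⟨N₀, hN₀⟩ : ∃ N₀ : Subgroup G, N₀ = P ⊓ normalizer (B₀ : Set G) := ⟨_, rfl⟩
    have hN₀P : N₀ ≤ P := by rw [hN₀]; exact inf_le_left
    have hRN₀ : R₀ ≤ normalizer (N₀ : Set G) := by
      rw [hN₀]
      exact (le_inf hRP (hB₀inv.trans le_normalizer)).trans inf_normalizer_le_normalizer_inf
    have hstab : ∀ g ∈ P,
        R₀ ≤ normalizer ((B₀.map (MulAut.conj g).toMonoidHom : Subgroup G) : Set G) →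
        g ∈ normalizer (B₀ : Set G) := by
      intro g hg hinv
      have hx : ∀ a ∈ R₀, g⁻¹ * a * g * a⁻¹ ∈ N₀ := by
        intro a ha
        rw [hN₀]
        refine mem_inf.mpr ⟨?_, ?_⟩
        · have e : g⁻¹ * a * g * a⁻¹ = g⁻¹ * (a * g * a⁻¹) := by group
          rw [e]
          exact mul_mem (inv_mem hg) ((mem_normalizer_iff.mp (hRP ha) g).mp hg)
        · exact mul_mem ((mem_normalizer_map_conj_iff g a B₀).mp (hinv ha))
            (inv_mem (hB₀inv ha))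
      obtain ⟨d, hd, hgd⟩ := Cfsg.Agent.H1.exists_mul_mem_centralizer R₀ N₀ hRN₀
        (Nat.Coprime.coprime_dvd_right (card_dvd_of_le hN₀P) hcopRP)
        (Or.inr (isSolvable_of_isPGroup' (hP.to_le hN₀P))) g hx
      have hd' : d ∈ P ⊓ normalizer (B₀ : Set G) := by rw [← hN₀]; exact hd
      have h1 : g * d ∈ P ⊓ centralizer (R₀ : Set G) :=
        mem_inf.mpr ⟨mul_mem hg (mem_inf.mp hd').1, hgd⟩
      rw [hPR, mem_bot] at h1
      have h2 : g = d⁻¹ := eq_inv_of_mul_eq_one_left h1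
      rw [h2]
      exact inv_mem (mem_inf.mp hd').2
    -- the orbit of `B₀` under `P`
    letI : MulAction ↥P (Subgroup G) :=
      MulAction.compHom (Subgroup G) ((MulAut.conj : G →* MulAut G).comp P.subtype)
    have hsmul : ∀ (g : P) (S : Subgroup G),
        g • S = S.map (MulAut.conj (g : G)).toMonoidHom := fun g S => rfl
    have horb : MulAction.orbit ↥P B₀ =
        insert B₀ (Set.range (fun x : R₀ => B.map (MulAut.conj (x : G)).toMonoidHom)) := by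
      ext S
      constructor
      · rintro ⟨g, rfl⟩
        show g • B₀ ∈ _
        rw [hsmul]
        by_cases hgN : (g : G) ∈ normalizer (B₀ : Set G)
        · left
          exact map_conj_eq_of_mem_normalizer hgN
        · right
          have hninv : ¬ R₀ ≤ normalizer
              ((B₀.map (MulAut.conj (g : G)).toMonoidHom : Subgroup G) : Set G) :=
            fun hh => hgN (hstab g g.2 hh)
          obtain ⟨x, hx, hxe⟩ := hother _ (hB₀h.conj (hPQ g.2) (hPV₁ g.2)) hninv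
          refine ⟨⟨x⁻¹, inv_mem hx⟩, ?_⟩
          show B.map (MulAut.conj x⁻¹).toMonoidHom = _
          rw [← hxe, map_conj_map_conj, inv_mul_cancel, map_conj_one]
      · rintro (rfl | ⟨x, rfl⟩)
        · exact MulAction.mem_orbit_self _
        · have hxP : (x : G) * h⁻¹ * (x : G)⁻¹ ∈ P :=
            (mem_normalizer_iff.mp (hRP x.2) _).mp (inv_mem hhP)
          refine ⟨⟨(x : G) * h⁻¹ * (x : G)⁻¹, hxP⟩, ?_⟩
          show (⟨(x : G) * h⁻¹ * (x : G)⁻¹, hxP⟩ : P) • B₀ =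
            B.map (MulAut.conj (x : G)).toMonoidHom
          rw [hsmul]
          have e2 : B.map (MulAut.conj (x : G)).toMonoidHom =
              B₀.map (MulAut.conj ((x : G) * h⁻¹ * (x : G)⁻¹)).toMonoidHom := by
            have e : (x : G) * h⁻¹ = ((x : G) * h⁻¹ * (x : G)⁻¹) * x := by group
            conv_lhs => rw [hBB₀, map_conj_map_conj, e, ← map_conj_map_conj,
              map_conj_eq_of_mem_normalizer (hB₀inv x.2)]
          rw [e2]
    have hnotin : B₀ ∉ Set.range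
        (fun x : R₀ => B.map (MulAut.conj (x : G)).toMonoidHom) := by
      rintro ⟨x, hx⟩
      have hx' : B.map (MulAut.conj (x : G)).toMonoidHom = B₀ := hx
      apply hBinv
      have h1 : B = B₀ := by
        have h2 : B = (B.map (MulAut.conj (x : G)).toMonoidHom).map
            (MulAut.conj (x : G)⁻¹).toMonoidHom := by
          rw [map_conj_map_conj, inv_mul_cancel, map_conj_one]
        rw [h2, hx']
        exact map_conj_eq_of_mem_normalizer (hB₀inv (inv_mem x.2))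
      rw [h1]
      exact hB₀inv
    have hinj : Function.Injective
        (fun x : R₀ => B.map (MulAut.conj (x : G)).toMonoidHom) := by
      intro x y hxy
      have h1 : (y : G)⁻¹ * x ∈ normalizer (B : Set G) :=
        inv_mul_mem_normalizer_of_map_conj_eq hxy
      by_contra hne
      apply hBinv
      refine le_normalizer_of_prime_card hr (mul_mem (inv_mem y.2) x.2) ?_ h1
      intro h2
      apply hne
      apply Subtype.ext
      exact (inv_mul_eq_one.mp h2).symm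
    have hcard : (MulAction.orbit ↥P B₀).ncard = Nat.card R₀ + 1 := by
      rw [horb, Set.ncard_insert_of_notMem hnotin, Set.ncard_range_of_injective hinj]
    have hdvd : Nat.card R₀ + 1 ∣ Nat.card P := by
      rw [← hcard, ← MulAction.index_stabilizer]
      exact Subgroup.index_dvd_card _
    have hPodd : Odd (Nat.card P) := Odd.of_dvd_nat hodd (Subgroup.card_subgroup_dvd_card P)
    have hRodd : Odd (Nat.card R₀) := Odd.of_dvd_nat hodd (Subgroup.card_subgroup_dvd_card R₀)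
    have heven : Even (Nat.card R₀ + 1) := hRodd.add_one
    have h2 : 2 ∣ Nat.card P := (even_iff_two_dvd.mp heven).trans hdvd
    exact (Nat.not_even_iff_odd.mpr hPodd) (even_iff_two_dvd.mpr h2)

end Cfsg.Agent.Lib.Helper30.ZG
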