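import Cfsg.Agent.Lib.Helper30.ZGUtil

/-!
# Hyperplanes of an elementary abelian group acting on an abelian group (helper30)
-/

set_option autoImplicit false
set_option linter.unusedSectionVars false
set_option linter.style.haveILetI false
set_option linter.unusedVariables false

namespace Cfsg.Agent.Lib.Helper30.ZG

open Subgroup
open scoped commutatorElement
open Cfsg.Agent.H58.FrobAct (mem_normalizer_of_conj conj_mem_of_mem_normalizer
  normalizer_inf_centralizer normalizer_commutator abelian_le_normalizer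
  centralizer_inf_commutator_eq_bot conjAut conjAut_apply)
open Cfsg.Agent.H58.FrobWielandt (mem_centralizer_sup)

variable {G : Type*} [Group G] [Finite G]

theorem isSolvable_of_abelian {B : Subgroup G} (h : ∀ a ∈ B, ∀ b ∈ B, a * b = b * a) :
    Group.IsSolvable B :=
  Group.isSolvable_of_comm (fun a b => Subtype.ext (h a a.2 b b.2))

/-- A subgroup of prime index `q` is maximal. -/
theorem sup_eq_of_hyperplane {q : ℕ} (hq : q.Prime) {Q B B' : Subgroup G} (hB : B ≤ Q)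
    (hB' : B' ≤ Q) (hcard : Nat.card B * q = Nat.card Q) (hne : ¬ B' ≤ B) : B ⊔ B' = Q := by
  have hle : B ⊔ B' ≤ Q := sup_le hB hB'
  apply Subgroup.eq_of_le_of_card_ge hle
  have h1 : Nat.card B ∣ Nat.card ↥(B ⊔ B') := Subgroup.card_dvd_of_le le_sup_left
  have h2 : Nat.card ↥(B ⊔ B') ∣ Nat.card Q := Subgroup.card_dvd_of_le hle
  obtain ⟨d, hd⟩ := h1
  rw [hd, ← hcard] at h2
  have hBpos : 0 < Nat.card B := Nat.card_pos
  have h3 : d ∣ q := (Nat.mul_dvd_mul_iff_left hBpos).mp h2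
  rcases (Nat.dvd_prime hq).mp h3 with h4 | h4
  · exfalso
    apply hne
    have h5 : B = B ⊔ B' :=
      Subgroup.eq_of_le_of_card_ge le_sup_left (by rw [hd, h4, mul_one])
    rw [h5]; exact le_sup_right
  · rw [hd, h4, hcard]

/-- If `B ⊔ B' = Q` and `C_{V₁}(Q) = 1` then `C_{V₁}(B') ≤ [V₁, B]`. -/
theorem centralizer_le_commutator_of_sup {Q V₁ B B' : Subgroup G}
    (hQc : ∀ a ∈ Q, ∀ b ∈ Q, a * b = b * a) (hQV : Q ≤ normalizer (V₁ : Set G))
    (hcop : (Nat.card Q).Coprime (Nat.card V₁)) (hfix : V₁ ⊓ centralizer (Q : Set G) = ⊥)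
    (hB : B ≤ Q) (hB' : B' ≤ Q) (hsup : B ⊔ B' = Q) :
    V₁ ⊓ centralizer (B' : Set G) ≤ ⁅V₁, B⁆ := by
  obtain ⟨D', hD'⟩ : ∃ D' : Subgroup G, D' = V₁ ⊓ centralizer (B' : Set G) := ⟨_, rfl⟩
  rw [← hD']
  have hBD' : B ≤ normalizer (D' : Set G) := by
    intro b hb
    rw [hD']
    exact normalizer_inf_centralizer V₁ B' b (hQV (hB hb))
      (abelian_le_normalizer Q B B' hQc hB hB' hb)
  have hD'V : D' ≤ V₁ := by rw [hD']; exact inf_le_left
  have hcop' : (Nat.card B).Coprime (Nat.card D') :=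
    Nat.Coprime.coprime_dvd_left (card_dvd_of_le hB)
      (Nat.Coprime.coprime_dvd_right (card_dvd_of_le hD'V) hcop)
  have hsolvB : Group.IsSolvable B :=
    isSolvable_of_abelian (fun a ha b hb => hQc a (hB ha) b (hB hb))
  have hdec := Cfsg.Agent.H1.coprime_commutator_sup_centralizer B D' hBD' hcop' (Or.inl hsolvB)
  have hz : D' ⊓ centralizer (B : Set G) = ⊥ := by
    rw [eq_bot_iff, ← hfix]
    intro v hv
    obtain ⟨hv1, hv2⟩ := mem_inf.mp hv
    rw [hD'] at hv1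
    obtain ⟨hv3, hv4⟩ := mem_inf.mp hv1
    refine mem_inf.mpr ⟨hv3, ?_⟩
    rw [← hsup]
    exact mem_centralizer_sup hv2 hv4
  rw [hz, sup_bot_eq] at hdec
  calc D' = ⁅D', B⁆ := hdec.symm
    _ ≤ ⁅V₁, B⁆ := commutator_mono hD'V le_rfl

/-- The norm of `v ∈ V₁` under a group `R₀` acting on the abelian group `V₁`. -/
theorem exists_norm {V₁ R₀ : Subgroup G} (hVc : ∀ a ∈ V₁, ∀ b ∈ V₁, a * b = b * a)
    (hRV : R₀ ≤ normalizer (V₁ : Set G)) (v : G) (hv : v ∈ V₁) :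
    ∃ n : G, n ∈ V₁ ∧ n ∈ centralizer (R₀ : Set G) ∧
      ∀ S : Subgroup G, (∀ x ∈ R₀, x ≠ 1 → x * v * x⁻¹ ∈ S) → v⁻¹ * n ∈ S := by
  classical
  letI : CommGroup ↥V₁ := { (inferInstance : Group ↥V₁) with
    mul_comm := fun a b => Subtype.ext (hVc a a.2 b b.2) }
  haveI : Fintype R₀ := Fintype.ofFinite R₀
  obtain ⟨c, hc⟩ : ∃ c : ↥R₀ →* MulAut ↥V₁, c = conjAut V₁ R₀ hRV := ⟨_, rfl⟩
  have hcv : ∀ (a : R₀) (w : V₁), ((c a w : V₁) : G) = a * w * (a : G)⁻¹ := by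
    intro a w; rw [hc]; rfl
  obtain ⟨n, hn⟩ : ∃ n : ↥V₁, n = ∏ a : R₀, c a ⟨v, hv⟩ := ⟨_, rfl⟩
  refine ⟨n, n.2, ?_, ?_⟩
  · rw [mem_centralizer_iff]
    intro b hb
    have h1 : c ⟨b, hb⟩ n = n := by
      rw [hn, map_prod]
      refine Fintype.prod_equiv (Equiv.mulLeft ⟨b, hb⟩) _ _ (fun a => ?_)
      rw [Equiv.coe_mulLeft, map_mul]
      rfl
    have h2 := congrArg Subtype.val h1
    rw [hcv] at h2
    have h3 : b * (n : G) * b⁻¹ = n := h2
    calc b * (n : G) = (b * n * b⁻¹) * b := by group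
      _ = n * b := by rw [h3]
  · intro S hS
    have h1 : n = ⟨v, hv⟩ * ∏ a ∈ Finset.univ.erase (1 : R₀), c a ⟨v, hv⟩ := by
      rw [hn, ← Finset.mul_prod_erase Finset.univ _ (Finset.mem_univ (1 : R₀)), map_one]
      rfl
    have h2 : (∏ a ∈ Finset.univ.erase (1 : R₀), c a ⟨v, hv⟩) ∈ S.subgroupOf V₁ := by
      apply Subgroup.prod_mem
      intro a ha
      rw [mem_subgroupOf, hcv]
      apply hS a a.2
      intro h
      exact (Finset.mem_erase.mp ha).1 (Subtype.ext h)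
    have h3 : v⁻¹ * (n : G) =
        ((∏ a ∈ Finset.univ.erase (1 : R₀), c a ⟨v, hv⟩ : V₁) : G) := by
      rw [h1, Subgroup.coe_mul]
      show v⁻¹ * (v * _) = _
      rw [inv_mul_cancel_left]
    rw [h3]
    exact mem_subgroupOf.mp h2

open scoped IsMulCommutative in
/-- An elementary abelian `q`-group acting coprimely and without fixed points on a nontrivial
group `V₁` has a subgroup of index `q` with nontrivial fixed points. -/
theorem exists_hyperplane {q : ℕ} [hq : Fact q.Prime] {Q V₁ : Subgroup G}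
    (hQc : ∀ a ∈ Q, ∀ b ∈ Q, a * b = b * a) (hQe : ∀ a ∈ Q, a ^ q = 1)
    (hQV : Q ≤ normalizer (V₁ : Set G)) (hcop : (Nat.card Q).Coprime (Nat.card V₁))
    (hV1 : V₁ ≠ ⊥) (hfix : V₁ ⊓ centralizer (Q : Set G) = ⊥) :
    ∃ B : Subgroup G, B ≤ Q ∧ Nat.card B * q = Nat.card Q ∧
      V₁ ⊓ centralizer (B : Set G) ≠ ⊥ := by
  classical
  have hbot : (⊥ : Subgroup G) ∈
      {B : Subgroup G | B ≤ Q ∧ V₁ ⊓ centralizer (B : Set G) ≠ ⊥} := by
    refine ⟨bot_le, fun h => hV1 ?_⟩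
    rw [eq_bot_iff, ← h]
    intro v hv
    refine mem_inf.mpr ⟨hv, ?_⟩
    rw [mem_centralizer_iff]
    intro y hy
    have hy' : y = 1 := by simpa using hy
    rw [hy', one_mul, mul_one]
  obtain ⟨B, -, hB⟩ := (Set.toFinite
    {B : Subgroup G | B ≤ Q ∧ V₁ ⊓ centralizer (B : Set G) ≠ ⊥}).exists_le_maximal hbot
  obtain ⟨hBQ, hBne⟩ := hB.1
  have hmax : ∀ B' : Subgroup G, B' ≤ Q → V₁ ⊓ centralizer (B' : Set G) ≠ ⊥ → B ≤ B' →
      B' ≤ B := fun B' h1 h2 h3 => hB.2 ⟨h1, h2⟩ h3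
  refine ⟨B, hBQ, ?_, hBne⟩
  by_contra hcard
  obtain ⟨V', hV'⟩ : ∃ V' : Subgroup G, V' = V₁ ⊓ centralizer (B : Set G) := ⟨_, rfl⟩
  have hV'V : V' ≤ V₁ := by rw [hV']; exact inf_le_left
  have hQV' : Q ≤ normalizer (V' : Set G) := by
    intro a ha
    rw [hV']
    exact normalizer_inf_centralizer V₁ B a (hQV ha)
      (abelian_le_normalizer Q Q B hQc le_rfl hBQ ha)
  have hout : ∀ a ∈ Q, a ∉ B → V' ⊓ centralizer ({a} : Set G) = ⊥ := by
    intro a ha haB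
    by_contra hne
    have h1 : B ⊔ zpowers a ≤ B := by
      refine hmax (B ⊔ zpowers a) (sup_le hBQ (zpowers_le.mpr ha)) ?_ le_sup_left
      intro h
      apply hne
      rw [eq_bot_iff, ← h]
      intro v hv
      obtain ⟨hv1, hv2⟩ := mem_inf.mp hv
      rw [hV'] at hv1
      obtain ⟨hv3, hv4⟩ := mem_inf.mp hv1
      refine mem_inf.mpr ⟨hv3, ?_⟩
      refine mem_centralizer_sup hv4 ?_
      rw [mem_centralizer_iff] at hv2 ⊢
      intro y hy
      obtain ⟨k, rfl⟩ := mem_zpowers_iff.mp hy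
      have h2 : Commute a v := hv2 a (Set.mem_singleton a)
      exact (h2.zpow_left k).eq
    exact haB (h1 (le_sup_right (a := B) (mem_zpowers a)))
  have hBneQ : B ≠ Q := by
    intro h
    rw [h] at hBne
    exact hBne hfix
  have hstep : ∀ (B₀ : Subgroup G) (a : G), B₀ ≤ Q → a ∈ Q → a ∉ B₀ →
      Nat.card ↥(B₀ ⊔ zpowers a) = Nat.card B₀ * q := by
    intro B₀ a hB₀ ha haB₀
    have ha1 : a ≠ 1 := fun h => haB₀ (h ▸ B₀.one_mem)
    have hord : orderOf a = q := by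
      have h1 := orderOf_dvd_of_pow_eq_one (hQe a ha)
      rcases (Nat.dvd_prime hq.out).mp h1 with h | h
      · exact absurd (orderOf_eq_one_iff.mp h) ha1
      · exact h
    have hprime : (Nat.card (zpowers a)).Prime := by
      rw [Nat.card_zpowers, hord]; exact hq.out
    have hdisj : zpowers a ⊓ B₀ = ⊥ := by
      rw [eq_bot_iff]
      intro y hy
      obtain ⟨hy1, hy2⟩ := mem_inf.mp hy
      by_contra hy0
      rw [mem_bot] at hy0
      have h1 := zpowers_eq_of_prime_card hprime hy1 hy0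
      apply haB₀
      have h2 : a ∈ zpowers y := by rw [h1]; exact mem_zpowers a
      exact (zpowers_le.mpr hy2) h2
    have hn : zpowers a ≤ normalizer (B₀ : Set G) :=
      abelian_le_normalizer Q (zpowers a) B₀ hQc (zpowers_le.mpr ha) hB₀
    have h3 := Cfsg.Agent.H13.card_mul_card_eq (zpowers a) B₀ hn
    rw [hdisj, card_bot, mul_one, Nat.card_zpowers, hord] at h3
    rw [sup_comm, ← h3, mul_comm]
  obtain ⟨a, haQ, haB⟩ : ∃ a ∈ Q, a ∉ B := by
    by_contra h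
    exact hBneQ (le_antisymm hBQ (fun x hx => by_contra fun hxB => h ⟨x, hx, hxB⟩))
  have h1 := hstep B a hBQ haQ haB
  obtain ⟨B₁, hB₁⟩ : ∃ B₁ : Subgroup G, B₁ = B ⊔ zpowers a := ⟨_, rfl⟩
  rw [← hB₁] at h1
  have hB₁Q : B₁ ≤ Q := by rw [hB₁]; exact sup_le hBQ (zpowers_le.mpr haQ)
  have hB₁ne : B₁ ≠ Q := by
    intro h
    apply hcard
    rw [← h1, h]
  obtain ⟨b, hbQ, hbB₁⟩ : ∃ b ∈ Q, b ∉ B₁ := by
    by_contra h
    exact hB₁ne (le_antisymm hB₁Q (fun x hx => by_contra fun hxB => h ⟨x, hx, hxB⟩))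
  have h2 := hstep B₁ b hB₁Q hbQ hbB₁
  obtain ⟨A, hA⟩ : ∃ A : Subgroup G, A = zpowers a ⊔ zpowers b := ⟨_, rfl⟩
  have hAQ : A ≤ Q := by rw [hA]; exact sup_le (zpowers_le.mpr haQ) (zpowers_le.mpr hbQ)
  have hAc : ∀ x ∈ A, ∀ y ∈ A, x * y = y * x := fun x hx y hy => hQc x (hAQ hx) y (hAQ hy)
  have horda : ∀ c ∈ Q, c ≠ 1 → orderOf c = q := by
    intro c hc hc1
    have h1 := orderOf_dvd_of_pow_eq_one (hQe c hc)
    rcases (Nat.dvd_prime hq.out).mp h1 with h | h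
    · exact absurd (orderOf_eq_one_iff.mp h) hc1
    · exact h
  have ha1 : a ≠ 1 := fun h => haB (h ▸ B.one_mem)
  have hb1 : b ≠ 1 := fun h => hbB₁ (h ▸ B₁.one_mem)
  have h4 := Cfsg.Agent.H13.card_mul_card_eq (zpowers a) (zpowers b)
    (abelian_le_normalizer Q (zpowers a) (zpowers b) hQc (zpowers_le.mpr haQ)
      (zpowers_le.mpr hbQ))
  rw [Nat.card_zpowers, Nat.card_zpowers, horda a haQ ha1, horda b hbQ hb1, ← hA] at h4
  have hBA : A ⊔ B = B₁ ⊔ zpowers b := by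
    rw [hA, hB₁, sup_comm, sup_assoc]
  have h3 := Cfsg.Agent.H13.card_mul_card_eq A B (abelian_le_normalizer Q A B hQc hAQ hBQ)
  rw [hBA, h2, h1] at h3
  have hBpos : 0 < Nat.card B := Nat.card_pos
  have hγpos : 0 < Nat.card ↥(A ⊓ B) := Nat.card_pos
  have hδpos : 0 < Nat.card ↥(zpowers a ⊓ zpowers b) := Nat.card_pos
  have hqpos : 0 < q := hq.out.pos
  have h5 : Nat.card A = q * q * Nat.card ↥(A ⊓ B) := by
    have h6 : Nat.card B * Nat.card A = Nat.card B * (q * q * Nat.card ↥(A ⊓ B)) := by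
      rw [mul_comm (Nat.card B) (Nat.card A), h3]; ring
    exact Nat.eq_of_mul_eq_mul_left hBpos h6
  have h7 : Nat.card ↥(A ⊓ B) = 1 := by
    rw [h5] at h4
    have h8 : q * q * (Nat.card ↥(A ⊓ B) * Nat.card ↥(zpowers a ⊓ zpowers b)) = q * q * 1 := by
      rw [mul_one, ← mul_assoc]; exact h4.symm
    have h9 := Nat.eq_of_mul_eq_mul_left (Nat.mul_pos hqpos hqpos) h8
    exact Nat.eq_one_of_mul_eq_one_right h9
  have hAB : A ⊓ B = ⊥ := Subgroup.card_eq_one.mp h7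
  rw [h7, mul_one] at h5
  have hAnc : ¬ IsCyclic A := by
    intro hcyc
    have h8 := card_dvd_of_isCyclic_of_pow hcyc (p := q) (fun v hv => hQe v (hAQ hv))
    rw [h5] at h8
    have h9 := Nat.le_of_dvd hqpos h8
    have h10 : 2 ≤ q := hq.out.two_le
    nlinarith
  have hAc' : IsMulCommutative A := ⟨⟨fun x y => Subtype.ext (hAc x x.2 y y.2)⟩⟩
  have hgen := genCent_eq hAnc _ V' rfl (hAQ.trans hQV')
    (Nat.Coprime.coprime_dvd_left (card_dvd_of_le hAQ)
      (Nat.Coprime.coprime_dvd_right (card_dvd_of_le hV'V) hcop))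
  have hle : genCent A V' ≤ ⊥ := by
    apply iSup₂_le
    intro a' ha'
    obtain ⟨ha'A, ha'1⟩ := ha'
    have ha'B : a' ∉ B := by
      intro h
      have h8 : a' ∈ A ⊓ B := mem_inf.mpr ⟨ha'A, h⟩
      rw [hAB, mem_bot] at h8
      exact ha'1 h8
    rw [hout a' (hAQ ha'A) ha'B]
  rw [hgen, le_bot_iff, hV'] at hle
  exact hBne hle

end Cfsg.Agent.Lib.Helper30.ZG
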