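import Cfsg.Agent.Lib.Helper30.ZGAb

/-!
# The key configuration for BG Theorem 3.5 is impossible (helper30)

`V` an elementary abelian `p`-group, `Q` a `q`-group acting faithfully on `V`, `P` a `p`-group
acting on `V` and `Q`, `R₀` of prime order acting on everything with `C_P(R₀) = 1`,
`|C_V(R₀)| ≤ p`, `C_Q(R₀)` cyclic, odd order.  Then `[Q, P] = 1`.
-/

set_option autoImplicit false
set_option linter.unusedSectionVars false
set_option linter.style.haveILetI false
set_option linter.unusedVariables false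

namespace Cfsg.Agent.Lib.Helper30.ZG

open Subgroup
open scoped commutatorElement
open Cfsg.Agent.H58.FrobAct (mem_normalizer_of_conj conj_mem_of_mem_normalizer
  normalizer_inf_centralizer normalizer_commutator abelian_le_normalizer
  centralizer_inf_commutator_eq_bot)
open Cfsg.Agent.H58.FrobWielandt (FrobData Formula wielandt_formula mem_centralizer_sup)

variable {G : Type*} [Group G] [Finite G]

theorem commute_of_isCyclic {E : Subgroup G} (hE : IsCyclic E) {a b : G} (ha : a ∈ E)
    (hb : b ∈ E) : a * b = b * a := by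
  obtain ⟨d, hd⟩ := hE.exists_generator
  obtain ⟨i, hi⟩ := mem_zpowers_iff.mp (hd ⟨a, ha⟩)
  obtain ⟨j, hj⟩ := mem_zpowers_iff.mp (hd ⟨b, hb⟩)
  have hi' : (d : G) ^ i = a := by
    have h := congrArg Subtype.val hi
    simpa using h
  have hj' : (d : G) ^ j = b := by
    have h := congrArg Subtype.val hj
    simpa using h
  rw [← hi', ← hj']
  exact ((Commute.refl (d : G)).zpow_zpow i j).eq

theorem key_prop (hodd : Odd (Nat.card G)) {p q : ℕ} [hp : Fact p.Prime] [hq : Fact q.Prime]
    (hpq : p ≠ q) {V P R₀ : Subgroup G}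
    (hVc : ∀ a ∈ V, ∀ b ∈ V, a * b = b * a) (hVe : ∀ v ∈ V, v ^ p = 1)
    (hP : IsPGroup p P) (hPV : P ≤ normalizer (V : Set G))
    (hr : (Nat.card R₀).Prime) (hrp : Nat.card R₀ ≠ p) (hrq : Nat.card R₀ ≠ q)
    (hRV : R₀ ≤ normalizer (V : Set G)) (hRP : R₀ ≤ normalizer (P : Set G))
    (hPR : P ⊓ centralizer (R₀ : Set G) = ⊥)
    (hVR : Nat.card ↥(V ⊓ centralizer (R₀ : Set G)) ≤ p) :
    ∀ (n : ℕ) (Q : Subgroup G), Nat.card Q = n → IsPGroup q Q →
      Q ≤ normalizer (V : Set G) → P ≤ normalizer (Q : Set G) → R₀ ≤ normalizer (Q : Set G) →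
      IsCyclic ↥(Q ⊓ centralizer (R₀ : Set G)) → Q ⊓ centralizer (V : Set G) = ⊥ →
      ⁅Q, P⁆ = ⊥ := by
  intro n
  induction n using Nat.strong_induction_on with
  | _ n ih =>
  intro Q hn hQ hQV hPQ hRQ hQR hfaith
  by_contra hnt
  have hmin : ∀ Q₁ : Subgroup G, Q₁ < Q → P ≤ normalizer (Q₁ : Set G) →
      R₀ ≤ normalizer (Q₁ : Set G) → ⁅Q₁, P⁆ = ⊥ := by
    intro Q₁ hlt h1 h2
    exact ih (Nat.card Q₁) (by rw [← hn]; exact card_lt_card_of_lt hlt) Q₁ rfl
      (hQ.to_le hlt.le) (hlt.le.trans hQV) h1 h2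
      (isCyclic_of_le (inf_le_inf_right _ hlt.le) hQR)
      (by rw [eq_bot_iff, ← hfaith]; exact inf_le_inf_right _ hlt.le)
  have hVp : IsPGroup p V := fun g => ⟨1, by
    apply Subtype.ext
    rw [pow_one]
    simpa using hVe g g.2⟩
  have hQsolv : Group.IsSolvable Q := isSolvable_of_isPGroup' hQ
  have hPsolv : Group.IsSolvable P := isSolvable_of_isPGroup' hP
  have hcopPQ : (Nat.card P).Coprime (Nat.card Q) := coprime_of_isPGroup hpq hP hQ
  have hcopRQ : (Nat.card R₀).Coprime (Nat.card Q) := coprime_of_prime_of_isPGroup hr hrq hQ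
  have hcopRP : (Nat.card R₀).Coprime (Nat.card P) := coprime_of_prime_of_isPGroup hr hrp hP
  have hcopQV : (Nat.card Q).Coprime (Nat.card V) := coprime_of_isPGroup hpq.symm hQ hVp
  have hQ1 : Q ≠ ⊥ := by
    intro h
    apply hnt
    rw [h]
    exact commutator_bot_left P
  have hQP : ⁅Q, P⁆ = Q := by
    by_contra hne
    have h1 : ⁅Q, P⁆ ≤ Q := Cfsg.Agent.H1.commutator_le_of_le_normalizer P Q hPQ
    have h2 := Cfsg.Agent.H1.coprime_commutator_commutator P Q hPQ hcopPQ (Or.inl hPsolv)
    have h3 := hmin ⁅Q, P⁆ (lt_of_le_of_ne h1 hne)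
      (Cfsg.Agent.H1.le_normalizer_commutator P Q P hPQ le_normalizer)
      (Cfsg.Agent.H1.le_normalizer_commutator R₀ Q P hRQ hRP)
    rw [h2] at h3
    exact hnt h3
  obtain ⟨A, hA⟩ : ∃ A : Subgroup G, A = Q ⊓ centralizer (P : Set G) := ⟨_, rfl⟩
  have hAQ : A ≤ Q := by rw [hA]; exact inf_le_left
  have hAP : A ≤ centralizer (P : Set G) := by rw [hA]; exact inf_le_right
  have hleA : ∀ Q₁ : Subgroup G, Q₁ < Q → P ≤ normalizer (Q₁ : Set G) →
      R₀ ≤ normalizer (Q₁ : Set G) → Q₁ ≤ A := by
    intro Q₁ hlt h1 h2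
    rw [hA]
    exact le_inf hlt.le (commutator_eq_bot_iff_le_centralizer.mp (hmin Q₁ hlt h1 h2))
  have hPA : P ≤ normalizer (A : Set G) := by
    intro g hg
    rw [hA]
    exact normalizer_inf_centralizer Q P g (hPQ hg) (le_normalizer hg)
  have hRA : R₀ ≤ normalizer (A : Set G) := by
    intro g hg
    rw [hA]
    exact normalizer_inf_centralizer Q P g (hRQ hg) (hRP hg)
  have hAne : A ≠ Q := by
    intro h
    apply hnt
    rw [commutator_eq_bot_iff_le_centralizer, ← h]
    exact hAP
  have hQ'A : ⁅Q, Q⁆ ≤ A := hleA _ (commutator_self_lt Q hQsolv hQ1)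
    (Cfsg.Agent.H1.le_normalizer_commutator P Q Q hPQ hPQ)
    (Cfsg.Agent.H1.le_normalizer_commutator R₀ Q Q hRQ hRQ)
  have hAZ : A ≤ centralizer (Q : Set G) := by
    have h1 : ⁅⁅P, A⁆, Q⁆ = ⊥ := by
      have h0 : ⁅P, A⁆ = ⊥ := by
        rw [commutator_comm, commutator_eq_bot_iff_le_centralizer]
        exact hAP
      rw [h0]
      exact commutator_bot_left Q
    have h2 : ⁅⁅A, Q⁆, P⁆ = ⊥ := by
      rw [commutator_eq_bot_iff_le_centralizer]
      exact (commutator_mono hAQ le_rfl).trans (hQ'A.trans hAP)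
    have h3 := commutator_commutator_eq_bot_of_rotate h1 h2
    rw [hQP, commutator_eq_bot_iff_le_centralizer] at h3
    exact le_centralizer_iff.mp h3
  have hfrobP : ∀ x ∈ R₀, x ≠ 1 → P ⊓ centralizer ({x} : Set G) = ⊥ := by
    intro x hx hx1
    rw [centralizer_singleton_eq hr hx hx1]
    exact hPR
  have hdata : FrobData P R₀ Q :=
    ⟨hRP, hPsolv, hcopRP.symm, hfrobP, hPQ, hRQ, hQsolv, hcopPQ.symm, hcopRQ.symm⟩
  have hW := wielandt_formula (Nat.card Q) G P R₀ Q rfl hdata
  unfold Formula at hW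
  by_cases hab : ∀ a ∈ Q, ∀ b ∈ Q, a * b = b * a
  · -- abelian case
    have hA1 : A = ⊥ := by
      have h1 := centralizer_inf_commutator_eq_bot Q P hab hPQ hcopPQ
      rw [hQP, ← hA] at h1
      rw [eq_bot_iff, ← h1]
      exact le_inf le_rfl hAQ
    have hirr : ∀ Q₁ : Subgroup G, Q₁ < Q → P ≤ normalizer (Q₁ : Set G) →
        R₀ ≤ normalizer (Q₁ : Set G) → Q₁ = ⊥ := by
      intro Q₁ hlt h1 h2
      have h3 := hleA Q₁ hlt h1 h2
      rw [hA1] at h3
      exact le_bot_iff.mp h3
    have hQe : ∀ a ∈ Q, a ^ q = 1 := by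
      have hq_dvd : q ∣ Nat.card Q := by
        obtain ⟨k, hk⟩ := IsPGroup.iff_card.mp hQ
        rcases k with _ | k
        · exfalso
          apply hQ1
          rw [pow_zero] at hk
          exact Subgroup.card_eq_one.mp hk
        · rw [hk]
          exact dvd_pow_self q (Nat.succ_ne_zero k)
      have hΩne := omegaSub_ne_bot hab hq_dvd
      have hΩ : omegaSub q Q hab = Q := by
        by_contra hne
        exact hΩne (hirr _ (lt_of_le_of_ne (omegaSub_le hab) hne)
          (fun g hg => omegaSub_normalizer hab (hPQ hg))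
          (fun g hg => omegaSub_normalizer hab (hRQ hg)))
      intro a ha
      rw [← hΩ] at ha
      exact (mem_omegaSub.mp ha).2
    exact abelian_case hodd hpq hVc hVp hab hQe hQV hP hPV hPQ hr hrp hRV hRQ hRP hPR hVR
      hfaith hQP hQ1 hirr
  · -- nonabelian case
    have hZlt : Q ⊓ centralizer (Q : Set G) < Q := by
      refine lt_of_le_of_ne (inf_le_left : Q ⊓ centralizer (Q : Set G) ≤ Q) ?_
      intro h
      apply hab
      intro a ha b hb
      have h1 : Q ≤ centralizer (Q : Set G) := by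
        intro x hx
        have h2 : x ∈ Q ⊓ centralizer (Q : Set G) := by rw [h]; exact hx
        exact (mem_inf.mp h2).2
      exact (mem_centralizer_iff.mp (h1 hb)) a ha
    have hZA : Q ⊓ centralizer (Q : Set G) ≤ A :=
      hleA _ hZlt (fun g hg => normalizer_inf_centralizer Q Q g (hPQ hg) (hPQ hg))
        (fun g hg => normalizer_inf_centralizer Q Q g (hRQ hg) (hRQ hg))
    by_cases hK : ⁅A, R₀⁆ = ⊥
    · -- `R₀` centralizes `A = Z(Q)`
      have hAR : A ≤ centralizer (R₀ : Set G) := commutator_eq_bot_iff_le_centralizer.mp hK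
      have hclaim : Q ⊓ centralizer (R₀ : Set G) ≤ centralizer (Q : Set G) := by
        intro c hc
        obtain ⟨hcQ, hcR⟩ := mem_inf.mp hc
        have hdec := Cfsg.Agent.H1.coprime_commutator_sup_centralizer R₀ Q hRQ hcopRQ
          (Or.inr hQsolv)
        have h1 : ⁅Q, R₀⁆ ≤ centralizer ({c} : Set G) := by
          rw [commutator_le]
          intro y hy x hx
          rw [mem_centralizer_iff]
          intro c' hc'
          rw [Set.mem_singleton_iff] at hc'
          rw [hc', commutatorElement_def]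
          obtain ⟨z, hz⟩ : ∃ z : G, z = c * y * c⁻¹ * y⁻¹ := ⟨_, rfl⟩
          have hzA : z ∈ A := by
            apply hQ'A
            rw [hz, ← commutatorElement_def]
            exact commutator_mem_commutator hcQ hy
          have hcx : c * x * c⁻¹ = x := by
            have h0 := (mem_centralizer_iff.mp hcR) x hx
            rw [← h0]; group
          have hzx : x * z⁻¹ * x⁻¹ = z⁻¹ := by
            have h0 := (mem_centralizer_iff.mp (hAR hzA)) x hx
            have h' : x * z⁻¹ = z⁻¹ * x := by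
              calc x * z⁻¹ = z⁻¹ * (z * x) * z⁻¹ := by group
                _ = z⁻¹ * (x * z) * z⁻¹ := by rw [h0]
                _ = z⁻¹ * x := by group
            rw [h']; group
          have hw : y * x * y⁻¹ * x⁻¹ ∈ Q := by
            have h0 := Cfsg.Agent.H1.commutator_le_of_le_normalizer R₀ Q hRQ
              (commutator_mem_commutator hy hx)
            rwa [commutatorElement_def] at h0
          have hzw : z * (y * x * y⁻¹ * x⁻¹) * z⁻¹ = y * x * y⁻¹ * x⁻¹ := by
            have h0 := (mem_centralizer_iff.mp (hAZ hzA)) _ hw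
            rw [← h0]; group
          have e1 : c * (y * x * y⁻¹ * x⁻¹) * c⁻¹ =
              (c * y * c⁻¹) * (c * x * c⁻¹) * (c * y * c⁻¹)⁻¹ * (c * x * c⁻¹)⁻¹ := by group
          have e2 : c * y * c⁻¹ = z * y := by rw [hz]; group
          have e3 : c * (y * x * y⁻¹ * x⁻¹) * c⁻¹ = y * x * y⁻¹ * x⁻¹ := by
            rw [e1, hcx, e2]
            have e4 : z * y * x * (z * y)⁻¹ * x⁻¹ =
                z * (y * x * y⁻¹ * x⁻¹) * (x * z⁻¹ * x⁻¹) := by group
            rw [e4, hzx, hzw]
          calc c * (y * x * y⁻¹ * x⁻¹) = (c * (y * x * y⁻¹ * x⁻¹) * c⁻¹) * c := by group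
            _ = y * x * y⁻¹ * x⁻¹ * c := by rw [e3]
        have h2 : Q ⊓ centralizer (R₀ : Set G) ≤ centralizer ({c} : Set G) := by
          intro y hy
          rw [mem_centralizer_iff]
          intro c' hc'
          rw [Set.mem_singleton_iff] at hc'
          rw [hc']
          exact commute_of_isCyclic hQR hc hy
        have h3 : Q ≤ centralizer ({c} : Set G) := by
          rw [← hdec]; exact sup_le h1 h2
        rw [mem_centralizer_iff]
        intro y hy
        exact ((mem_centralizer_iff.mp (h3 hy)) c (Set.mem_singleton c)).symm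
      have hCR : Q ⊓ centralizer (R₀ : Set G) = A :=
        le_antisymm (fun c hc => hZA (mem_inf.mpr ⟨(mem_inf.mp hc).1, hclaim hc⟩))
          (le_inf hAQ hAR)
      have hCPR : Q ⊓ centralizer ((P ⊔ R₀ : Subgroup G) : Set G) = A := by
        apply le_antisymm
        · rw [hA]
          exact inf_le_inf_left _ (centralizer_le (le_sup_left : P ≤ P ⊔ R₀))
        · intro a ha
          exact mem_inf.mpr ⟨hAQ ha, mem_centralizer_sup (hAP ha) (hAR ha)⟩
      rw [hCPR, hCR, ← hA] at hW
      have hpos : 0 < Nat.card A ^ Nat.card R₀ := pow_pos Nat.card_pos _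
      have hcard : Nat.card Q = Nat.card A := Nat.eq_of_mul_eq_mul_left hpos hW
      exact hAne (Subgroup.eq_of_le_of_card_ge hAQ (le_of_eq hcard))
    · -- `K = [A, R₀] ≠ 1`
      obtain ⟨K, hKdef⟩ : ∃ K : Subgroup G, K = ⁅A, R₀⁆ := ⟨_, rfl⟩
      have hKne : K ≠ ⊥ := by rw [hKdef]; exact hK
      have hKA : K ≤ A := by
        rw [hKdef]; exact Cfsg.Agent.H1.commutator_le_of_le_normalizer R₀ A hRA
      have hKQ : K ≤ Q := hKA.trans hAQ
      have hRK : R₀ ≤ normalizer (K : Set G) := by
        rw [hKdef]; exact Cfsg.Agent.H1.le_normalizer_commutator R₀ A R₀ hRA le_normalizer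
      have hAc : ∀ a ∈ A, ∀ b ∈ A, a * b = b * a :=
        fun a ha b hb => (mem_centralizer_iff.mp (hAZ hb)) a (hAQ ha)
      have hcopRA : (Nat.card R₀).Coprime (Nat.card A) :=
        Nat.Coprime.coprime_dvd_right (card_dvd_of_le hAQ) hcopRQ
      have hKR : K ⊓ centralizer (R₀ : Set G) = ⊥ := by
        have h1 := centralizer_inf_commutator_eq_bot A R₀ hAc hRA hcopRA
        rw [eq_bot_iff, ← h1, ← hKdef]
        exact le_inf (inf_le_inf_right _ hKA) inf_le_left
      have hfrobK : ∀ x ∈ R₀, x ≠ 1 → K ⊓ centralizer ({x} : Set G) = ⊥ := by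
        intro x hx hx1
        rw [centralizer_singleton_eq hr hx hx1]
        exact hKR
      have hKq : IsPGroup q K := hQ.to_le hKQ
      have hKsolv : Group.IsSolvable K := isSolvable_of_isPGroup' hKq
      have hcopKR : (Nat.card K).Coprime (Nat.card R₀) :=
        (Nat.Coprime.coprime_dvd_right (card_dvd_of_le hKQ) hcopRQ).symm
      have hKV : K ≤ normalizer (V : Set G) := hKQ.trans hQV
      have hcopKV : (Nat.card K).Coprime (Nat.card V) :=
        Nat.Coprime.coprime_dvd_left (card_dvd_of_le hKQ) hcopQV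
      obtain ⟨V₂, hV₂⟩ : ∃ V₂ : Subgroup G, V₂ = ⁅V, K⁆ := ⟨_, rfl⟩
      have hV₂V : V₂ ≤ V := by
        rw [hV₂]; exact Cfsg.Agent.H1.commutator_le_of_le_normalizer K V hKV
      have hV₂ne : V₂ ≠ ⊥ := by
        intro h
        rw [hV₂, commutator_eq_bot_iff_le_centralizer] at h
        apply hKne
        rw [eq_bot_iff, ← hfaith]
        exact le_inf hKQ (le_centralizer_iff.mp h)
      have hV₂K : ⁅V₂, K⁆ = V₂ := by
        rw [hV₂]
        exact Cfsg.Agent.H1.coprime_commutator_commutator K V hKV hcopKV (Or.inl hKsolv)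
      have hV₂C : V₂ ⊓ centralizer (K : Set G) = ⊥ := by
        have h1 := centralizer_inf_commutator_eq_bot V K hVc hKV hcopKV
        rw [eq_bot_iff, ← h1, ← hV₂]
        exact le_inf (inf_le_inf_right _ hV₂V) inf_le_left
      have hPK : P ≤ centralizer (K : Set G) := le_centralizer_iff.mp (hKA.trans hAP)
      have hQK : Q ≤ centralizer (K : Set G) := le_centralizer_iff.mp (hKA.trans hAZ)
      have hKV₂ : K ≤ normalizer (V₂ : Set G) := by
        rw [hV₂]; exact Cfsg.Agent.H1.le_normalizer_commutator K V K hKV le_normalizer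
      have hRV₂ : R₀ ≤ normalizer (V₂ : Set G) := by
        rw [hV₂]; exact Cfsg.Agent.H1.le_normalizer_commutator R₀ V K hRV hRK
      have hPV₂ : P ≤ normalizer (V₂ : Set G) := by
        rw [hV₂]
        exact Cfsg.Agent.H1.le_normalizer_commutator P V K hPV
          (hPK.trans (centralizer_le_normalizer' K))
      have hQV₂ : Q ≤ normalizer (V₂ : Set G) := by
        rw [hV₂]
        exact Cfsg.Agent.H1.le_normalizer_commutator Q V K hQV
          (hQK.trans (centralizer_le_normalizer' K))
      have hform : ∀ W : Subgroup G, W ≤ V → K ≤ normalizer (W : Set G) →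
          R₀ ≤ normalizer (W : Set G) → W ⊓ centralizer (K : Set G) = ⊥ →
          Nat.card W = Nat.card ↥(W ⊓ centralizer (R₀ : Set G)) ^ Nat.card R₀ := by
        intro W hWV hKW hRW hWC
        have hWp : IsPGroup p W := hVp.to_le hWV
        have hd : FrobData K R₀ W :=
          ⟨hRK, hKsolv, hcopKR, hfrobK, hKW, hRW, isSolvable_of_isPGroup' hWp,
            coprime_of_isPGroup hpq hWp hKq, (coprime_of_prime_of_isPGroup hr hrp hWp).symm⟩
        have hF := wielandt_formula (Nat.card W) G K R₀ W rfl hd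
        unfold Formula at hF
        have h1 : W ⊓ centralizer ((K ⊔ R₀ : Subgroup G) : Set G) = ⊥ := by
          rw [eq_bot_iff, ← hWC]
          exact inf_le_inf_left _ (centralizer_le (le_sup_left : K ≤ K ⊔ R₀))
        rw [h1, hWC, card_bot, one_pow, one_mul, mul_one] at hF
        exact hF
      have hc2 := hform V₂ hV₂V hKV₂ hRV₂ hV₂C
      obtain ⟨W, hW'⟩ : ∃ W : Subgroup G, W = ⁅V₂, P⁆ := ⟨_, rfl⟩
      have hWlt : W < V₂ := by
        rw [hW']
        exact Cfsg.Agent.H1.commutator_lt_of_pgroup p P V₂ hP (hVp.to_le hV₂V) hPV₂ hV₂ne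
      have hKW : K ≤ normalizer (W : Set G) := by
        rw [hW']
        exact Cfsg.Agent.H1.le_normalizer_commutator K V₂ P hKV₂
          ((hKA.trans hAP).trans (centralizer_le_normalizer' P))
      have hRW : R₀ ≤ normalizer (W : Set G) := by
        rw [hW']; exact Cfsg.Agent.H1.le_normalizer_commutator R₀ V₂ P hRV₂ hRP
      have hWC : W ⊓ centralizer (K : Set G) = ⊥ := by
        rw [eq_bot_iff, ← hV₂C]; exact inf_le_inf_right _ hWlt.le
      have hcW := hform W (hWlt.le.trans hV₂V) hKW hRW hWC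
      have ha : Nat.card ↥(V₂ ⊓ centralizer (R₀ : Set G)) ≤ p :=
        (card_le_of_le (inf_le_inf_right _ hV₂V)).trans hVR
      have hb : Nat.card ↥(W ⊓ centralizer (R₀ : Set G)) <
          Nat.card ↥(V₂ ⊓ centralizer (R₀ : Set G)) := by
        have h1 : Nat.card W < Nat.card V₂ := card_lt_card_of_lt hWlt
        rw [hcW, hc2] at h1
        exact lt_of_pow_lt_pow_left₀ _ (Nat.zero_le _) h1
      have hW1 : Nat.card ↥(W ⊓ centralizer (R₀ : Set G)) = 1 := by
        rcases card_eq_one_or_of_le (hVp.to_le (inf_le_left.trans hV₂V)) ha with h1 | h1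
        · rw [h1] at hb
          have h2 := Nat.card_pos (α := ↥(W ⊓ centralizer (R₀ : Set G)))
          omega
        · rcases card_eq_one_or_of_le
            (hVp.to_le (inf_le_left.trans (hWlt.le.trans hV₂V))) (hb.le.trans ha) with h2 | h2
          · exact h2
          · rw [h1, h2] at hb
            exact absurd hb (lt_irrefl p)
      rw [hW1, one_pow] at hcW
      have hWbot : W = ⊥ := Subgroup.card_eq_one.mp hcW
      have hPC : P ≤ centralizer (V₂ : Set G) := by
        rw [hW', commutator_eq_bot_iff_le_centralizer] at hWbot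
        exact le_centralizer_iff.mp hWbot
      have hQC : Q ≤ centralizer (V₂ : Set G) := by
        rw [← hQP, commutator_le]
        intro a ha b hb
        rw [commutatorElement_def]
        have h1 : a * b * a⁻¹ ∈ centralizer (V₂ : Set G) :=
          conj_mem_centralizer (hQV₂ ha) (hPC hb)
        exact mul_mem h1 (inv_mem (hPC hb))
      apply hV₂ne
      rw [← hV₂K, commutator_eq_bot_iff_le_centralizer]
      exact le_centralizer_iff.mp (hKQ.trans hQC)

end Cfsg.Agent.Lib.Helper30.ZG
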