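import Cfsg.Agent.H58.FrobWielandt
import Cfsg.Agent.H1.PQLemma
import Cfsg.Agent.H13.Basic
import Cfsg.Agent.Lib.Helper30.Glauberman
import Cfsg.Agent.Lib.Helper30.Generation

/-!
# Utilities for the Z-group theorem (BG Theorem 3.5), helper30
-/

set_option autoImplicit false
set_option linter.unusedSectionVars false
set_option linter.style.haveILetI false
set_option linter.unusedVariables false

namespace Cfsg.Agent.Lib.Helper30.ZG

open Subgroup
open scoped commutatorElement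

variable {G : Type*} [Group G]

/-- A nontrivial element of a subgroup of prime order generates it. -/
theorem zpowers_eq_of_prime_card {R₀ : Subgroup G} (hr : (Nat.card R₀).Prime) {x : G}
    (hx : x ∈ R₀) (hx1 : x ≠ 1) : zpowers x = R₀ := by
  haveI : Fact (Nat.card R₀).Prime := ⟨hr⟩
  have h := zpowers_eq_top_of_prime_card (G := ↥R₀) rfl (g := ⟨x, hx⟩)
    (by intro h; exact hx1 (congrArg Subtype.val h))
  apply le_antisymm (zpowers_le.mpr hx)
  intro y hy
  have h2 : (⟨y, hy⟩ : R₀) ∈ zpowers (⟨x, hx⟩ : R₀) := by rw [h]; exact mem_top _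
  obtain ⟨k, hk⟩ := mem_zpowers_iff.mp h2
  rw [mem_zpowers_iff]
  refine ⟨k, ?_⟩
  have h3 := congrArg Subtype.val hk
  simpa using h3

theorem centralizer_singleton_eq {R₀ : Subgroup G} (hr : (Nat.card R₀).Prime) {x : G}
    (hx : x ∈ R₀) (hx1 : x ≠ 1) :
    centralizer ({x} : Set G) = centralizer (R₀ : Set G) := by
  apply le_antisymm
  · intro g hg
    rw [mem_centralizer_iff] at hg ⊢
    intro y hy
    rw [← zpowers_eq_of_prime_card hr hx hx1] at hy
    obtain ⟨k, rfl⟩ := mem_zpowers_iff.mp hy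
    have h1 : Commute x g := hg x (Set.mem_singleton x)
    exact (h1.zpow_left k).eq
  · exact centralizer_le (Set.singleton_subset_iff.mpr hx)

theorem le_normalizer_of_prime_card {R₀ B : Subgroup G} (hr : (Nat.card R₀).Prime) {x : G}
    (hx : x ∈ R₀) (hx1 : x ≠ 1) (hxB : x ∈ normalizer (B : Set G)) :
    R₀ ≤ normalizer (B : Set G) := by
  rw [← zpowers_eq_of_prime_card hr hx hx1]
  exact zpowers_le.mpr hxB

theorem exists_ne_one_of_prime_card {R₀ : Subgroup G} (hr : (Nat.card R₀).Prime) :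
    ∃ x ∈ R₀, x ≠ 1 := by
  by_contra h
  have h1 : R₀ = ⊥ := (eq_bot_iff_forall R₀).mpr
    (fun x hx => by_contra fun hne => h ⟨x, hx, hne⟩)
  rw [h1, card_bot] at hr
  exact Nat.not_prime_one hr

/-- The automorphism group of a cyclic group is abelian: commutators of normalizing elements
centralize. -/
theorem comm_mem_centralizer_of_isCyclic {D : Subgroup G} (hD : IsCyclic D) {a b : G}
    (ha : a ∈ normalizer (D : Set G)) (hb : b ∈ normalizer (D : Set G)) :
    a * b * a⁻¹ * b⁻¹ ∈ centralizer (D : Set G) := by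
  obtain ⟨d, hd⟩ := hD.exists_generator
  have hpow : ∀ y ∈ D, ∃ k : ℤ, y = (d : G) ^ k := by
    intro y hy
    obtain ⟨k, hk⟩ := mem_zpowers_iff.mp (hd ⟨y, hy⟩)
    refine ⟨k, ?_⟩
    have h3 := congrArg Subtype.val hk
    simpa using h3.symm
  have key : ∀ a b : G, a ∈ normalizer (D : Set G) → b ∈ normalizer (D : Set G) →
      (b * a)⁻¹ * (a * b) ∈ centralizer (D : Set G) := by
    intro a b ha hb
    obtain ⟨i, hi⟩ := hpow (a * d * a⁻¹) ((mem_normalizer_iff.mp ha d).mp d.2)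
    obtain ⟨j, hj⟩ := hpow (b * d * b⁻¹) ((mem_normalizer_iff.mp hb d).mp d.2)
    have h1 : (a * b) * d * (a * b)⁻¹ = ((d : G) ^ i) ^ j := by
      have e : (a * b) * d * (a * b)⁻¹ = a * (b * d * b⁻¹) * a⁻¹ := by group
      rw [e, hj, ← conj_zpow, hi]
    have h2 : (b * a) * d * (b * a)⁻¹ = ((d : G) ^ j) ^ i := by
      have e : (b * a) * d * (b * a)⁻¹ = b * (a * d * a⁻¹) * b⁻¹ := by group
      rw [e, hi, ← conj_zpow, hj]
    have h3 : (a * b) * d * (a * b)⁻¹ = (b * a) * d * (b * a)⁻¹ := by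
      rw [h1, h2, ← zpow_mul, ← zpow_mul, mul_comm]
    have h4 : Commute ((b * a)⁻¹ * (a * b)) (d : G) := by
      show (b * a)⁻¹ * (a * b) * d = d * ((b * a)⁻¹ * (a * b))
      calc (b * a)⁻¹ * (a * b) * d = (b * a)⁻¹ * ((a * b) * d * (a * b)⁻¹) * (a * b) := by group
        _ = (b * a)⁻¹ * ((b * a) * d * (b * a)⁻¹) * (a * b) := by rw [h3]
        _ = d * ((b * a)⁻¹ * (a * b)) := by group
    rw [mem_centralizer_iff]
    intro y hy
    obtain ⟨k, rfl⟩ := hpow y hy
    exact (h4.zpow_right k).eq.symm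
  have h := key a⁻¹ b⁻¹ (inv_mem ha) (inv_mem hb)
  have e : (b⁻¹ * a⁻¹)⁻¹ * (a⁻¹ * b⁻¹) = a * b * a⁻¹ * b⁻¹ := by group
  rwa [e] at h

theorem card_dvd_of_isCyclic_of_pow {D : Subgroup G} (hD : IsCyclic D) {p : ℕ}
    (h : ∀ v ∈ D, v ^ p = 1) : Nat.card D ∣ p := by
  obtain ⟨d, hd⟩ := hD.exists_generator
  rw [← orderOf_eq_card_of_forall_mem_zpowers hd]
  apply orderOf_dvd_of_pow_eq_one
  apply Subtype.ext
  simpa using h d d.2

/-- `Ω_p` of an abelian subgroup: the elements of order dividing `p`. -/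
def omegaSub (p : ℕ) (A : Subgroup G) (hA : ∀ a ∈ A, ∀ b ∈ A, a * b = b * a) : Subgroup G where
  carrier := {x | x ∈ A ∧ x ^ p = 1}
  mul_mem' := by
    rintro a b ⟨ha, ha'⟩ ⟨hb, hb'⟩
    refine ⟨A.mul_mem ha hb, ?_⟩
    rw [(show Commute a b from hA a ha b hb).mul_pow, ha', hb', one_mul]
  one_mem' := ⟨A.one_mem, one_pow p⟩
  inv_mem' := by
    rintro a ⟨ha, ha'⟩
    exact ⟨A.inv_mem ha, by rw [inv_pow, ha', inv_one]⟩

theorem mem_omegaSub {p : ℕ} {A : Subgroup G} {hA : ∀ a ∈ A, ∀ b ∈ A, a * b = b * a} {x : G} :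
    x ∈ omegaSub p A hA ↔ x ∈ A ∧ x ^ p = 1 := Iff.rfl

theorem omegaSub_le {p : ℕ} {A : Subgroup G} (hA : ∀ a ∈ A, ∀ b ∈ A, a * b = b * a) :
    omegaSub p A hA ≤ A := fun _ hx => hx.1

theorem omegaSub_normalizer [Finite G] {p : ℕ} {A : Subgroup G}
    (hA : ∀ a ∈ A, ∀ b ∈ A, a * b = b * a) {g : G} (hg : g ∈ normalizer (A : Set G)) :
    g ∈ normalizer ((omegaSub p A hA : Subgroup G) : Set G) := by
  apply Cfsg.Agent.H58.FrobAct.mem_normalizer_of_conj
  rintro x ⟨hx, hx'⟩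
  refine ⟨(mem_normalizer_iff.mp hg x).mp hx, ?_⟩
  rw [conj_pow, hx', mul_one, mul_inv_cancel]

theorem omegaSub_ne_bot [Finite G] {p : ℕ} [Fact p.Prime] {A : Subgroup G}
    (hA : ∀ a ∈ A, ∀ b ∈ A, a * b = b * a) (hp : p ∣ Nat.card A) : omegaSub p A hA ≠ ⊥ := by
  obtain ⟨x, hx⟩ := exists_prime_orderOf_dvd_card' p hp
  intro h
  have h1 : (x : G) ∈ omegaSub p A hA := by
    refine ⟨x.2, ?_⟩
    have h2 : x ^ p = 1 := by rw [← hx]; exact pow_orderOf_eq_one x
    have h3 := congrArg Subtype.val h2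
    simpa using h3
  rw [h, mem_bot] at h1
  have h4 : x = 1 := Subtype.ext h1
  rw [h4, orderOf_one] at hx
  exact (Fact.out : p.Prime).one_lt.ne hx

theorem conj_mem_centralizer {X : Subgroup G} {g c : G} (hg : g ∈ normalizer (X : Set G))
    (hc : c ∈ centralizer (X : Set G)) : g * c * g⁻¹ ∈ centralizer (X : Set G) := by
  rw [mem_centralizer_iff] at hc ⊢
  intro y hy
  have hy' : g⁻¹ * y * g ∈ X := by
    have h := (mem_normalizer_iff.mp (inv_mem hg) y).mp hy
    simpa using h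
  have h1 := hc _ hy'
  calc y * (g * c * g⁻¹) = g * ((g⁻¹ * y * g) * c) * g⁻¹ := by group
    _ = g * (c * (g⁻¹ * y * g)) * g⁻¹ := by rw [h1]
    _ = g * c * g⁻¹ * y := by group

theorem mem_normalizer_map_conj_iff (h x : G) (B : Subgroup G) :
    x ∈ normalizer ((B.map (MulAut.conj h).toMonoidHom : Subgroup G) : Set G) ↔
      h⁻¹ * x * h ∈ normalizer (B : Set G) := by
  rw [mem_normalizer_iff, mem_normalizer_iff]
  constructor
  · intro e z
    have h1 := e (h * z * h⁻¹)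
    rw [mem_map_conj_iff, mem_map_conj_iff] at h1
    have e1 : h⁻¹ * (h * z * h⁻¹) * h = z := by group
    have e2 : h⁻¹ * (x * (h * z * h⁻¹) * x⁻¹) * h = h⁻¹ * x * h * z * (h⁻¹ * x * h)⁻¹ := by
      group
    rwa [e1, e2] at h1
  · intro e y
    have h1 := e (h⁻¹ * y * h)
    rw [mem_map_conj_iff, mem_map_conj_iff]
    have e2 : h⁻¹ * x * h * (h⁻¹ * y * h) * (h⁻¹ * x * h)⁻¹ = h⁻¹ * (x * y * x⁻¹) * h := by
      group
    rwa [e2] at h1

theorem commutator_self_lt (K : Subgroup G) (hK : Group.IsSolvable K) (hne : K ≠ ⊥) :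
    ⁅K, K⁆ < K := by
  refine lt_of_le_of_ne (Cfsg.Agent.H1.commutator_le_of_le_normalizer K K le_normalizer)
    fun heq => hne ?_
  obtain ⟨n, hn⟩ := Cfsg.Agent.H58.FrobAct.exists_ds_eq_bot K hK
  have hall : ∀ m, Cfsg.Agent.H58.FrobAct.ds K m = K := by
    intro m
    induction m with
    | zero => rfl
    | succ m ih =>
      show ⁅Cfsg.Agent.H58.FrobAct.ds K m, Cfsg.Agent.H58.FrobAct.ds K m⁆ = K
      rw [ih, heq]
  rw [hall n] at hn
  exact hn

theorem card_eq_one_or_of_le [Finite G] {p : ℕ} [hp : Fact p.Prime] {D : Subgroup G}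
    (hD : IsPGroup p D) (hle : Nat.card D ≤ p) : Nat.card D = 1 ∨ Nat.card D = p := by
  obtain ⟨k, hk⟩ := IsPGroup.iff_card.mp hD
  rcases k with _ | k
  · left; simpa using hk
  · right
    have h1 : p ≤ p ^ (k + 1) := Nat.le_self_pow (by omega) p
    omega

theorem le_card_of_ne_bot [Finite G] {p : ℕ} [hp : Fact p.Prime] {D : Subgroup G}
    (hD : IsPGroup p D) (hne : D ≠ ⊥) : p ≤ Nat.card D := by
  obtain ⟨k, hk⟩ := IsPGroup.iff_card.mp hD
  rcases k with _ | k
  · exfalso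
    apply hne
    rw [pow_zero] at hk
    exact Subgroup.card_eq_one.mp hk
  · rw [hk]; exact Nat.le_self_pow (by omega) p

theorem coprime_of_prime_of_isPGroup [Finite G] {p : ℕ} [hp : Fact p.Prime] {R₀ A : Subgroup G}
    (hr : (Nat.card R₀).Prime) (hrp : Nat.card R₀ ≠ p) (hA : IsPGroup p A) :
    (Nat.card R₀).Coprime (Nat.card A) := by
  obtain ⟨k, hk⟩ := IsPGroup.iff_card.mp hA
  rw [hk]
  exact Nat.Coprime.pow_right k ((Nat.coprime_primes hr hp.out).mpr hrp)

theorem coprime_of_isPGroup [Finite G] {p q : ℕ} [hp : Fact p.Prime] [hq : Fact q.Prime]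
    (hpq : p ≠ q) {A B : Subgroup G} (hA : IsPGroup p A) (hB : IsPGroup q B) :
    (Nat.card A).Coprime (Nat.card B) := by
  obtain ⟨k, hk⟩ := IsPGroup.iff_card.mp hA
  obtain ⟨l, hl⟩ := IsPGroup.iff_card.mp hB
  rw [hk, hl]
  exact Nat.Coprime.pow k l ((Nat.coprime_primes hp.out hq.out).mpr hpq)

theorem isSolvable_of_isPGroup' [Finite G] {p : ℕ} [Fact p.Prime] {M : Subgroup G}
    (hM : IsPGroup p M) : Group.IsSolvable M := by
  have : Group.IsNilpotent M := hM.isNilpotent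
  infer_instance

/-- Subgroup of a cyclic subgroup is cyclic. -/
theorem isCyclic_of_le {D E : Subgroup G} (h : D ≤ E) (hE : IsCyclic E) : IsCyclic D :=
  isCyclic_of_injective (Subgroup.inclusion h) (Subgroup.inclusion_injective h)

end Cfsg.Agent.Lib.Helper30.ZG
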