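import Cfsg.Agent.Lib.Helper30.ZGKey
import Cfsg.Agent.H58.Char
import Cfsg.Agent.H13.FitInt

/-!
# More utilities for the `Z`-group theorem (BG 3.5)
-/

set_option autoImplicit false
set_option linter.unusedSectionVars false
set_option linter.unusedVariables false
set_option linter.style.haveILetI false

namespace Cfsg.Agent.Lib.Helper30.ZG

open Cfsg.Agent.H58.FrobAct
open Subgroup

universe u

variable {G : Type u} [Group G]

theorem mem_sup_iff_of_le_normalizer {A B : Subgroup G} (h : B ≤ normalizer (A : Set G)) {x : G} :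
    x ∈ A ⊔ B ↔ ∃ a ∈ A, ∃ b ∈ B, a * b = x := by
  have e := Subgroup.coe_mul_of_right_le_normalizer_left A B h
  rw [← SetLike.mem_coe, e, Set.mem_mul]
  rfl

theorem le_normalizer_sup [Finite G] {Y A B : Subgroup G} (hA : Y ≤ normalizer (A : Set G))
    (hB : Y ≤ normalizer (B : Set G)) : Y ≤ normalizer ((A ⊔ B : Subgroup G) : Set G) := by
  intro g hg
  rw [Cfsg.Agent.Lib.Helper30.mem_normalizer_iff_map_conj, Subgroup.map_sup,
    map_conj_eq_of_mem_normalizer (hA hg), map_conj_eq_of_mem_normalizer (hB hg)]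

theorem le_normalizer_inf' {Y A B : Subgroup G} (hA : Y ≤ normalizer (A : Set G))
    (hB : Y ≤ normalizer (B : Set G)) : Y ≤ normalizer ((A ⊓ B : Subgroup G) : Set G) :=
  (le_inf hA hB).trans Subgroup.inf_normalizer_le_normalizer_inf

theorem le_normalizer_centralizer [Finite G] {Y A : Subgroup G}
    (hA : Y ≤ normalizer (A : Set G)) :
    Y ≤ normalizer ((centralizer (A : Set G) : Subgroup G) : Set G) := by
  intro g hg
  apply mem_normalizer_of_conj
  intro c hc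
  exact conj_mem_centralizer (hA hg) hc

theorem le_normalizer_bot [Finite G] (Y : Subgroup G) :
    Y ≤ normalizer (((⊥ : Subgroup G) : Subgroup G) : Set G) := by
  intro y hy
  apply mem_normalizer_of_conj
  intro x hx
  rw [Subgroup.mem_bot] at hx ⊢
  rw [hx]; group

theorem isCyclic_of_isZGroup {q : ℕ} [Fact q.Prime] {Z D : Subgroup G} (hZ : IsZGroup ↥Z)
    (hD : D ≤ Z) (hq : IsPGroup q D) : IsCyclic ↥D := by
  haveI := hZ
  have h1 : IsPGroup q ↥(D.subgroupOf Z) := hq.comap_subtype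
  haveI h2 : IsCyclic ↥(D.subgroupOf Z) := IsPGroup.isCyclic_of_isZGroup h1
  exact isCyclic_of_surjective (Subgroup.subgroupOfEquivOfLe hD).toMonoidHom
    (Subgroup.subgroupOfEquivOfLe hD).surjective

theorem dvd_card_of_ne_bot [Finite G] {p : ℕ} [hp : Fact p.Prime] {D : Subgroup G}
    (hD : IsPGroup p D) (hne : D ≠ ⊥) : p ∣ Nat.card D := by
  obtain ⟨n, hn⟩ := IsPGroup.iff_card.mp hD
  rw [hn]
  apply dvd_pow_self
  rintro rfl
  rw [pow_zero] at hn
  exact hne (Subgroup.card_eq_one.mp hn)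

theorem coprime_of_isPGroup_ne [Finite G] {p q : ℕ} [hp : Fact p.Prime] [hq : Fact q.Prime]
    {B : Subgroup G} (hB : IsPGroup q B) (hne : q ≠ p) : (Nat.card B).Coprime p := by
  obtain ⟨n, hn⟩ := IsPGroup.iff_card.mp hB
  rw [hn]
  exact Nat.Coprime.pow_left n ((Nat.coprime_primes hq.out hp.out).mpr hne)

theorem exists_orderOf_eq_of_ne_bot [Finite G] {p : ℕ} [hp : Fact p.Prime] {D : Subgroup G}
    (hD : IsPGroup p D) (hne : D ≠ ⊥) : ∃ x ∈ D, orderOf x = p := by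
  obtain ⟨x, hx⟩ := exists_prime_orderOf_dvd_card' (G := ↥D) p (dvd_card_of_ne_bot hD hne)
  exact ⟨x, x.2, by rw [Subgroup.orderOf_coe]; exact hx⟩

/-- In a cyclic group, two nontrivial `p`-subgroups meet nontrivially. -/
theorem inf_ne_bot_of_isCyclic [Finite G] {p : ℕ} [hp : Fact p.Prime] {D Y₁ Y₂ : Subgroup G}
    (hD : IsCyclic ↥D) (h₁ : Y₁ ≤ D) (h₂ : Y₂ ≤ D) (hp₁ : IsPGroup p Y₁) (hp₂ : IsPGroup p Y₂)
    (hne₁ : Y₁ ≠ ⊥) (hne₂ : Y₂ ≠ ⊥) : Y₁ ⊓ Y₂ ≠ ⊥ := by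
  obtain ⟨x, hx, hxo⟩ := exists_orderOf_eq_of_ne_bot hp₁ hne₁
  obtain ⟨y, hy, hyo⟩ := exists_orderOf_eq_of_ne_bot hp₂ hne₂
  have hDc : ∀ a ∈ D, ∀ b ∈ D, a * b = b * a := fun a ha b hb => commute_of_isCyclic hD ha hb
  have hΩ : Nat.card ↥(omegaSub p D hDc) ∣ p :=
    card_dvd_of_isCyclic_of_pow (isCyclic_of_le (omegaSub_le hDc) hD)
      (fun v hv => (mem_omegaSub.mp hv).2)
  have hΩle : Nat.card ↥(omegaSub p D hDc) ≤ p := Nat.le_of_dvd hp.out.pos hΩ
  have key : ∀ z ∈ D, orderOf z = p → zpowers z = omegaSub p D hDc := by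
    intro z hz hzo
    apply Subgroup.eq_of_le_of_card_ge
    · rw [Subgroup.zpowers_le]
      exact mem_omegaSub.mpr ⟨hz, by rw [← hzo]; exact pow_orderOf_eq_one z⟩
    · rw [Nat.card_zpowers, hzo]; exact hΩle
  have hxy : x ∈ zpowers y := by
    rw [key y (h₂ hy) hyo, ← key x (h₁ hx) hxo]
    exact Subgroup.mem_zpowers x
  have hxY₂ : x ∈ Y₂ := (Subgroup.zpowers_le.mpr hy) hxy
  intro hbot
  have hx1 : x ∈ (⊥ : Subgroup G) := by
    rw [← hbot]; exact Subgroup.mem_inf.mpr ⟨hx, hxY₂⟩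
  rw [Subgroup.mem_bot] at hx1
  rw [hx1, orderOf_one] at hxo
  exact hp.out.one_lt.ne hxo

/-- The image of a normal subgroup of `Γ` is normalized by `Γ`. -/
theorem normal_map_subtype_normalizer [Finite G] {Γ : Subgroup G} (C : Subgroup ↥Γ)
    [hC : C.Normal] : Γ ≤ normalizer ((C.map Γ.subtype : Subgroup G) : Set G) := by
  intro g hg
  apply mem_normalizer_of_conj
  rintro _ ⟨c, hc, rfl⟩
  exact ⟨⟨g, hg⟩ * c * ⟨g, hg⟩⁻¹, hC.conj_mem c hc ⟨g, hg⟩, rfl⟩

/-- In a solvable group with `O_p = 1`, a nontrivial `p`-subgroup does not centralize some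
`O_q`, `q ≠ p`. -/
theorem exists_pCore_not_commute {L : Type u} [Group L] [Finite L] [Group.IsSolvable L]
    (p : ℕ) [hp : Fact p.Prime] (hOp : Cfsg.pCore p L = ⊥) (P : Subgroup L) (hP : IsPGroup p P)
    (hne : P ≠ ⊥) :
    ∃ q : ℕ, q.Prime ∧ q ≠ p ∧ ¬ P ≤ centralizer ((Cfsg.pCore q L : Subgroup L) : Set L) := by
  by_contra hcon
  have h : ∀ q : ℕ, q.Prime → q ≠ p →
      P ≤ centralizer ((Cfsg.pCore q L : Subgroup L) : Set L) := by
    intro q hq hqp
    by_contra h'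
    exact hcon ⟨q, hq, hqp, h'⟩
  have h1 : P ≤ centralizer ((Cfsg.fittingSubgroup L : Subgroup L) : Set L) := by
    rw [Subgroup.le_centralizer_iff, Cfsg.Agent.H1.fitting_eq_iSup_pCore]
    apply iSup_le
    intro q
    by_cases hqp : (q : ℕ) = p
    · rw [hqp, hOp]; exact bot_le
    · exact Subgroup.le_centralizer_iff.mp (h q q.2 hqp)
  have h2 : P ≤ Cfsg.fittingSubgroup L := h1.trans Cfsg.Agent.H1.centralizer_fitting_le
  have h3 : Cfsg.fittingSubgroup L ≤ Cfsg.pPrimeCore p L := by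
    rw [Cfsg.Agent.H1.fitting_eq_iSup_pCore]
    apply iSup_le
    intro q
    by_cases hqp : (q : ℕ) = p
    · rw [hqp, hOp]; exact bot_le
    · haveI : Fact (q : ℕ).Prime := ⟨q.2⟩
      haveI := Cfsg.Agent.H13.pCore_normal (q : ℕ) L
      apply Cfsg.Agent.H1.le_pPrimeCore p (Cfsg.pCore (q : ℕ) L)
      exact coprime_of_isPGroup_ne (Cfsg.Agent.H13.pCore_isPGroup (q : ℕ) L) hqp
  have h4 : (Nat.card P).Coprime p :=
    Nat.Coprime.coprime_dvd_left (Subgroup.card_dvd_of_le (h2.trans h3))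
      (Cfsg.Agent.H1.pPrimeCore_card_coprime p)
  have h5 := dvd_card_of_ne_bot hP hne
  exact (Nat.Prime.coprime_iff_not_dvd hp.out).mp h4.symm h5

end Cfsg.Agent.Lib.Helper30.ZG
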