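import Mathlib
import Cfsg.Agent.H58.KUDefs
import Cfsg.Agent.S1427
import Cfsg.Agent.S1428
import Cfsg.Agent.Helper55.PRankOne
import Cfsg.Agent.H76.BG10x
import Cfsg.Agent.Lib.Helper30.ZFaith

set_option autoImplicit false

/-!
# Z-PRIME (helper30, for helper58's step (Z) towards S1353 / S1354)

Prime action: `K* = C_{M_σ}(P)` centralizes the cyclic Hall `τ₁(M)`-subgroup `E₁ ≥ P` of `E`.
For `x ∈ E₁` of order `q ^ a ≠ 1`, `x₀` its power of order `q`: `K* ≤ C_{M_σ}(x₀)` by S1428 and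
`C_{M_σ}(x₀) = C_{M_σ}(x)` by S1427 (cyclic Sylow `q`-subgroup of `E` through `x`).
-/

namespace Cfsg.Agent.Lib.Helper30.KU

open Cfsg Subgroup Cfsg.Agent.H76.NCKill Cfsg.Agent.H58.KU

universe u

variable {G : Type u} [Group G]

/-- The elements of a cyclic subgroup commute. -/
theorem comm_of_isCyclic {K : Subgroup G} (hK : IsCyclic K) :
    ∀ a ∈ K, ∀ b ∈ K, a * b = b * a := by
  intro a ha b hb
  obtain ⟨z, hz⟩ := hK.exists_generator
  obtain ⟨i, hi⟩ := Subgroup.mem_zpowers_iff.mp (hz ⟨a, ha⟩)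
  obtain ⟨j, hj⟩ := Subgroup.mem_zpowers_iff.mp (hz ⟨b, hb⟩)
  have h1 : a = (z : G) ^ i := by rw [← Subgroup.coe_zpow, hi]
  have h2 : b = (z : G) ^ j := by rw [← Subgroup.coe_zpow, hj]
  rw [h1, h2, ← zpow_add, ← zpow_add, add_comm]

theorem zPrime [Finite G] : Cfsg.Agent.H58.KU.StZPrime G := by
  intro hG hPP M E A P r p _ h E1 hE1 hcyc hPE1
  have hE1E : E1 ≤ E := hE1.1
  have key : E1 ≤ centralizer
      ((sigmaCore M ⊓ centralizer (P : Set G) : Subgroup G) : Set G) := by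
    apply hPP
    rintro x hx ⟨q, a, hq, hxo⟩
    by_cases hx1 : x = 1
    · rw [hx1]; exact one_mem _
    haveI : Fact q.Prime := ⟨hq⟩
    have hqd : q ∣ orderOf x := by
      rw [hxo]
      rcases Nat.eq_zero_or_pos a with ha | ha
      · exfalso
        rw [ha, pow_zero] at hxo
        exact hx1 (orderOf_eq_one_iff.mp hxo)
      · exact dvd_pow_self q ha.ne'
    have hqτ : q ∈ tau1 M := hE1.2.1 q hq (hqd.trans (Subgroup.orderOf_dvd_natCard _ hx))
    have hq2 : q ≠ 2 := by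
      rintro rfl
      have h2 : 2 ∣ Nat.card G := hqd.trans (orderOf_dvd_natCard x)
      exact (Nat.not_even_iff_odd.mpr hG.1) (even_iff_two_dvd.mpr h2)
    obtain ⟨m, hm⟩ := exists_pow_orderOf_eq_prime hqd
    have hxE : x ∈ E := hE1E hx
    have hcomm : ∀ g ∈ P, g * x ^ m = x ^ m * g := fun g hg =>
      comm_of_isCyclic hcyc g (hPE1 hg) (x ^ m) (pow_mem hx m)
    have hXE : zpowers (x ^ m) ≤ E ⊓ centralizer (P : Set G) := by
      rw [Subgroup.zpowers_le]
      refine Subgroup.mem_inf.mpr ⟨pow_mem hxE m, ?_⟩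
      rw [Subgroup.mem_centralizer_iff]
      exact hcomm
    have h28 := Cfsg.Agent.S1428.result hG M h.coatom E h.compl p h.tau1 P h.PE h.Pcard
      (zpowers (x ^ m)) hXE (by rw [Nat.card_zpowers, hm]; exact hq)
    -- a Sylow `q`-subgroup of `E` through `x`
    have hxq : IsPGroup q (zpowers (⟨x, hxE⟩ : ↥E)) := by
      apply IsPGroup.of_card (n := a)
      rw [Nat.card_zpowers, Subgroup.orderOf_mk, hxo]
    obtain ⟨S, hS⟩ := hxq.exists_le_sylow
    have hxS : (⟨x, hxE⟩ : ↥E) ∈ (S : Subgroup ↥E) := hS (Subgroup.mem_zpowers _)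
    have hS1 : (S : Subgroup ↥E) ≠ ⊥ := by
      intro hbot
      rw [hbot, Subgroup.mem_bot] at hxS
      exact hx1 (congrArg Subtype.val hxS)
    have hSc : IsCyclic (S : Subgroup ↥E) := by
      apply Cfsg.Agent.Helper55.isCyclic_of_pRankLE_one hq2 S.isPGroup'
      have hrk : PRankLE q 1 ↥M := hqτ.2.2.2.2
      have hEM : E ≤ M := h.compl.1
      exact Cfsg.Agent.H76.BG10.pRankLE_of_injective
        ((Subgroup.inclusion hEM).comp (S : Subgroup ↥E).subtype)
        ((Subgroup.inclusion_injective hEM).comp (Subgroup.subtype_injective _)) hrk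
    have h27 := Cfsg.Agent.S1427.result hG M h.coatom E h.compl q S hS1 hSc
    have hxmap : x ∈ (S : Subgroup ↥E).map E.subtype := ⟨⟨x, hxE⟩, hxS, rfl⟩
    have hx0map : x ^ m ∈ (S : Subgroup ↥E).map E.subtype := pow_mem hxmap m
    have hx01 : x ^ m ≠ 1 := by
      intro h0
      rw [h0, orderOf_one] at hm
      exact hq.one_lt.ne hm
    have e1 := h27 x hxmap hx1
    have e2 := h27 (x ^ m) hx0map hx01
    rw [Subgroup.mem_centralizer_iff]
    intro k hk
    have hk1 : k ∈ sigmaCore M ⊓ centralizer ((zpowers (x ^ m) : Subgroup G) : Set G) := h28 hk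
    have hk2 : k ∈ sigmaCore M ⊓ centralizer ({x ^ m} : Set G) := by
      refine Subgroup.mem_inf.mpr ⟨(Subgroup.mem_inf.mp hk1).1, ?_⟩
      refine Subgroup.centralizer_le ?_ (Subgroup.mem_inf.mp hk1).2
      intro y hy
      rw [Set.mem_singleton_iff] at hy
      rw [hy]
      exact Subgroup.mem_zpowers _
    rw [e2, ← e1] at hk2
    have hk3 := (Subgroup.mem_inf.mp hk2).2
    exact (Subgroup.mem_centralizer_iff.mp hk3 x (Set.mem_singleton x)).symm
  intro k hk
  rw [Subgroup.mem_centralizer_iff]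
  intro e he
  exact (Subgroup.mem_centralizer_iff.mp (key he) k hk).symm

example [Finite G] : Cfsg.Agent.H58.KU.StZPrime G := zPrime

end Cfsg.Agent.Lib.Helper30.KU
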