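import Mathlib
import Cfsg.Agent.H58.KUDefs
import Cfsg.Agent.S1417
import Cfsg.Agent.S1419
import Cfsg.Agent.H47.BG1216E1
import Cfsg.Agent.Lib.Helper30.ZPrime

set_option autoImplicit false

/-!
# Z-ORD (helper30, for helper58's step (Z) towards S1353 / S1354)

`|E₁| = p`: with `V = Z(M_σ)` (abelian, normal in `M`, nontrivial), `b` fixed-point-free on `V`,
`e` a generator of `E₁` and `y` a generator of `P`, the counting lemma `FC.StSub` gives
`|V| = |C_V(e)| ^ o(e) = |C_V(y)| ^ p` and `C_V(e) = C_V(y)` (prime action), so `o(e) = p`.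
-/

namespace Cfsg.Agent.Lib.Helper30.KU

open Cfsg Subgroup Cfsg.Agent.H76.NCKill Cfsg.Agent.H58.KU

universe u

variable {G : Type u} [Group G]

/-- Membership in the centre of a subgroup, seen in the ambient group. -/
theorem mem_map_center {H : Subgroup G} {v : G} :
    v ∈ (Subgroup.center ↥H).map H.subtype ↔ v ∈ H ∧ ∀ x ∈ H, x * v = v * x := by
  constructor
  · rintro ⟨⟨w, hw⟩, hc, rfl⟩
    refine ⟨hw, fun x hx => ?_⟩
    have h1 := Subgroup.mem_center_iff.mp hc ⟨x, hx⟩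
    exact congrArg Subtype.val h1
  · rintro ⟨hv, hc⟩
    refine ⟨⟨v, hv⟩, ?_, rfl⟩
    show (⟨v, hv⟩ : ↥H) ∈ Subgroup.center ↥H
    rw [Subgroup.mem_center_iff]
    intro x
    exact Subtype.ext (hc x.1 x.2)

/-- A generator of a cyclic subgroup, as an element of the ambient group. -/
theorem exists_generator_of_isCyclic [Finite G] {K : Subgroup G} (hK : IsCyclic K) :
    ∃ e ∈ K, orderOf e = Nat.card K ∧ ∀ x ∈ K, x ∈ zpowers e := by
  obtain ⟨z, hz⟩ := hK.exists_generator
  refine ⟨z.1, z.2, ?_, ?_⟩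
  · rw [Subgroup.orderOf_coe]
    exact orderOf_eq_card_of_forall_mem_zpowers hz
  · intro x hx
    obtain ⟨i, hi⟩ := Subgroup.mem_zpowers_iff.mp (hz ⟨x, hx⟩)
    exact Subgroup.mem_zpowers_iff.mpr ⟨i, by rw [← Subgroup.coe_zpow, hi]⟩

theorem zOrd [Finite G] : Cfsg.Agent.H58.KU.StZOrd G := by
  intro hG hSub M E A P r p _ h E1 hE1 hcyc hPE1 hK b hbA hbr hbne hnorm hfaith
  have hr : r.Prime := Fact.out
  have hp : p.Prime := h.tau1.1
  have hEM : E ≤ M := h.compl.1
  have hE1E : E1 ≤ E := hE1.1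
  have hbE : b ∈ E := h.AE hbA
  obtain ⟨V, hV⟩ : ∃ V : Subgroup G,
      V = (Subgroup.center ↥(sigmaCore M)).map (sigmaCore M).subtype := ⟨_, rfl⟩
  have hVmem : ∀ v, v ∈ V ↔ v ∈ sigmaCore M ∧ ∀ x ∈ sigmaCore M, x * v = v * x := by
    intro v
    rw [hV]
    exact mem_map_center
  have hVcomm : ∀ x ∈ V, ∀ y ∈ V, x * y = y * x := by
    intro x hx y hy
    exact ((hVmem y).mp hy).2 x ((hVmem x).mp hx).1
  have hMV : M ≤ normalizer (V : Set G) := by
    rw [Subgroup.le_normalizer_iff]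
    intro m hm v hv
    rw [hVmem] at hv ⊢
    refine ⟨Cfsg.Agent.H47.BG12.conj_mem_sigmaCore hm hv.1, fun x hx => ?_⟩
    have h1 : m⁻¹ * x * m ∈ sigmaCore M := by
      have h0 := Cfsg.Agent.H47.BG12.conj_mem_sigmaCore (inv_mem hm) hx
      simpa using h0
    have h2 := hv.2 _ h1
    calc x * (m * v * m⁻¹) = m * ((m⁻¹ * x * m) * v) * m⁻¹ := by group
      _ = m * (v * (m⁻¹ * x * m)) * m⁻¹ := by rw [h2]
      _ = m * v * m⁻¹ * x := by group
  have hσnil : Group.IsNilpotent ↥(sigmaCore M) :=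
    (Cfsg.Agent.S1417.result hG M h.coatom r h.tau2 A ⟨h.AE.trans hEM, h.Ael, h.Acard⟩).1
  have hσne : sigmaCore M ≠ ⊥ := by
    intro h0
    apply h.Kstar
    rw [h0]
    exact bot_inf_eq _
  have hVne : V ≠ ⊥ := by
    haveI : Nontrivial ↥(sigmaCore M) := (Subgroup.nontrivial_iff_ne_bot _).mpr hσne
    have hc : Subgroup.center ↥(sigmaCore M) ≠ ⊥ :=
      Group.IsNilpotent.center_ne_bot ↥(sigmaCore M)
    intro h0
    apply hc
    rw [eq_bot_iff]
    intro z hz
    have h1 : (z : G) ∈ V := by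
      rw [hV]
      exact ⟨z, hz, rfl⟩
    rw [h0, Subgroup.mem_bot] at h1
    rw [Subgroup.mem_bot]
    exact Subtype.ext h1
  have h19 := (Cfsg.Agent.S1419.result hG M h.coatom E h.compl r h.tau2 h.nonab A
    ⟨h.AE, h.Ael, h.Acard⟩).2.2 (zpowers b) ((Subgroup.zpowers_le).mpr hbE)
    (by rw [Nat.card_zpowers, hbr]) hbne
  have hfpf : ∀ v ∈ V, b * v = v * b → v = 1 := by
    intro v hv hbv
    have h1 : v ∈ sigmaCore M ⊓ centralizer ((zpowers b : Subgroup G) : Set G) :=
      Subgroup.mem_inf.mpr ⟨((hVmem v).mp hv).1, mem_centralizer_zpowers hbv⟩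
    rw [h19.1] at h1
    exact Subgroup.mem_bot.mp h1
  obtain ⟨e, heE1, heo, hegen⟩ := exists_generator_of_isCyclic hcyc
  have hPcyc : IsCyclic ↥P := by
    haveI : Fact p.Prime := ⟨hp⟩
    exact isCyclic_of_prime_card h.Pcard
  obtain ⟨y, hyP, hyo, hygen⟩ := exists_generator_of_isCyclic hPcyc
  rw [h.Pcard] at hyo
  have hcommP : ∀ x ∈ E1, ∀ g ∈ P, x * g = g * x := fun x hx g hg =>
    comm_of_isCyclic hcyc x hx g (hPE1 hg)
  have hsub : ∀ x ∈ E1,
      Nat.card V = Nat.card ↥(V ⊓ centralizer ({x} : Set G)) ^ orderOf x := by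
    intro x hx
    exact hSub V b x r hr inferInstance hVcomm (hMV (hEM hbE)) (hMV (hEM (hE1E hx))) hbr
      (hnorm x (hE1E hx) (hcommP x hx))
      (fun i hi => hfaith (x ^ i) (pow_mem hx i) hi) hfpf (orderOf_pos x)
  have h1 := hsub e heE1
  have h2 := hsub y (hPE1 hyP)
  have heq : V ⊓ centralizer ({e} : Set G) = V ⊓ centralizer ({y} : Set G) := by
    apply le_antisymm
    · intro v hv
      refine Subgroup.mem_inf.mpr ⟨(Subgroup.mem_inf.mp hv).1, ?_⟩
      have hve : e * v = v * e :=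
        Subgroup.mem_centralizer_iff.mp (Subgroup.mem_inf.mp hv).2 e (Set.mem_singleton e)
      have h3 := mem_centralizer_zpowers hve
      rw [Subgroup.mem_centralizer_iff]
      intro z hz
      rw [Set.mem_singleton_iff] at hz
      rw [hz]
      exact Subgroup.mem_centralizer_iff.mp h3 y (hegen y (hPE1 hyP))
    · intro v hv
      refine Subgroup.mem_inf.mpr ⟨(Subgroup.mem_inf.mp hv).1, ?_⟩
      have hvy : y * v = v * y :=
        Subgroup.mem_centralizer_iff.mp (Subgroup.mem_inf.mp hv).2 y (Set.mem_singleton y)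
      have hvP : v ∈ centralizer (P : Set G) := by
        have h3 := mem_centralizer_zpowers hvy
        rw [Subgroup.mem_centralizer_iff]
        intro g hg
        exact Subgroup.mem_centralizer_iff.mp h3 g (hygen g hg)
      have hvK : v ∈ sigmaCore M ⊓ centralizer (P : Set G) :=
        Subgroup.mem_inf.mpr ⟨((hVmem v).mp (Subgroup.mem_inf.mp hv).1).1, hvP⟩
      have h4 := hK hvK
      rw [Subgroup.mem_centralizer_iff]
      intro z hz
      rw [Set.mem_singleton_iff] at hz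
      rw [hz]
      exact Subgroup.mem_centralizer_iff.mp h4 e heE1
  rw [heq] at h1
  rw [hyo] at h2
  have hVcard : 2 ≤ Nat.card V := by
    have h5 := (Subgroup.one_lt_card_iff_ne_bot V).mpr hVne
    omega
  have hc2 : 2 ≤ Nat.card ↥(V ⊓ centralizer ({y} : Set G)) := by
    by_contra hlt
    have h6 : Nat.card ↥(V ⊓ centralizer ({y} : Set G)) = 0 ∨
        Nat.card ↥(V ⊓ centralizer ({y} : Set G)) = 1 := by omega
    rcases h6 with h0 | h0
    · rw [h0, zero_pow hp.ne_zero] at h2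
      omega
    · rw [h0, one_pow] at h2
      omega
  have h7 : orderOf e = p := Nat.pow_right_injective hc2 (h1.symm.trans h2)
  rw [← heo]
  exact h7

example [Finite G] : Cfsg.Agent.H58.KU.StZOrd G := zOrd

end Cfsg.Agent.Lib.Helper30.KU
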